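import Mathlib.LinearAlgebra.Pi
import Mathlib.Algebra.Module.LinearMap.End
import Mathlib.Tactic
/-! Kernel evaluator for words in structured 4371-dimensional rational matrices (helper5): data types. -/
namespace CfsgH5.BE
noncomputable section

inductive I16 | i0 | i1 | i2 | i3 | i4 | i5 | i6 | i7 | i8 | i9 | i10 | i11 | i12 | i13 | i14 | i15
inductive I18 | j0 | j1 | j2 | j3 | j4 | j5 | j6 | j7 | j8 | j9 | j10 | j11 | j12 | j13 | j14 | j15 | j16 | j17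
inductive T16 (α : Type) | mk (a0 a1 a2 a3 a4 a5 a6 a7 a8 a9 a10 a11 a12 a13 a14 a15 : α)
inductive T18 (α : Type) | mk (a0 a1 a2 a3 a4 a5 a6 a7 a8 a9 a10 a11 a12 a13 a14 a15 a16 a17 : α)
inductive Tb | mk (a1 a3 a9 a27 a81 n1 n3 n9 n27 n81 : ℕ → ℕ)
inductive R | mk (p n : Tb → ℕ)
inductive E | p (a : I18) (b c : I16) | n (a : I18) (b c : I16)
abbrev Tr (α : Type) := T18 (T16 (T16 α))
abbrev St := Tr R
abbrev Tab := Tr E

def sel16 {α : Type} (i : I16) (t : T16 α) : α :=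
  I16.rec (motive := fun _ => α) t.1 t.2 t.3 t.4 t.5 t.6 t.7 t.8 t.9 t.10 t.11 t.12 t.13 t.14 t.15 t.16 i
def map16 {α β : Type} (f : α → β) (t : T16 α) : T16 β :=
  T16.rec (fun a0 a1 a2 a3 a4 a5 a6 a7 a8 a9 a10 a11 a12 a13 a14 a15 => T16.mk (f a0) (f a1) (f a2) (f a3) (f a4) (f a5) (f a6) (f a7) (f a8) (f a9) (f a10) (f a11) (f a12) (f a13) (f a14) (f a15)) t
def mapI16 {α β : Type} (f : ℕ → α → β) (b : ℕ) (t : T16 α) : T16 β :=
  T16.rec (fun a0 a1 a2 a3 a4 a5 a6 a7 a8 a9 a10 a11 a12 a13 a14 a15 => T16.mk (f (Nat.add b 0) a0) (f (Nat.add b 1) a1) (f (Nat.add b 2) a2) (f (Nat.add b 3) a3) (f (Nat.add b 4) a4) (f (Nat.add b 5) a5) (f (Nat.add b 6) a6) (f (Nat.add b 7) a7) (f (Nat.add b 8) a8) (f (Nat.add b 9) a9) (f (Nat.add b 10) a10) (f (Nat.add b 11) a11) (f (Nat.add b 12) a12) (f (Nat.add b 13) a13) (f (Nat.add b 14) a14) (f (Nat.add b 15) a15)) t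
def sum16 (t : T16 ℕ) : ℕ :=
  T16.rec (fun a0 a1 a2 a3 a4 a5 a6 a7 a8 a9 a10 a11 a12 a13 a14 a15 => (Nat.add (Nat.add (Nat.add (Nat.add (Nat.add (Nat.add (Nat.add (Nat.add (Nat.add (Nat.add (Nat.add (Nat.add (Nat.add (Nat.add (Nat.add a0 a1) a2) a3) a4) a5) a6) a7) a8) a9) a10) a11) a12) a13) a14) a15)) t
def all216 {α : Type} (f : α → α → Bool) (t u : T16 α) : Bool :=
  T16.rec (fun a0 a1 a2 a3 a4 a5 a6 a7 a8 a9 a10 a11 a12 a13 a14 a15 => T16.rec (fun b0 b1 b2 b3 b4 b5 b6 b7 b8 b9 b10 b11 b12 b13 b14 b15 => (Bool.rec false (Bool.rec false (Bool.rec false (Bool.rec false (Bool.rec false (Bool.rec false (Bool.rec false (Bool.rec false (Bool.rec false (Bool.rec false (Bool.rec false (Bool.rec false (Bool.rec false (Bool.rec false (Bool.rec false (Bool.rec false true (f a15 b15)) (f a14 b14)) (f a13 b13)) (f a12 b12)) (f a11 b11)) (f a10 b10)) (f a9 b9)) (f a8 b8)) (f a7 b7)) (f a6 b6)) (f a5 b5)) (f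 a4 b4)) (f a3 b3)) (f a2 b2)) (f a1 b1)) (f a0 b0))) u) t
def val16 (i : I16) : ℕ := I16.rec (motive := fun _ => ℕ) 0 1 2 3 4 5 6 7 8 9 10 11 12 13 14 15 i
def to16 (k : ℕ) : I16 := (Bool.rec (motive := fun _ => I16) (Bool.rec (motive := fun _ => I16) (Bool.rec (motive := fun _ => I16) (Bool.rec (motive := fun _ => I16) I16.i0 I16.i1 (Nat.ble 1 k)) (Bool.rec (motive := fun _ => I16) I16.i2 I16.i3 (Nat.ble 3 k)) (Nat.ble 2 k)) (Bool.rec (motive := fun _ => I16) (Bool.rec (motive := fun _ => I16) I16.i4 I16.i5 (Nat.ble 5 k)) (Bool.rec (motive := fun _ => I16) I16.i6 I16.i7 (Nat.ble 7 k)) (Nat.ble 6 k)) (Nat.ble 4 k)) (Bool.rec (motive := fun _ => I16) (Bool.rec (motive := fun _ => I16) (Bool.rec (motive := fun _ => I16) I16.i8 I16.i9 (Nat.ble 9 k)) (Bool.rec (motive := fun _ => I16) I16.i10 I16.i11 (Nat.ble 11 k)) (Nat.ble 10 k)) (Bool.rec (motive := fun _ => I16) (Bool.rec (motive := fun _ => I16) I16.i12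 I16.i13 (Nat.ble 13 k)) (Bool.rec (motive := fun _ => I16) I16.i14 I16.i15 (Nat.ble 15 k)) (Nat.ble 14 k)) (Nat.ble 12 k)) (Nat.ble 8 k))
def cst16 {α : Type} (a : α) : T16 α := T16.mk a a a a a a a a a a a a a a a a
theorem sel_map16 {α β : Type} (f : α → β) (t : T16 α) (i : I16) : sel16 i (map16 f t) = f (sel16 i t) := by
  cases t; cases i <;> rfl
theorem sel_mapI16 {α β : Type} (f : ℕ → α → β) (b : ℕ) (t : T16 α) (i : I16) :
    sel16 i (mapI16 f b t) = f (b + val16 i) (sel16 i t) := by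
  cases t; cases i <;> rfl
theorem sum16_zero (t : T16 ℕ) (h : sum16 t = 0) (i : I16) : sel16 i t = 0 := by
  obtain ⟨a0, a1, a2, a3, a4, a5, a6, a7, a8, a9, a10, a11, a12, a13, a14, a15⟩ := t
  simp only [sum16, Nat.add_eq, Nat.add_eq_zero_iff] at h
  cases i <;> simp only [sel16] <;> omega
theorem all216_sel {α : Type} (f : α → α → Bool) (t u : T16 α) (h : all216 f t u = true) (i : I16) :
    f (sel16 i t) (sel16 i u) = true := by
  obtain ⟨a0, a1, a2, a3, a4, a5, a6, a7, a8, a9, a10, a11, a12, a13, a14, a15⟩ := t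
  obtain ⟨b0, b1, b2, b3, b4, b5, b6, b7, b8, b9, b10, b11, b12, b13, b14, b15⟩ := u
  have key : ∀ x y : Bool, (Bool.rec false x y : Bool) = true ↔ (y = true ∧ x = true) := by decide
  simp only [all216, key] at h
  cases i <;> simp only [sel16] <;> tauto
theorem to_val16 (i : I16) : to16 (val16 i) = i := by cases i <;> rfl
theorem val_lt16 (i : I16) : val16 i < 16 := by cases i <;> decide
theorem val_to16 : ∀ k, k < 16 → val16 (to16 k) = k := by decide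

def sel18 {α : Type} (i : I18) (t : T18 α) : α :=
  I18.rec (motive := fun _ => α) t.1 t.2 t.3 t.4 t.5 t.6 t.7 t.8 t.9 t.10 t.11 t.12 t.13 t.14 t.15 t.16 t.17 t.18 i
def map18 {α β : Type} (f : α → β) (t : T18 α) : T18 β :=
  T18.rec (fun a0 a1 a2 a3 a4 a5 a6 a7 a8 a9 a10 a11 a12 a13 a14 a15 a16 a17 => T18.mk (f a0) (f a1) (f a2) (f a3) (f a4) (f a5) (f a6) (f a7) (f a8) (f a9) (f a10) (f a11) (f a12) (f a13) (f a14) (f a15) (f a16) (f a17)) t
def mapI18 {α β : Type} (f : ℕ → α → β) (b : ℕ) (t : T18 α) : T18 β :=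
  T18.rec (fun a0 a1 a2 a3 a4 a5 a6 a7 a8 a9 a10 a11 a12 a13 a14 a15 a16 a17 => T18.mk (f (Nat.add b 0) a0) (f (Nat.add b 1) a1) (f (Nat.add b 2) a2) (f (Nat.add b 3) a3) (f (Nat.add b 4) a4) (f (Nat.add b 5) a5) (f (Nat.add b 6) a6) (f (Nat.add b 7) a7) (f (Nat.add b 8) a8) (f (Nat.add b 9) a9) (f (Nat.add b 10) a10) (f (Nat.add b 11) a11) (f (Nat.add b 12) a12) (f (Nat.add b 13) a13) (f (Nat.add b 14) a14) (f (Nat.add b 15) a15) (f (Nat.add b 16) a16) (f (Nat.add b 17) a17)) t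
def sum18 (t : T18 ℕ) : ℕ :=
  T18.rec (fun a0 a1 a2 a3 a4 a5 a6 a7 a8 a9 a10 a11 a12 a13 a14 a15 a16 a17 => (Nat.add (Nat.add (Nat.add (Nat.add (Nat.add (Nat.add (Nat.add (Nat.add (Nat.add (Nat.add (Nat.add (Nat.add (Nat.add (Nat.add (Nat.add (Nat.add (Nat.add a0 a1) a2) a3) a4) a5) a6) a7) a8) a9) a10) a11) a12) a13) a14) a15) a16) a17)) t
def all218 {α : Type} (f : α → α → Bool) (t u : T18 α) : Bool :=
  T18.rec (fun a0 a1 a2 a3 a4 a5 a6 a7 a8 a9 a10 a11 a12 a13 a14 a15 a16 a17 => T18.rec (fun b0 b1 b2 b3 b4 b5 b6 b7 b8 b9 b10 b11 b12 b13 b14 b15 b16 b17 => (Bool.rec false (Bool.rec false (Bool.rec false (Bool.rec false (Bool.rec false (Bool.rec false (Bool.rec false (Bool.rec false (Bool.rec false (Bool.rec false (Bool.rec false (Bool.rec false (Bool.rec false (Bool.rec false (Bool.rec false (Bool.rec false (Bool.rec false (Bool.rec false true (f a17 b17)) (f a16 b16)) (f a15 b15)) (f a14 b14))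 (f a13 b13)) (f a12 b12)) (f a11 b11)) (f a10 b10)) (f a9 b9)) (f a8 b8)) (f a7 b7)) (f a6 b6)) (f a5 b5)) (f a4 b4)) (f a3 b3)) (f a2 b2)) (f a1 b1)) (f a0 b0))) u) t
def val18 (i : I18) : ℕ := I18.rec (motive := fun _ => ℕ) 0 1 2 3 4 5 6 7 8 9 10 11 12 13 14 15 16 17 i
def to18 (k : ℕ) : I18 := (Bool.rec (motive := fun _ => I18) (Bool.rec (motive := fun _ => I18) (Bool.rec (motive := fun _ => I18) (Bool.rec (motive := fun _ => I18) I18.j0 I18.j1 (Nat.ble 1 k)) (Bool.rec (motive := fun _ => I18) I18.j2 I18.j3 (Nat.ble 3 k)) (Nat.ble 2 k)) (Bool.rec (motive := fun _ => I18) (Bool.rec (motive := fun _ => I18) I18.j4 I18.j5 (Nat.ble 5 k)) (Bool.rec (motive := fun _ => I18) I18.j6 (Bool.rec (motive := fun _ => I18) I18.j7 I18.j8 (Nat.ble 8 k)) (Nat.ble 7 k)) (Nat.ble 6 k)) (Nat.ble 4 k)) (Bool.rec (motive := fun _ => I18) (Bool.rec (motive := fun _ => I18) (Bool.rec (motive := fun _ => I18) I18.j9 I18.j10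 (Nat.ble 10 k)) (Bool.rec (motive := fun _ => I18) I18.j11 I18.j12 (Nat.ble 12 k)) (Nat.ble 11 k)) (Bool.rec (motive := fun _ => I18) (Bool.rec (motive := fun _ => I18) I18.j13 I18.j14 (Nat.ble 14 k)) (Bool.rec (motive := fun _ => I18) I18.j15 (Bool.rec (motive := fun _ => I18) I18.j16 I18.j17 (Nat.ble 17 k)) (Nat.ble 16 k)) (Nat.ble 15 k)) (Nat.ble 13 k)) (Nat.ble 9 k))
def cst18 {α : Type} (a : α) : T18 α := T18.mk a a a a a a a a a a a a a a a a a a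
theorem sel_map18 {α β : Type} (f : α → β) (t : T18 α) (i : I18) : sel18 i (map18 f t) = f (sel18 i t) := by
  cases t; cases i <;> rfl
theorem sel_mapI18 {α β : Type} (f : ℕ → α → β) (b : ℕ) (t : T18 α) (i : I18) :
    sel18 i (mapI18 f b t) = f (b + val18 i) (sel18 i t) := by
  cases t; cases i <;> rfl
theorem sum18_zero (t : T18 ℕ) (h : sum18 t = 0) (i : I18) : sel18 i t = 0 := by
  obtain ⟨a0, a1, a2, a3, a4, a5, a6, a7, a8, a9, a10, a11, a12, a13, a14, a15, a16, a17⟩ := t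
  simp only [sum18, Nat.add_eq, Nat.add_eq_zero_iff] at h
  cases i <;> simp only [sel18] <;> omega
theorem all218_sel {α : Type} (f : α → α → Bool) (t u : T18 α) (h : all218 f t u = true) (i : I18) :
    f (sel18 i t) (sel18 i u) = true := by
  obtain ⟨a0, a1, a2, a3, a4, a5, a6, a7, a8, a9, a10, a11, a12, a13, a14, a15, a16, a17⟩ := t
  obtain ⟨b0, b1, b2, b3, b4, b5, b6, b7, b8, b9, b10, b11, b12, b13, b14, b15, b16, b17⟩ := u
  have key : ∀ x y : Bool, (Bool.rec false x y : Bool) = true ↔ (y = true ∧ x = true) := by decide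
  simp only [all218, key] at h
  cases i <;> simp only [sel18] <;> tauto
theorem to_val18 (i : I18) : to18 (val18 i) = i := by cases i <;> rfl
theorem val_lt18 (i : I18) : val18 i < 18 := by cases i <;> decide
theorem val_to18 : ∀ k, k < 18 → val18 (to18 k) = k := by decide

def selR (i : I16) : T16 R → R :=
  I16.rec (motive := fun _ => T16 R → R) (fun t => t.1) (fun t => t.2) (fun t => t.3) (fun t => t.4) (fun t => t.5) (fun t => t.6) (fun t => t.7) (fun t => t.8) (fun t => t.9) (fun t => t.10) (fun t => t.11) (fun t => t.12) (fun t => t.13) (fun t => t.14) (fun t => t.15) (fun t => t.16) i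
theorem selR_eq (i : I16) (t : T16 R) : selR i t = sel16 i t := by cases i <;> rfl
def selM (i : I16) : T16 (T16 R) → T16 R :=
  I16.rec (motive := fun _ => T16 (T16 R) → T16 R) (fun t => t.1) (fun t => t.2) (fun t => t.3) (fun t => t.4) (fun t => t.5) (fun t => t.6) (fun t => t.7) (fun t => t.8) (fun t => t.9) (fun t => t.10) (fun t => t.11) (fun t => t.12) (fun t => t.13) (fun t => t.14) (fun t => t.15) (fun t => t.16) i
theorem selM_eq (i : I16) (t : T16 (T16 R)) : selM i t = sel16 i t := by cases i <;> rfl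
def selT (i : I18) : St → T16 (T16 R) :=
  I18.rec (motive := fun _ => St → T16 (T16 R)) (fun t => t.1) (fun t => t.2) (fun t => t.3) (fun t => t.4) (fun t => t.5) (fun t => t.6) (fun t => t.7) (fun t => t.8) (fun t => t.9) (fun t => t.10) (fun t => t.11) (fun t => t.12) (fun t => t.13) (fun t => t.14) (fun t => t.15) (fun t => t.16) (fun t => t.17) (fun t => t.18) i
theorem selT_eq (i : I18) (t : St) : selT i t = sel18 i t := by cases i <;> rfl
def stN0 (t : T16 ℕ) : T16 ℕ :=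
  T16.rec (fun a0 a1 a2 a3 a4 a5 a6 a7 a8 a9 a10 a11 a12 a13 a14 a15 => T16.mk (Nat.add a0 a1) (Nat.sub a0 a1) (Nat.add a2 a3) (Nat.sub a2 a3) (Nat.add a4 a5) (Nat.sub a4 a5) (Nat.add a6 a7) (Nat.sub a6 a7) (Nat.add a8 a9) (Nat.sub a8 a9) (Nat.add a10 a11) (Nat.sub a10 a11) (Nat.add a12 a13) (Nat.sub a12 a13) (Nat.add a14 a15) (Nat.sub a14 a15)) t
def st0 {M : Type} [AddCommGroup M] (t : T16 M) : T16 M :=
  T16.rec (fun a0 a1 a2 a3 a4 a5 a6 a7 a8 a9 a10 a11 a12 a13 a14 a15 => T16.mk (a0 + a1) (a0 - a1) (a2 + a3) (a2 - a3) (a4 + a5) (a4 - a5) (a6 + a7) (a6 - a7) (a8 + a9) (a8 - a9) (a10 + a11) (a10 - a11) (a12 + a13) (a12 - a13) (a14 + a15) (a14 - a15)) t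
def stN1 (t : T16 ℕ) : T16 ℕ :=
  T16.rec (fun a0 a1 a2 a3 a4 a5 a6 a7 a8 a9 a10 a11 a12 a13 a14 a15 => T16.mk (Nat.add a0 a2) (Nat.add a1 a3) (Nat.sub a0 a2) (Nat.sub a1 a3) (Nat.add a4 a6) (Nat.add a5 a7) (Nat.sub a4 a6) (Nat.sub a5 a7) (Nat.add a8 a10) (Nat.add a9 a11) (Nat.sub a8 a10) (Nat.sub a9 a11) (Nat.add a12 a14) (Nat.add a13 a15) (Nat.sub a12 a14) (Nat.sub a13 a15)) t
def st1 {M : Type} [AddCommGroup M] (t : T16 M) : T16 M :=
  T16.rec (fun a0 a1 a2 a3 a4 a5 a6 a7 a8 a9 a10 a11 a12 a13 a14 a15 => T16.mk (a0 + a2) (a1 + a3) (a0 - a2) (a1 - a3) (a4 + a6) (a5 + a7) (a4 - a6) (a5 - a7) (a8 + a10) (a9 + a11) (a8 - a10) (a9 - a11) (a12 + a14) (a13 + a15) (a12 - a14) (a13 - a15)) t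
def stN2 (t : T16 ℕ) : T16 ℕ :=
  T16.rec (fun a0 a1 a2 a3 a4 a5 a6 a7 a8 a9 a10 a11 a12 a13 a14 a15 => T16.mk (Nat.add a0 a4) (Nat.add a1 a5) (Nat.add a2 a6) (Nat.add a3 a7) (Nat.sub a0 a4) (Nat.sub a1 a5) (Nat.sub a2 a6) (Nat.sub a3 a7) (Nat.add a8 a12) (Nat.add a9 a13) (Nat.add a10 a14) (Nat.add a11 a15) (Nat.sub a8 a12) (Nat.sub a9 a13) (Nat.sub a10 a14) (Nat.sub a11 a15)) t
def st2 {M : Type} [AddCommGroup M] (t : T16 M) : T16 M :=
  T16.rec (fun a0 a1 a2 a3 a4 a5 a6 a7 a8 a9 a10 a11 a12 a13 a14 a15 => T16.mk (a0 + a4) (a1 + a5) (a2 + a6) (a3 + a7) (a0 - a4) (a1 - a5) (a2 - a6) (a3 - a7) (a8 + a12) (a9 + a13) (a10 + a14) (a11 + a15) (a8 - a12) (a9 - a13) (a10 - a14) (a11 - a15)) t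
def stN3 (t : T16 ℕ) : T16 ℕ :=
  T16.rec (fun a0 a1 a2 a3 a4 a5 a6 a7 a8 a9 a10 a11 a12 a13 a14 a15 => T16.mk (Nat.add a0 a8) (Nat.add a1 a9) (Nat.add a2 a10) (Nat.add a3 a11) (Nat.add a4 a12) (Nat.add a5 a13) (Nat.add a6 a14) (Nat.add a7 a15) (Nat.sub a0 a8) (Nat.sub a1 a9) (Nat.sub a2 a10) (Nat.sub a3 a11) (Nat.sub a4 a12) (Nat.sub a5 a13) (Nat.sub a6 a14) (Nat.sub a7 a15)) t
def st3 {M : Type} [AddCommGroup M] (t : T16 M) : T16 M :=
  T16.rec (fun a0 a1 a2 a3 a4 a5 a6 a7 a8 a9 a10 a11 a12 a13 a14 a15 => T16.mk (a0 + a8) (a1 + a9) (a2 + a10) (a3 + a11) (a4 + a12) (a5 + a13) (a6 + a14) (a7 + a15) (a0 - a8) (a1 - a9) (a2 - a10) (a3 - a11) (a4 - a12) (a5 - a13) (a6 - a14) (a7 - a15)) t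
def bfN (t : T16 ℕ) : T16 ℕ := stN3 (stN2 (stN1 (stN0 t)))
def bf {M : Type} [AddCommGroup M] (t : T16 M) : T16 M := st3 (st2 (st1 (st0 t)))
theorem st0_map {M M' : Type} [AddCommGroup M] [AddCommGroup M'] (f : M →+ M') (t : T16 M) :
    st0 (map16 f t) = map16 f (st0 t) := by
  cases t; simp only [st0, map16, map_add, map_sub]
theorem st1_map {M M' : Type} [AddCommGroup M] [AddCommGroup M'] (f : M →+ M') (t : T16 M) :
    st1 (map16 f t) = map16 f (st1 t) := by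
  cases t; simp only [st1, map16, map_add, map_sub]
theorem st2_map {M M' : Type} [AddCommGroup M] [AddCommGroup M'] (f : M →+ M') (t : T16 M) :
    st2 (map16 f t) = map16 f (st2 t) := by
  cases t; simp only [st2, map16, map_add, map_sub]
theorem st3_map {M M' : Type} [AddCommGroup M] [AddCommGroup M'] (f : M →+ M') (t : T16 M) :
    st3 (map16 f t) = map16 f (st3 t) := by
  cases t; simp only [st3, map16, map_add, map_sub]
theorem bf_map {M M' : Type} [AddCommGroup M] [AddCommGroup M'] (f : M →+ M') (t : T16 M) (i : I16) :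
    sel16 i (bf (map16 f t)) = f (sel16 i (bf t)) := by
  rw [bf, st0_map, st1_map, st2_map, st3_map, sel_map16]; rfl
theorem vadd {x y : ℕ} {p q : ℤ} (hx : (x : ℤ) = p) (hy : (y : ℤ) = q) : ((Nat.add x y : ℕ) : ℤ) = p + q := by
  simp only [Nat.add_eq]; omega
theorem vsub {x y : ℕ} {p q : ℤ} (hx : (x : ℤ) = p) (hy : (y : ℤ) = q) (h : q ≤ p) :
    ((Nat.sub x y : ℕ) : ℤ) = p - q := by
  simp only [Nat.sub_eq]; omega

theorem bf_bound (t : T16 ℤ) (b : ℤ) (h : ∀ i, |sel16 i t| ≤ b) (k : I16) : |sel16 k (bf t)| ≤ 16 * b := by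
  obtain ⟨a0, a1, a2, a3, a4, a5, a6, a7, a8, a9, a10, a11, a12, a13, a14, a15⟩ := t
  have h0 := abs_le.1 (h I16.i0); simp only [sel16] at h0
  have h1 := abs_le.1 (h I16.i1); simp only [sel16] at h1
  have h2 := abs_le.1 (h I16.i2); simp only [sel16] at h2
  have h3 := abs_le.1 (h I16.i3); simp only [sel16] at h3
  have h4 := abs_le.1 (h I16.i4); simp only [sel16] at h4
  have h5 := abs_le.1 (h I16.i5); simp only [sel16] at h5
  have h6 := abs_le.1 (h I16.i6); simp only [sel16] at h6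
  have h7 := abs_le.1 (h I16.i7); simp only [sel16] at h7
  have h8 := abs_le.1 (h I16.i8); simp only [sel16] at h8
  have h9 := abs_le.1 (h I16.i9); simp only [sel16] at h9
  have h10 := abs_le.1 (h I16.i10); simp only [sel16] at h10
  have h11 := abs_le.1 (h I16.i11); simp only [sel16] at h11
  have h12 := abs_le.1 (h I16.i12); simp only [sel16] at h12
  have h13 := abs_le.1 (h I16.i13); simp only [sel16] at h13
  have h14 := abs_le.1 (h I16.i14); simp only [sel16] at h14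
  have h15 := abs_le.1 (h I16.i15); simp only [sel16] at h15
  cases k <;> simp only [bf, st0, st1, st2, st3, sel16, abs_le] <;> omega

def offI (U bo : ℤ) (i : I16) : ℤ := I16.rec (motive := fun _ => ℤ) (64 * U + 4 * bo) (32 * U) (32 * U) (16 * U) (32 * U) (16 * U) (16 * U) (8 * U) (32 * U) (16 * U) (16 * U) (8 * U) (16 * U) (8 * U) (8 * U) (4 * U) i
def garb (i : I16) : ℤ := I16.rec (motive := fun _ => ℤ) 81 27 27 9 27 9 9 3 27 9 9 3 9 3 3 1 i
theorem bfN_spec (t : T16 ℕ) (F : T16 ℤ) (U bo : ℤ) (hU : 5 * bo ≤ U)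
    (hx : ∀ i, ((sel16 i t : ℕ) : ℤ) = offI U bo i + sel16 i F) (hb : ∀ i, |sel16 i F| ≤ bo) (k : I16) :
    ((sel16 k (bfN t) : ℕ) : ℤ) = 4 * (garb k * U) + 4 * bo + sel16 k (bf F) := by
  obtain ⟨x0, x1, x2, x3, x4, x5, x6, x7, x8, x9, x10, x11, x12, x13, x14, x15⟩ := t
  obtain ⟨f0, f1, f2, f3, f4, f5, f6, f7, f8, f9, f10, f11, f12, f13, f14, f15⟩ := F
  have b0 := abs_le.1 (hb I16.i0); simp only [sel16] at b0
  have s0_0 := hx I16.i0; simp only [sel16, offI] at s0_0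
  have b1 := abs_le.1 (hb I16.i1); simp only [sel16] at b1
  have s0_1 := hx I16.i1; simp only [sel16, offI] at s0_1
  have b2 := abs_le.1 (hb I16.i2); simp only [sel16] at b2
  have s0_2 := hx I16.i2; simp only [sel16, offI] at s0_2
  have b3 := abs_le.1 (hb I16.i3); simp only [sel16] at b3
  have s0_3 := hx I16.i3; simp only [sel16, offI] at s0_3
  have b4 := abs_le.1 (hb I16.i4); simp only [sel16] at b4
  have s0_4 := hx I16.i4; simp only [sel16, offI] at s0_4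
  have b5 := abs_le.1 (hb I16.i5); simp only [sel16] at b5
  have s0_5 := hx I16.i5; simp only [sel16, offI] at s0_5
  have b6 := abs_le.1 (hb I16.i6); simp only [sel16] at b6
  have s0_6 := hx I16.i6; simp only [sel16, offI] at s0_6
  have b7 := abs_le.1 (hb I16.i7); simp only [sel16] at b7
  have s0_7 := hx I16.i7; simp only [sel16, offI] at s0_7
  have b8 := abs_le.1 (hb I16.i8); simp only [sel16] at b8
  have s0_8 := hx I16.i8; simp only [sel16, offI] at s0_8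
  have b9 := abs_le.1 (hb I16.i9); simp only [sel16] at b9
  have s0_9 := hx I16.i9; simp only [sel16, offI] at s0_9
  have b10 := abs_le.1 (hb I16.i10); simp only [sel16] at b10
  have s0_10 := hx I16.i10; simp only [sel16, offI] at s0_10
  have b11 := abs_le.1 (hb I16.i11); simp only [sel16] at b11
  have s0_11 := hx I16.i11; simp only [sel16, offI] at s0_11
  have b12 := abs_le.1 (hb I16.i12); simp only [sel16] at b12
  have s0_12 := hx I16.i12; simp only [sel16, offI] at s0_12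
  have b13 := abs_le.1 (hb I16.i13); simp only [sel16] at b13
  have s0_13 := hx I16.i13; simp only [sel16, offI] at s0_13
  have b14 := abs_le.1 (hb I16.i14); simp only [sel16] at b14
  have s0_14 := hx I16.i14; simp only [sel16, offI] at s0_14
  have b15 := abs_le.1 (hb I16.i15); simp only [sel16] at b15
  have s0_15 := hx I16.i15; simp only [sel16, offI] at s0_15
  clear hx hb
  have s1_0 := vadd s0_0 s0_1
  have s1_1 := vsub s0_0 s0_1 (by linarith [b0.1, b0.2, b1.1, b1.2])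
  have s1_2 := vadd s0_2 s0_3
  have s1_3 := vsub s0_2 s0_3 (by linarith [b2.1, b2.2, b3.1, b3.2])
  have s1_4 := vadd s0_4 s0_5
  have s1_5 := vsub s0_4 s0_5 (by linarith [b4.1, b4.2, b5.1, b5.2])
  have s1_6 := vadd s0_6 s0_7
  have s1_7 := vsub s0_6 s0_7 (by linarith [b6.1, b6.2, b7.1, b7.2])
  have s1_8 := vadd s0_8 s0_9
  have s1_9 := vsub s0_8 s0_9 (by linarith [b8.1, b8.2, b9.1, b9.2])
  have s1_10 := vadd s0_10 s0_11
  have s1_11 := vsub s0_10 s0_11 (by linarith [b10.1, b10.2, b11.1, b11.2])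
  have s1_12 := vadd s0_12 s0_13
  have s1_13 := vsub s0_12 s0_13 (by linarith [b12.1, b12.2, b13.1, b13.2])
  have s1_14 := vadd s0_14 s0_15
  have s1_15 := vsub s0_14 s0_15 (by linarith [b14.1, b14.2, b15.1, b15.2])
  have s2_0 := vadd s1_0 s1_2
  have s2_1 := vadd s1_1 s1_3
  have s2_2 := vsub s1_0 s1_2 (by linarith [b0.1, b0.2, b1.1, b1.2, b2.1, b2.2, b3.1, b3.2])
  have s2_3 := vsub s1_1 s1_3 (by linarith [b0.1, b0.2, b1.1, b1.2, b2.1, b2.2, b3.1, b3.2])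
  have s2_4 := vadd s1_4 s1_6
  have s2_5 := vadd s1_5 s1_7
  have s2_6 := vsub s1_4 s1_6 (by linarith [b4.1, b4.2, b5.1, b5.2, b6.1, b6.2, b7.1, b7.2])
  have s2_7 := vsub s1_5 s1_7 (by linarith [b4.1, b4.2, b5.1, b5.2, b6.1, b6.2, b7.1, b7.2])
  have s2_8 := vadd s1_8 s1_10
  have s2_9 := vadd s1_9 s1_11
  have s2_10 := vsub s1_8 s1_10 (by linarith [b8.1, b8.2, b9.1, b9.2, b10.1, b10.2, b11.1, b11.2])
  have s2_11 := vsub s1_9 s1_11 (by linarith [b8.1, b8.2, b9.1, b9.2, b10.1, b10.2, b11.1, b11.2])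
  have s2_12 := vadd s1_12 s1_14
  have s2_13 := vadd s1_13 s1_15
  have s2_14 := vsub s1_12 s1_14 (by linarith [b12.1, b12.2, b13.1, b13.2, b14.1, b14.2, b15.1, b15.2])
  have s2_15 := vsub s1_13 s1_15 (by linarith [b12.1, b12.2, b13.1, b13.2, b14.1, b14.2, b15.1, b15.2])
  have s3_0 := vadd s2_0 s2_4
  have s3_1 := vadd s2_1 s2_5
  have s3_2 := vadd s2_2 s2_6
  have s3_3 := vadd s2_3 s2_7
  have s3_4 := vsub s2_0 s2_4 (by linarith [b0.1, b0.2, b1.1, b1.2, b2.1, b2.2, b3.1, b3.2, b4.1, b4.2, b5.1, b5.2, b6.1, b6.2, b7.1, b7.2])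
  have s3_5 := vsub s2_1 s2_5 (by linarith [b0.1, b0.2, b1.1, b1.2, b2.1, b2.2, b3.1, b3.2, b4.1, b4.2, b5.1, b5.2, b6.1, b6.2, b7.1, b7.2])
  have s3_6 := vsub s2_2 s2_6 (by linarith [b0.1, b0.2, b1.1, b1.2, b2.1, b2.2, b3.1, b3.2, b4.1, b4.2, b5.1, b5.2, b6.1, b6.2, b7.1, b7.2])
  have s3_7 := vsub s2_3 s2_7 (by linarith [b0.1, b0.2, b1.1, b1.2, b2.1, b2.2, b3.1, b3.2, b4.1, b4.2, b5.1, b5.2, b6.1, b6.2, b7.1, b7.2])
  have s3_8 := vadd s2_8 s2_12
  have s3_9 := vadd s2_9 s2_13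
  have s3_10 := vadd s2_10 s2_14
  have s3_11 := vadd s2_11 s2_15
  have s3_12 := vsub s2_8 s2_12 (by linarith [b8.1, b8.2, b9.1, b9.2, b10.1, b10.2, b11.1, b11.2, b12.1, b12.2, b13.1, b13.2, b14.1, b14.2, b15.1, b15.2])
  have s3_13 := vsub s2_9 s2_13 (by linarith [b8.1, b8.2, b9.1, b9.2, b10.1, b10.2, b11.1, b11.2, b12.1, b12.2, b13.1, b13.2, b14.1, b14.2, b15.1, b15.2])
  have s3_14 := vsub s2_10 s2_14 (by linarith [b8.1, b8.2, b9.1, b9.2, b10.1, b10.2, b11.1, b11.2, b12.1, b12.2, b13.1, b13.2, b14.1, b14.2, b15.1, b15.2])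
  have s3_15 := vsub s2_11 s2_15 (by linarith [b8.1, b8.2, b9.1, b9.2, b10.1, b10.2, b11.1, b11.2, b12.1, b12.2, b13.1, b13.2, b14.1, b14.2, b15.1, b15.2])
  have s4_0 := vadd s3_0 s3_8
  have s4_1 := vadd s3_1 s3_9
  have s4_2 := vadd s3_2 s3_10
  have s4_3 := vadd s3_3 s3_11
  have s4_4 := vadd s3_4 s3_12
  have s4_5 := vadd s3_5 s3_13
  have s4_6 := vadd s3_6 s3_14
  have s4_7 := vadd s3_7 s3_15
  have s4_8 := vsub s3_0 s3_8 (by linarith [b0.1, b0.2, b1.1, b1.2, b2.1, b2.2, b3.1, b3.2, b4.1, b4.2, b5.1, b5.2, b6.1, b6.2, b7.1, b7.2, b8.1, b8.2, b9.1, b9.2, b10.1, b10.2, b11.1, b11.2, b12.1, b12.2, b13.1, b13.2, b14.1, b14.2, b15.1, b15.2])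
  have s4_9 := vsub s3_1 s3_9 (by linarith [b0.1, b0.2, b1.1, b1.2, b2.1, b2.2, b3.1, b3.2, b4.1, b4.2, b5.1, b5.2, b6.1, b6.2, b7.1, b7.2, b8.1, b8.2, b9.1, b9.2, b10.1, b10.2, b11.1, b11.2, b12.1, b12.2, b13.1, b13.2, b14.1, b14.2, b15.1, b15.2])
  have s4_10 := vsub s3_2 s3_10 (by linarith [b0.1, b0.2, b1.1, b1.2, b2.1, b2.2, b3.1, b3.2, b4.1, b4.2, b5.1, b5.2, b6.1, b6.2, b7.1, b7.2, b8.1, b8.2, b9.1, b9.2, b10.1, b10.2, b11.1, b11.2, b12.1, b12.2, b13.1, b13.2, b14.1, b14.2, b15.1, b15.2])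
  have s4_11 := vsub s3_3 s3_11 (by linarith [b0.1, b0.2, b1.1, b1.2, b2.1, b2.2, b3.1, b3.2, b4.1, b4.2, b5.1, b5.2, b6.1, b6.2, b7.1, b7.2, b8.1, b8.2, b9.1, b9.2, b10.1, b10.2, b11.1, b11.2, b12.1, b12.2, b13.1, b13.2, b14.1, b14.2, b15.1, b15.2])
  have s4_12 := vsub s3_4 s3_12 (by linarith [b0.1, b0.2, b1.1, b1.2, b2.1, b2.2, b3.1, b3.2, b4.1, b4.2, b5.1, b5.2, b6.1, b6.2, b7.1, b7.2, b8.1, b8.2, b9.1, b9.2, b10.1, b10.2, b11.1, b11.2, b12.1, b12.2, b13.1, b13.2, b14.1, b14.2, b15.1, b15.2])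
  have s4_13 := vsub s3_5 s3_13 (by linarith [b0.1, b0.2, b1.1, b1.2, b2.1, b2.2, b3.1, b3.2, b4.1, b4.2, b5.1, b5.2, b6.1, b6.2, b7.1, b7.2, b8.1, b8.2, b9.1, b9.2, b10.1, b10.2, b11.1, b11.2, b12.1, b12.2, b13.1, b13.2, b14.1, b14.2, b15.1, b15.2])
  have s4_14 := vsub s3_6 s3_14 (by linarith [b0.1, b0.2, b1.1, b1.2, b2.1, b2.2, b3.1, b3.2, b4.1, b4.2, b5.1, b5.2, b6.1, b6.2, b7.1, b7.2, b8.1, b8.2, b9.1, b9.2, b10.1, b10.2, b11.1, b11.2, b12.1, b12.2, b13.1, b13.2, b14.1, b14.2, b15.1, b15.2])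
  have s4_15 := vsub s3_7 s3_15 (by linarith [b0.1, b0.2, b1.1, b1.2, b2.1, b2.2, b3.1, b3.2, b4.1, b4.2, b5.1, b5.2, b6.1, b6.2, b7.1, b7.2, b8.1, b8.2, b9.1, b9.2, b10.1, b10.2, b11.1, b11.2, b12.1, b12.2, b13.1, b13.2, b14.1, b14.2, b15.1, b15.2])
  cases k
  · exact s4_0.trans (by simp only [bf, st0, st1, st2, st3, sel16, garb]; ring)
  · exact s4_1.trans (by simp only [bf, st0, st1, st2, st3, sel16, garb]; ring)
  · exact s4_2.trans (by simp only [bf, st0, st1, st2, st3, sel16, garb]; ring)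
  · exact s4_3.trans (by simp only [bf, st0, st1, st2, st3, sel16, garb]; ring)
  · exact s4_4.trans (by simp only [bf, st0, st1, st2, st3, sel16, garb]; ring)
  · exact s4_5.trans (by simp only [bf, st0, st1, st2, st3, sel16, garb]; ring)
  · exact s4_6.trans (by simp only [bf, st0, st1, st2, st3, sel16, garb]; ring)
  · exact s4_7.trans (by simp only [bf, st0, st1, st2, st3, sel16, garb]; ring)
  · exact s4_8.trans (by simp only [bf, st0, st1, st2, st3, sel16, garb]; ring)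
  · exact s4_9.trans (by simp only [bf, st0, st1, st2, st3, sel16, garb]; ring)
  · exact s4_10.trans (by simp only [bf, st0, st1, st2, st3, sel16, garb]; ring)
  · exact s4_11.trans (by simp only [bf, st0, st1, st2, st3, sel16, garb]; ring)
  · exact s4_12.trans (by simp only [bf, st0, st1, st2, st3, sel16, garb]; ring)
  · exact s4_13.trans (by simp only [bf, st0, st1, st2, st3, sel16, garb]; ring)
  · exact s4_14.trans (by simp only [bf, st0, st1, st2, st3, sel16, garb]; ring)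
  · exact s4_15.trans (by simp only [bf, st0, st1, st2, st3, sel16, garb]; ring)

end
end CfsgH5.BE
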