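import Cfsg.Agent.H5.BEa
/-! Kernel evaluator (helper5): packed digits, rows, tables. -/
namespace CfsgH5.BE
noncomputable section

def ph : ℕ → (ℕ → ℤ) → ℤ
  | 0, _ => 0
  | n + 1, d => d 0 + 16384 * ph n (fun c => d (c + 1))

theorem ph_add (n : ℕ) : ∀ d e : ℕ → ℤ, ph n (d + e) = ph n d + ph n e := by
  induction n with
  | zero => intro d e; rfl
  | succ n ih =>
    intro d e
    have := ih (fun c => d (c + 1)) (fun c => e (c + 1))
    simp only [ph, Pi.add_apply]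
    rw [show (fun c => d (c + 1) + e (c + 1)) = (fun c => d (c + 1)) + (fun c => e (c + 1)) from rfl, this]; ring

theorem ph_mul (n : ℕ) (k : ℤ) : ∀ d : ℕ → ℤ, ph n (fun c => k * d c) = k * ph n d := by
  induction n with
  | zero => intro d; simp [ph]
  | succ n ih => intro d; simp only [ph]; rw [ih (fun c => d (c + 1))]; ring

def phH (n : ℕ) : (ℕ → ℤ) →+ ℤ where
  toFun := ph n
  map_zero' := by have := ph_mul n 0 0; simp only [zero_mul] at this; exact this
  map_add' := ph_add n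

theorem ph_congr (n : ℕ) : ∀ d e : ℕ → ℤ, (∀ c < n, d c = e c) → ph n d = ph n e := by
  induction n with
  | zero => intro d e _; rfl
  | succ n ih =>
    intro d e h
    simp only [ph]; rw [h 0 (by omega), ih _ (fun c => e (c + 1)) (fun c hc => h (c + 1) (by omega))]

def ones : ℕ → ℕ
  | 0 => 0
  | n + 1 => 1 + 16384 * ones n

theorem ones_eq (n : ℕ) : 16383 * ones n + 1 = 2 ^ (14 * n) := by
  induction n with
  | zero => rfl
  | succ n ih => rw [show 14 * (n + 1) = 14 * n + 14 by ring, pow_add, ← ih, ones]; ring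

theorem ph_bound (n : ℕ) (b : ℤ) : ∀ d : ℕ → ℤ, (∀ c < n, |d c| ≤ b) → |ph n d| ≤ b * ones n := by
  induction n with
  | zero => intro d _; simp [ph, ones]
  | succ n ih =>
    intro d h
    have h0 := abs_le.1 (h 0 (by omega))
    have h1 := abs_le.1 (ih (fun c => d (c + 1)) (fun c hc => h (c + 1) (by omega)))
    simp only [ph, ones, abs_le]; push_cast; constructor <;> nlinarith

theorem ph_inj (n : ℕ) : ∀ d e : ℕ → ℤ, (∀ c < n, |d c| ≤ 512) → (∀ c < n, |e c| ≤ 512) → ph n d = ph n e →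
    ∀ c < n, d c = e c := by
  induction n with
  | zero => intro d e _ _ _ c hc; omega
  | succ n ih =>
    intro d e hd he h c hc
    have h0 := abs_le.1 (hd 0 (by omega))
    have h1 := abs_le.1 (he 0 (by omega))
    simp only [ph] at h
    have e0 : d 0 = e 0 := by omega
    cases c with
    | zero => exact e0
    | succ c =>
      exact ih (fun c => d (c + 1)) (fun c => e (c + 1)) (fun c hc => hd _ (by omega)) (fun c hc => he _ (by omega))
        (by omega) c (by omega)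

theorem ph_single (n : ℕ) (k : ℤ) : ∀ j < n, ph n (fun c => if c = j then k else 0) = k * 2 ^ (14 * j) := by
  induction n with
  | zero => intro j hj; omega
  | succ n ih =>
    intro j hj
    cases j with
    | zero =>
      have : ph n (fun c => if c + 1 = 0 then k else 0) = 0 := by
        have := (phH n).map_zero
        exact (ph_congr n _ _ (by intro c _; simp)).trans this
      simp only [ph, this]; simp
    | succ j =>
      have := ih j (by omega)
      simp only [ph, Nat.add_right_cancel_iff, this]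
      rw [show 14 * (j + 1) = 14 * j + 14 by ring, pow_add]; simp; ring

theorem low_mask (y : ℕ) (hy : y < 16384) (h : y &&& 12291 = 0) : y % 4 = 0 ∧ y < 4096 := by
  have h1 := congrArg (· % 2 ^ 2) h
  have h2 := congrArg (· / 2 ^ 12) h
  simp only [Nat.and_mod_two_pow, Nat.and_div_two_pow] at h1 h2
  have a1 : ∀ t < 4, t &&& 3 = 0 → t = 0 := by decide
  have := a1 (y % 2 ^ 2) (by omega) h1
  have := a1 (y / 2 ^ 12) (by omega) h2
  omega

theorem extract (n : ℕ) : ∀ (y : ℕ) (g : ℤ) (D : ℕ → ℤ), (∀ c < n, |D c| ≤ 16 * 512) →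
    (y : ℤ) = 4 * (g * 2 ^ (14 * n)) + 4 * (512 * ones n) + ph n D → y &&& (12291 * ones n) = 0 →
    ∀ c < n, D c % 4 = 0 ∧ |D c / 4| ≤ 512 := by
  induction n with
  | zero => intro y g D _ _ _ c hc; omega
  | succ n ih =>
    intro y g D hD hy hm c hc
    have h0 := abs_le.1 (hD 0 (by omega))
    have m1 : (y % 2 ^ 14) &&& 12291 = 0 := by
      have := congrArg (· % 2 ^ 14) hm
      simp only [Nat.and_mod_two_pow] at this
      rwa [show 12291 * ones (n + 1) % 2 ^ 14 = 12291 by rw [ones]; omega] at this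
    have m2 : (y / 2 ^ 14) &&& (12291 * ones n) = 0 := by
      have := congrArg (· / 2 ^ 14) hm
      simp only [Nat.and_div_two_pow] at this
      rwa [show 12291 * ones (n + 1) / 2 ^ 14 = 12291 * ones n by rw [ones]; omega] at this
    have m3 := low_mask (y % 2 ^ 14) (Nat.mod_lt _ (by norm_num)) m1
    rw [show g * 2 ^ (14 * (n + 1)) = (g * 2 ^ (14 * n)) * 16384 by ring] at hy
    generalize hq : g * 2 ^ (14 * n) = q at hy
    simp only [ph, ones] at hy
    push_cast at hy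
    have e0 : ((y % 2 ^ 14 : ℕ) : ℤ) = 2048 + D 0 := by omega
    cases c with
    | zero => rw [abs_le]; omega
    | succ c =>
      exact ih (y / 2 ^ 14) g (fun c => D (c + 1)) (fun c hc => hD _ (by omega)) (by rw [hq]; omega) m2 c (by omega)

theorem digit (n : ℕ) : ∀ (y : ℕ) (d : ℕ → ℤ), (∀ c < n, |d c| ≤ 512) →
    (y : ℤ) = 2 ^ (14 * n) + 512 * ones n + ph n d → ∀ c < n, (((y >>> (14 * c)) % 16384 : ℕ) : ℤ) = 512 + d c := by
  induction n with
  | zero => intro y d _ _ c hc; omega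
  | succ n ih =>
    intro y d hd hy c hc
    have h0 := abs_le.1 (hd 0 (by omega))
    rw [show 14 * (n + 1) = 14 * n + 14 by ring, pow_add] at hy
    simp only [ph, ones] at hy
    push_cast at hy
    generalize hq : (2 : ℤ) ^ (14 * n) = q at hy
    cases c with
    | zero => simp only [mul_zero, Nat.shiftRight_zero]; omega
    | succ c =>
      rw [show 14 * (c + 1) = 14 + 14 * c by ring, Nat.shiftRight_add]
      refine ih (y >>> 14) (fun c => d (c + 1)) (fun c hc => hd _ (by omega)) ?_ c (by omega)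
      rw [hq, Nat.shiftRight_eq_div_pow]; omega

/-! offset tables -/
def adj (cur o : ℕ) : ℕ → ℕ :=
  Bool.rec (motive := fun _ => ℕ → ℕ) (fun x => Nat.sub x (Nat.sub cur o)) (Nat.add (Nat.sub o cur)) (Nat.ble cur o)
def cg (g U bo : ℕ) : ℕ := Nat.add (Nat.mul g U) bo
def mkTb (U bo o : ℕ) : Tb :=
  Tb.mk (adj (cg 1 U bo) o) (adj (cg 3 U bo) o) (adj (cg 9 U bo) o) (adj (cg 27 U bo) o) (adj (cg 81 U bo) o)
    (Nat.sub (Nat.add o (cg 1 U bo))) (Nat.sub (Nat.add o (cg 3 U bo))) (Nat.sub (Nat.add o (cg 9 U bo)))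
    (Nat.sub (Nat.add o (cg 27 U bo))) (Nat.sub (Nat.add o (cg 81 U bo)))
def r1 (x : ℕ) : R := R.mk (fun t => t.1 x) (fun t => t.6 x)
def r3 (x : ℕ) : R := R.mk (fun t => t.2 x) (fun t => t.7 x)
def r9 (x : ℕ) : R := R.mk (fun t => t.3 x) (fun t => t.8 x)
def r27 (x : ℕ) : R := R.mk (fun t => t.4 x) (fun t => t.9 x)
def r81 (x : ℕ) : R := R.mk (fun t => t.5 x) (fun t => t.10 x)
def fl (r : R) : R := R.mk r.2 r.1
def rp (r : R) : Tb → ℕ := r.1
def rn (r : R) : Tb → ℕ := r.2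

def UU (n : ℕ) : ℕ := 2 ^ (14 * n)
def BO (n : ℕ) : ℕ := 512 * ones n

def Rep (n : ℕ) (r : R) (d : ℕ → ℤ) : Prop :=
  (∀ c < n, |d c| ≤ 512) ∧ ∀ o : ℕ, BO n ≤ o →
    ((rp r (mkTb (UU n) (BO n) o) : ℕ) : ℤ) = o + ph n d ∧ ((rn r (mkTb (UU n) (BO n) o) : ℕ) : ℤ) = o - ph n d

theorem Rep.bd {n r d} (h : Rep n r d) : |ph n d| ≤ BO n := by
  have := ph_bound n 512 d h.1
  simpa [BO] using this

theorem Rep.fl {n r d} (h : Rep n r d) : Rep n (fl r) (-d) := by
  refine ⟨fun c hc => by simpa using h.1 c hc, fun o ho => ?_⟩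
  have e : ph n (-d) = - ph n d := (phH n).map_neg d
  obtain ⟨h1, h2⟩ := h.2 o ho
  cases r
  exact ⟨h2.trans (by rw [e]; ring), h1.trans (by rw [e]; ring)⟩

theorem adj_spec (cur o x : ℕ) (f : ℤ) (hx : (x : ℤ) = cur + f) (h : 0 ≤ (o : ℤ) + f) :
    ((adj cur o x : ℕ) : ℤ) = o + f := by
  unfold adj
  cases hb : Nat.ble cur o
  · have : ¬ cur ≤ o := by rw [← Nat.ble_eq, hb]; simp
    simp only [Nat.sub_eq]; omega
  · have : cur ≤ o := by rw [← Nat.ble_eq, hb]
    simp only [Nat.sub_eq, Nat.add_eq]; omega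

theorem neg_spec (cur o x : ℕ) (f : ℤ) (hx : (x : ℤ) = cur + f) (h : 0 ≤ (o : ℤ) - f) :
    ((Nat.sub (Nat.add o cur) x : ℕ) : ℤ) = o - f := by
  simp only [Nat.sub_eq, Nat.add_eq]; omega

theorem rep_core (n g x : ℕ) (d : ℕ → ℤ) (hd : ∀ c < n, |d c| ≤ 512)
    (hx : (x : ℤ) = g * UU n + BO n + ph n d) (o : ℕ) (ho : BO n ≤ o) :
    ((adj (cg g (UU n) (BO n)) o x : ℕ) : ℤ) = o + ph n d ∧
      ((Nat.sub (Nat.add o (cg g (UU n) (BO n))) x : ℕ) : ℤ) = o - ph n d := by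
  have hb := abs_le.1 (ph_bound n 512 d hd)
  have hB : ((BO n : ℕ) : ℤ) = 512 * ones n := by simp [BO]
  have hx' : (x : ℤ) = (cg g (UU n) (BO n) : ℕ) + ph n d := by rw [hx]; simp [cg]
  exact ⟨adj_spec _ _ _ _ hx' (by omega), neg_spec _ _ _ _ hx' (by omega)⟩

theorem rep1 {n x : ℕ} {d : ℕ → ℤ} (hd : ∀ c < n, |d c| ≤ 512) (hx : (x : ℤ) = ((1 : ℕ) : ℤ) * UU n + BO n + ph n d) : Rep n (r1 x) d :=
  ⟨hd, fun o ho => rep_core n 1 x d hd hx o ho⟩
theorem rep3 {n x : ℕ} {d : ℕ → ℤ} (hd : ∀ c < n, |d c| ≤ 512) (hx : (x : ℤ) = ((3 : ℕ) : ℤ) * UU n + BO n + ph n d) : Rep n (r3 x) d :=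
  ⟨hd, fun o ho => rep_core n 3 x d hd hx o ho⟩
theorem rep9 {n x : ℕ} {d : ℕ → ℤ} (hd : ∀ c < n, |d c| ≤ 512) (hx : (x : ℤ) = ((9 : ℕ) : ℤ) * UU n + BO n + ph n d) : Rep n (r9 x) d :=
  ⟨hd, fun o ho => rep_core n 9 x d hd hx o ho⟩
theorem rep27 {n x : ℕ} {d : ℕ → ℤ} (hd : ∀ c < n, |d c| ≤ 512) (hx : (x : ℤ) = ((27 : ℕ) : ℤ) * UU n + BO n + ph n d) : Rep n (r27 x) d :=
  ⟨hd, fun o ho => rep_core n 27 x d hd hx o ho⟩
theorem rep81 {n x : ℕ} {d : ℕ → ℤ} (hd : ∀ c < n, |d c| ≤ 512) (hx : (x : ℤ) = ((81 : ℕ) : ℤ) * UU n + BO n + ph n d) : Rep n (r81 x) d :=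
  ⟨hd, fun o ho => rep_core n 81 x d hd hx o ho⟩

/-- division step -/
theorem div_step (n y : ℕ) (g : ℤ) (D : ℕ → ℤ) (hD : ∀ c < n, |D c| ≤ 16 * 512)
    (hy : (y : ℤ) = 4 * (g * UU n) + 4 * BO n + ph n D) (hm : Nat.land y (12291 * ones n) = 0) :
    (∀ c < n, |D c / 4| ≤ 512) ∧ (∀ c < n, D c = 4 * (D c / 4)) ∧
      ((Nat.shiftRight y 2 : ℕ) : ℤ) = g * UU n + BO n + ph n (fun c => D c / 4) := by
  have h := extract n y g D hD (by rw [hy]; simp [UU, BO]) hm
  have h2 : ∀ c < n, D c = 4 * (D c / 4) := fun c hc => by have := (h c hc).1; omega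
  refine ⟨fun c hc => (h c hc).2, h2, ?_⟩
  have h3 : ph n D = 4 * ph n (fun c => D c / 4) := by rw [← ph_mul]; exact ph_congr n _ _ h2
  have : Nat.shiftRight y 2 = y / 4 := by simp [Nat.shiftRight_eq_div_pow]
  rw [this]; omega

theorem five_bo (n : ℕ) : 12 * BO n ≤ UU n := by
  have := ones_eq n
  unfold BO UU; omega

end
end CfsgH5.BE
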