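import Cfsg.Agent.H5.BEb
/-! Kernel evaluator (helper5): letters, their linear maps, and soundness of one step. -/
namespace CfsgH5.BE
noncomputable section

abbrev V := Fin 4371 → ℚ
abbrev EndV := Module.End ℚ V
def extL (j : ℕ) : V →ₗ[ℚ] ℚ := if h : j < 4371 then LinearMap.proj (⟨j, h⟩ : Fin 4371) else 0
theorem extL_lt {j : ℕ} (h : j < 4371) (v : V) : extL j v = v ⟨j, h⟩ := by simp [extL, h]
def ofRows (F : ℕ → V →ₗ[ℚ] ℚ) : EndV := LinearMap.pi (fun i : Fin 4371 => F i)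
theorem extL_ofRows {i : ℕ} (h : i < 4371) (F : ℕ → V →ₗ[ℚ] ℚ) (v : V) : extL i (ofRows F v) = F i v := by
  rw [extL_lt h]; rfl

theorem nmod (a b : ℕ) : Nat.mod a b = a % b := rfl
theorem ndiv (a b : ℕ) : Nat.div a b = a / b := rfl
def getN {α : Type} (s : Tr α) (i : ℕ) : α :=
  sel16 (to16 (Nat.mod i 16)) (sel16 (to16 (Nat.mod (Nat.div i 16) 16)) (sel18 (to18 (Nat.div i 256)) s))
def idx3 (a : I18) (b c : I16) : ℕ := Nat.add (Nat.mul 256 (val18 a)) (Nat.add (Nat.mul 16 (val16 b)) (val16 c))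
theorem getN_idx3 {α : Type} (s : Tr α) (a : I18) (b c : I16) :
    getN s (idx3 a b c) = sel16 c (sel16 b (sel18 a s)) := by
  have hb := val_lt16 b
  have hc := val_lt16 c
  have e1 : Nat.mod (idx3 a b c) 16 = val16 c := by
    simp only [idx3, Nat.add_eq, Nat.mul_eq, nmod]; omega
  have e2 : Nat.mod (Nat.div (idx3 a b c) 16) 16 = val16 b := by
    simp only [idx3, Nat.add_eq, Nat.mul_eq, nmod, ndiv]; omega
  have e3 : Nat.div (idx3 a b c) 256 = val18 a := by
    simp only [idx3, Nat.add_eq, Nat.mul_eq, ndiv]; omega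
  rw [getN, e1, e2, e3, to_val16, to_val16, to_val18]
def eIdx (e : E) : ℕ := E.rec idx3 idx3 e
def eSg (e : E) : Bool := E.rec (fun _ _ _ => false) (fun _ _ _ => true) e
def app (s : St) (e : E) : R :=
  E.rec (fun a b c => selR c (selM b (selT a s))) (fun a b c => fl (selR c (selM b (selT a s)))) e
def flIf (b : Bool) (r : R) : R := Bool.rec r (fl r) b
theorem app_eq (s : St) (e : E) : app s e = flIf (eSg e) (getN s (eIdx e)) := by
  cases e <;> simp only [app, eSg, eIdx, flIf, getN_idx3, selR_eq, selM_eq, selT_eq]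
def gather (tb : Tab) (s : St) : St := map18 (map16 (map16 (app s))) tb
theorem getN_map {α β : Type} (f : α → β) (s : Tr α) (i : ℕ) :
    getN (map18 (map16 (map16 f)) s) i = f (getN s i) := by
  simp only [getN, sel_map16, sel_map18]
theorem getN_gather (tb : Tab) (s : St) (i : ℕ) :
    getN (gather tb s) i = flIf (eSg (getN tb i)) (getN s (eIdx (getN tb i))) := by
  rw [gather, getN_map, app_eq]

def allN (f : ℕ → Bool) (n : ℕ) : Bool := Nat.rec true (fun k ih => Bool.rec false ih (f k)) n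
theorem allN_spec {f : ℕ → Bool} : ∀ {n : ℕ}, allN f n = true → ∀ k < n, f k = true := by
  intro n
  induction n with
  | zero => intro _ k hk; omega
  | succ n ih =>
    intro h k hk
    have h' : (Bool.rec false (allN f n) (f n) : Bool) = true := h
    cases hf : f n
    · rw [hf] at h'; exact absurd h' (by simp)
    · rw [hf] at h'
      by_cases e : k = n
      · rw [e, hf]
      · exact ih h' k (by omega)
def allN2 (f : ℕ → Bool) (m n : ℕ) : Bool := allN (fun a => allN (fun b => f (Nat.add (Nat.mul a n) b)) n) m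
theorem allN2_spec {f : ℕ → Bool} {m n : ℕ} (h : allN2 f m n = true) (k : ℕ) (hk : k < m * n) : f k = true := by
  have hn : 0 < n := by rcases Nat.eq_zero_or_pos n with h0 | h0 <;> simp_all
  have := allN_spec (allN_spec h (k / n) (Nat.div_lt_of_lt_mul (by rwa [mul_comm] at hk))) (k % n) (Nat.mod_lt _ hn)
  simpa only [Nat.add_eq, Nat.mul_eq, Nat.div_add_mod'] using this
def okTab (tb : Tab) : Bool := allN2 (fun i => Nat.ble (eIdx (getN tb i)) 4370) 93 47
theorem okTab_spec {tb : Tab} (h : okTab tb = true) {i : ℕ} (hi : i < 4371) : eIdx (getN tb i) < 4371 := by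
  have := allN2_spec h i hi
  rw [Nat.ble_eq] at this; omega
def sgL (b : Bool) (f : V →ₗ[ℚ] ℚ) : V →ₗ[ℚ] ℚ := Bool.rec f (-f) b
def mono (tb : Tab) : EndV := ofRows fun i => sgL (eSg (getN tb i)) (extL (eIdx (getN tb i)))

/-- a row represents the values of the linear form `f` on the column family `w` -/
def RepF (n : ℕ) (w : ℕ → V) (r : R) (f : V →ₗ[ℚ] ℚ) : Prop :=
  ∃ d, Rep n r d ∧ ∀ c < n, ((d c : ℤ) : ℚ) = f (w c)
def Inv (n : ℕ) (w : ℕ → V) (s : St) : Prop := ∀ i < 4371, RepF n w (getN s i) (extL i)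

theorem RepF.flIf {n w r f} (h : RepF n w r f) (b : Bool) : RepF n w (flIf b r) (sgL b f) := by
  cases b
  · exact h
  · obtain ⟨d, h1, h2⟩ := h
    exact ⟨-d, h1.fl, fun c hc => by simp [sgL, h2 c hc]⟩

theorem Inv.of_rows {n w s} {F : ℕ → V →ₗ[ℚ] ℚ} (h : ∀ i < 4371, RepF n w (getN s i) (F i)) :
    Inv n (fun c => ofRows F (w c)) s := by
  intro i hi
  obtain ⟨d, h1, h2⟩ := h i hi
  exact ⟨d, h1, fun c hc => by rw [extL_ofRows hi, h2 c hc]⟩

theorem Inv.gather {n w s tb} (h : Inv n w s) (ok : okTab tb = true) :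
    Inv n (fun c => mono tb (w c)) (gather tb s) :=
  Inv.of_rows fun i hi => by rw [getN_gather]; exact (h _ (okTab_spec ok hi)).flIf _

/-! dense blocks -/
inductive Cs | mk (t0 t1 t2 t3 t4 ts : Tb) (M o : ℕ)
def mkCs3 (U on bo : ℕ) : Cs :=
  Cs.mk (mkTb U bo (Nat.mul 4 U)) (mkTb U bo (Nat.mul 8 U)) (mkTb U bo (Nat.mul 16 U)) (mkTb U bo (Nat.mul 32 U))
    (mkTb U bo (Nat.add (Nat.mul 64 U) (Nat.mul 4 bo))) (mkTb U bo (Nat.add U bo)) (Nat.mul 12291 on) (Nat.add U bo)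
def mkCs2 (U on : ℕ) : Cs := mkCs3 U on (Nat.mul 512 on)
def mkCs1 (U : ℕ) : Cs := mkCs2 U (Nat.div (Nat.sub U 1) 16383)
def mkCs (n : ℕ) : Cs := mkCs1 (Nat.shiftLeft 1 (Nat.mul 14 n))
theorem mkCs_eq (n : ℕ) : mkCs n = mkCs3 (UU n) (ones n) (BO n) := by
  have e1 : Nat.shiftLeft 1 (Nat.mul 14 n) = UU n := by simp [UU, Nat.shiftLeft_eq]
  have e2 : Nat.div (Nat.sub (UU n) 1) 16383 = ones n := by
    have := ones_eq n
    simp only [UU, Nat.sub_eq, ndiv]; omega
  rw [mkCs, e1, mkCs1, e2]; rfl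
def inp16 (cs : Cs) (t : T16 R) : T16 ℕ :=
  T16.rec (fun a0 a1 a2 a3 a4 a5 a6 a7 a8 a9 a10 a11 a12 a13 a14 a15 => T16.mk (a0.1 cs.5) (a1.1 cs.4) (a2.1 cs.4) (a3.1 cs.3) (a4.1 cs.4) (a5.1 cs.3) (a6.1 cs.3) (a7.1 cs.2) (a8.1 cs.4) (a9.1 cs.3) (a10.1 cs.3) (a11.1 cs.2) (a12.1 cs.3) (a13.1 cs.2) (a14.1 cs.2) (a15.1 cs.1)) t
def fin16 (M : ℕ) (y : T16 ℕ) : T16 R × ℕ :=
  T16.rec (fun a0 a1 a2 a3 a4 a5 a6 a7 a8 a9 a10 a11 a12 a13 a14 a15 => (T16.mk (r81 (Nat.shiftRight a0 2)) (r27 (Nat.shiftRight a1 2)) (r27 (Nat.shiftRight a2 2)) (r9 (Nat.shiftRight a3 2)) (r27 (Nat.shiftRight a4 2)) (r9 (Nat.shiftRight a5 2)) (r9 (Nat.shiftRight a6 2)) (r3 (Nat.shiftRight a7 2)) (r27 (Nat.shiftRight a8 2)) (r9 (Nat.shiftRight a9 2)) (r9 (Nat.shiftRight a10 2)) (r3 (Nat.shiftRight a11 2)) (r9 (Nat.shiftRight a12 2)) (r3 (Nat.shiftRight a13 2)) (r3 (Nat.shiftRight a14 2)) (r1 (Nat.shiftRight a15 2)), sum16 (T16.mk (Nat.land a0 M) (Nat.land a1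 M) (Nat.land a2 M) (Nat.land a3 M) (Nat.land a4 M) (Nat.land a5 M) (Nat.land a6 M) (Nat.land a7 M) (Nat.land a8 M) (Nat.land a9 M) (Nat.land a10 M) (Nat.land a11 M) (Nat.land a12 M) (Nat.land a13 M) (Nat.land a14 M) (Nat.land a15 M)))) y
def h16 (cs : Cs) (t : T16 R) : T16 R × ℕ := fin16 cs.7 (bfN (inp16 cs t))
def offN (U bo : ℕ) (i : I16) : ℕ := I16.rec (motive := fun _ => ℕ) (Nat.add (Nat.mul 64 U) (Nat.mul 4 bo)) (Nat.mul 32 U) (Nat.mul 32 U) (Nat.mul 16 U) (Nat.mul 32 U) (Nat.mul 16 U) (Nat.mul 16 U) (Nat.mul 8 U) (Nat.mul 32 U) (Nat.mul 16 U) (Nat.mul 16 U) (Nat.mul 8 U) (Nat.mul 16 U) (Nat.mul 8 U) (Nat.mul 8 U) (Nat.mul 4 U) i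
def rG (i : I16) : ℕ → R := I16.rec (motive := fun _ => ℕ → R) r81 r27 r27 r9 r27 r9 r9 r3 r27 r9 r9 r3 r9 r3 r3 r1 i
theorem sel_inp (U on bo : ℕ) (t : T16 R) (i : I16) :
    sel16 i (inp16 (mkCs3 U on bo) t) = rp (sel16 i t) (mkTb U bo (offN U bo i)) := by
  cases t; cases i <;> rfl
theorem sel_fin1 (M : ℕ) (y : T16 ℕ) (k : I16) : sel16 k (fin16 M y).1 = rG k (Nat.shiftRight (sel16 k y) 2) := by
  cases y; cases k <;> rfl
theorem sel_fin2 (M : ℕ) (y : T16 ℕ) (h : (fin16 M y).2 = 0) (k : I16) : Nat.land (sel16 k y) M = 0 := by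
  have e : (fin16 M y).2 = sum16 (map16 (fun a => Nat.land a M) y) := by cases y; rfl
  rw [e] at h
  have := sum16_zero _ h k
  rwa [sel_map16] at this
theorem repG {n x : ℕ} {d : ℕ → ℤ} (k : I16) (hd : ∀ c < n, |d c| ≤ 512)
    (hx : (x : ℤ) = garb k * UU n + BO n + ph n d) : Rep n (rG k x) d := by
  cases k
  · exact rep81 hd hx
  · exact rep27 hd hx
  · exact rep27 hd hx
  · exact rep9 hd hx
  · exact rep27 hd hx
  · exact rep9 hd hx
  · exact rep9 hd hx
  · exact rep3 hd hx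
  · exact rep27 hd hx
  · exact rep9 hd hx
  · exact rep9 hd hx
  · exact rep3 hd hx
  · exact rep9 hd hx
  · exact rep3 hd hx
  · exact rep3 hd hx
  · exact rep1 hd hx
theorem offN_eq (U bo : ℕ) (i : I16) : ((offN U bo i : ℕ) : ℤ) = offI U bo i := by
  cases i <;> simp [offN, offI]
theorem offN_ge (n : ℕ) (i : I16) : BO n ≤ offN (UU n) (BO n) i := by
  have := five_bo n
  cases i <;> simp only [offN, Nat.mul_eq, Nat.add_eq] <;> omega
def tab16 {α : Type} (f : I16 → α) : T16 α :=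
  T16.mk (f .i0) (f .i1) (f .i2) (f .i3) (f .i4) (f .i5) (f .i6) (f .i7) (f .i8) (f .i9) (f .i10) (f .i11) (f .i12)
    (f .i13) (f .i14) (f .i15)
theorem sel_tab {α : Type} (f : I16 → α) (i : I16) : sel16 i (tab16 f) = f i := by cases i <;> rfl
theorem map_tab {α β : Type} (g : α → β) (f : I16 → α) : map16 g (tab16 f) = tab16 (fun i => g (f i)) := rfl
theorem tab_congr {α : Type} {f g : I16 → α} (h : ∀ i, f i = g i) : tab16 f = tab16 g := by rw [funext h]
def evH (c : ℕ) : (ℕ → ℤ) →+ ℤ := Pi.evalAddMonoidHom (fun _ => ℤ) c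
def apH (v : V) : (V →ₗ[ℚ] ℚ) →+ ℚ := ⟨⟨fun f => f v, rfl⟩, fun _ _ => rfl⟩

theorem h16_spec {n : ℕ} {w : ℕ → V} (t : T16 R) (f : I16 → V →ₗ[ℚ] ℚ) (h : ∀ j, RepF n w (sel16 j t) (f j))
    (h0 : (h16 (mkCs n) t).2 = 0) (k : I16) :
    RepF n w (sel16 k (h16 (mkCs n) t).1) ((1 / 4 : ℚ) • sel16 k (bf (tab16 f))) := by
  choose d hd hv using h
  rw [mkCs_eq] at h0 ⊢
  have hy := bfN_spec (inp16 (mkCs3 (UU n) (ones n) (BO n)) t) (map16 (phH n) (tab16 d)) (UU n) (BO n)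
    (by have := five_bo n; omega)
    (fun i => by
      rw [sel_inp, sel_map16, sel_tab, ← offN_eq]; exact ((hd i).2 _ (offN_ge n i)).1)
    (fun i => by rw [sel_map16, sel_tab]; exact (hd i).bd) k
  rw [bf_map] at hy
  have hc : ∀ c, sel16 k (bf (tab16 d)) c = sel16 k (bf (tab16 fun j => d j c)) := fun c =>
    (bf_map (evH c) (tab16 d) k).symm
  have hD : ∀ c < n, |sel16 k (bf (tab16 d)) c| ≤ 16 * 512 := fun c hc' => by
    rw [hc]; exact bf_bound _ _ (fun i => by rw [sel_tab]; exact (hd i).1 c hc') k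
  obtain ⟨a1, a2, a3⟩ := div_step n _ (garb k) _ hD hy (sel_fin2 _ _ h0 k)
  refine ⟨_, by rw [h16, sel_fin1]; exact repG k a1 a3, fun c hc' => ?_⟩
  have b1 := bf_map (Int.castAddHom ℚ) (tab16 fun j => d j c) k
  have b2 := bf_map (apH (w c)) (tab16 f) k
  rw [map_tab] at b1 b2
  have b3 : (tab16 fun i => (Int.castAddHom ℚ) (d i c)) = tab16 fun i => apH (w c) (f i) :=
    tab_congr fun i => hv i c hc'
  rw [b3, b2, ← hc, a2 c hc'] at b1
  have b4 : (sel16 k (bf (tab16 f))) (w c) = 4 * ((sel16 k (bf (tab16 d)) c / 4 : ℤ) : ℚ) := by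
    have : (apH (w c)) (sel16 k (bf (tab16 f))) = (sel16 k (bf (tab16 f))) (w c) := rfl
    rw [← this, b1]; simp
  rw [LinearMap.smul_apply, b4]; simp

abbrev Term := ℕ × Bool × ℕ
def gsum (ts : Tb) (s : St) (l : List Term) : ℕ :=
  List.rec 0 (fun t _ ih => Nat.add (Nat.mul t.1 (rp (flIf t.2.1 (getN s t.2.2)) ts)) ih) l
def csum (l : List Term) : ℕ := List.rec 0 (fun t _ ih => Nat.add t.1 ih) l
def grow1 (M y : ℕ) : R × ℕ := (r1 (Nat.shiftRight y 2), Nat.land y M)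
def genRow (cs : Cs) (s : St) (l : List Term) (r : R) : R × ℕ :=
  List.rec (r, 0) (fun _ _ _ => grow1 cs.7 (Nat.sub (gsum cs.6 s l) (Nat.mul (Nat.sub (csum l) 4) cs.8))) l
def gsumL (l : List Term) : V →ₗ[ℚ] ℚ := List.rec 0 (fun t _ ih => (t.1 : ℚ) • sgL t.2.1 (extL t.2.2) + ih) l
def genL (l : List Term) (f : V →ₗ[ℚ] ℚ) : V →ₗ[ℚ] ℚ := List.rec f (fun _ _ _ => (1 / 4 : ℚ) • gsumL l) l
def okL (l : List Term) : Bool :=
  List.rec true (fun _ _ _ => Nat.ble 4 (csum l) && Nat.ble (csum l) 16 && l.all (fun t => Nat.ble t.2.2 4370)) l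

theorem gsum_spec {n w s} (h : Inv n w s) : ∀ l : List Term, (∀ t ∈ l, t.2.2 < 4371) →
    ∃ D : ℕ → ℤ, (∀ c < n, |D c| ≤ csum l * 512) ∧
      ((gsum (mkTb (UU n) (BO n) (Nat.add (UU n) (BO n))) s l : ℕ) : ℤ) = csum l * (UU n + BO n) + ph n D ∧
      ∀ c < n, ((D c : ℤ) : ℚ) = gsumL l (w c) := by
  intro l
  induction l with
  | nil => intro _; exact ⟨0, by simp [csum], by
      have : ph n 0 = 0 := (phH n).map_zero
      simp [gsum, csum, this], by simp [gsumL]⟩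
  | cons t l ih =>
    intro hl
    obtain ⟨D, h1, h2, h3⟩ := ih (fun x hx => hl x (List.mem_cons_of_mem _ hx))
    obtain ⟨d, hd, hv⟩ := (h _ (hl t List.mem_cons_self)).flIf t.2.1
    have e1 : csum (t :: l) = t.1 + csum l := rfl
    have e2 : ∀ ts, gsum ts s (t :: l) = t.1 * rp (flIf t.2.1 (getN s t.2.2)) ts + gsum ts s l := fun _ => rfl
    have e3 : gsumL (t :: l) = (t.1 : ℚ) • sgL t.2.1 (extL t.2.2) + gsumL l := rfl
    refine ⟨(fun c => t.1 * d c) + D, fun c hc => ?_, ?_, fun c hc => ?_⟩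
    · have := hd.1 c hc
      have := h1 c hc
      rw [e1, Pi.add_apply]
      refine (abs_add_le _ _).trans ?_
      rw [abs_mul, Nat.abs_cast]; push_cast
      have : (0 : ℤ) ≤ t.1 := by positivity
      nlinarith
    · rw [e2, e1, ph_add, ph_mul]; push_cast
      rw [h2, (hd.2 _ (by simp)).1]; simp; ring
    · rw [e3, Pi.add_apply]; push_cast
      rw [hv c hc, h3 c hc]; simp

theorem genRow_spec {n w s} (h : Inv n w s) (l : List Term) (ok : okL l = true) {r f} (hr : RepF n w r f)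
    (h0 : (genRow (mkCs n) s l r).2 = 0) : RepF n w (genRow (mkCs n) s l r).1 (genL l f) := by
  cases l with
  | nil => exact hr
  | cons t l =>
    have ok' : (Nat.ble 4 (csum (t :: l)) && Nat.ble (csum (t :: l)) 16 &&
      (t :: l).all (fun t => Nat.ble t.2.2 4370)) = true := ok
    simp only [Bool.and_eq_true, Nat.ble_eq, List.all_eq_true] at ok'
    obtain ⟨⟨o1, o2⟩, o3⟩ := ok'
    obtain ⟨D, h1, h2, h3⟩ := gsum_spec h (t :: l) (fun x hx => by have := o3 x hx; omega)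
    rw [mkCs_eq] at h0 ⊢
    generalize hS : csum (t :: l) = S at *
    have hD : ∀ c < n, |D c| ≤ 16 * 512 := fun c hc => (h1 c hc).trans (by omega)
    have hb := abs_le.1 (ph_bound n _ D hD)
    have hB : ((BO n : ℕ) : ℤ) = 512 * ones n := by simp [BO]
    have h5 := five_bo n
    have hy : ((Nat.sub (gsum (mkTb (UU n) (BO n) (Nat.add (UU n) (BO n))) s (t :: l))
        (Nat.mul (Nat.sub S 4) (Nat.add (UU n) (BO n))) : ℕ) : ℤ) = 4 * (1 * UU n) + 4 * BO n + ph n D := by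
      have e : ((Nat.mul (Nat.sub S 4) (Nat.add (UU n) (BO n)) : ℕ) : ℤ) = S * (UU n + BO n) - 4 * (UU n + BO n) := by
        simp only [Nat.mul_eq, Nat.sub_eq, Nat.add_eq]; push_cast [Nat.cast_sub o1]; ring
      rw [vsub h2 e (by omega)]; ring
    have h0' : Nat.land (Nat.sub (gsum (mkTb (UU n) (BO n) (Nat.add (UU n) (BO n))) s (t :: l))
        (Nat.mul (Nat.sub S 4) (Nat.add (UU n) (BO n)))) (12291 * ones n) = 0 := by rw [← hS]; exact h0
    obtain ⟨a1, a2, a3⟩ := div_step n _ 1 D hD hy h0'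
    rw [← hS] at a3
    refine ⟨_, rep1 a1 a3, fun c hc => ?_⟩
    have e3 : genL (t :: l) f = (1 / 4 : ℚ) • gsumL (t :: l) := rfl
    rw [e3, LinearMap.smul_apply, ← h3 c hc]
    conv_rhs => rw [a2 c hc]
    simp

structure Dn where
  lo : ℕ
  hi : ℕ
  gt : ℕ → List Term
def inR (lo hi l : ℕ) : Bool := Bool.rec false (Nat.ble (Nat.succ l) hi) (Nat.ble lo l)
def spl16 (q : T16 (R × ℕ)) : T16 R × ℕ := (map16 Prod.fst q, sum16 (map16 Prod.snd q))
def genLeaf (cs : Cs) (gt : ℕ → List Term) (s : St) (l : ℕ) (t : T16 R) : T16 R × ℕ :=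
  spl16 (mapI16 (fun i r => genRow cs s (gt i) r) (Nat.mul 16 l) t)
def leafOp (D : Dn) (cs : Cs) (s : St) (l : ℕ) (t : T16 R) : T16 R × ℕ :=
  Bool.rec (Bool.rec (t, 0) (genLeaf cs D.gt s l t) (inR 269 274 l)) (h16 cs t) (inR D.lo D.hi l)
def splT (m : T18 (T16 (T16 R × ℕ))) : St × ℕ :=
  (map18 (map16 Prod.fst) m, sum18 (map18 (fun u => sum16 (map16 Prod.snd u)) m))
def sop (D : Dn) (cs : Cs) (s : St) : St × ℕ :=
  splT (mapI18 (fun a u => mapI16 (leafOp D cs s) (Nat.mul 16 a) u) 0 s)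
def srow (D : Dn) (i : ℕ) : V →ₗ[ℚ] ℚ :=
  if inR D.lo D.hi (i / 16) = true then
    (1 / 4 : ℚ) • sel16 (to16 (i % 16)) (bf (tab16 fun j => extL (16 * (i / 16) + val16 j)))
  else if inR 269 274 (i / 16) = true then genL (D.gt i) (extL i) else extL i
def smap (D : Dn) : EndV := ofRows (srow D)
def okD (D : Dn) : Bool := Nat.ble D.hi 273 && allN (fun k => okL (D.gt (Nat.add 4304 k))) 80
def leaf {α : Type} (s : Tr α) (l : ℕ) : T16 α := sel16 (to16 (l % 16)) (sel18 (to18 (l / 16)) s)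
theorem getN_leaf {α : Type} (s : Tr α) (i : ℕ) : getN s i = sel16 (to16 (i % 16)) (leaf s (i / 16)) := by
  simp only [getN, leaf, nmod, ndiv, Nat.div_div_eq_div_mul]
theorem sel_leaf {α : Type} (s : Tr α) (l : ℕ) (j : I16) : sel16 j (leaf s l) = getN s (16 * l + val16 j) := by
  have := val_lt16 j
  rw [getN_leaf, show (16 * l + val16 j) % 16 = val16 j by omega, show (16 * l + val16 j) / 16 = l by omega, to_val16]
theorem inR_spec {lo hi l : ℕ} (h : inR lo hi l = true) : lo ≤ l ∧ l < hi := by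
  unfold inR at h
  cases h1 : Nat.ble lo l
  · rw [h1] at h; exact absurd h (by simp)
  · rw [h1] at h
    rw [Nat.ble_eq] at h1
    have h2 : Nat.ble (Nat.succ l) hi = true := h
    rw [Nat.ble_eq] at h2
    exact ⟨h1, h2⟩

theorem Inv.sop {n w s D} (h : Inv n w s) (ok : okD D = true) (h0 : (sop D (mkCs n) s).2 = 0) :
    Inv n (fun c => smap D (w c)) (sop D (mkCs n) s).1 := by
  refine Inv.of_rows fun i hi => ?_
  simp only [okD, Bool.and_eq_true, Nat.ble_eq] at ok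
  have hl : ∀ l < 288, sel16 (to16 (l % 16)) (sel18 (to18 (l / 16))
      (mapI18 (fun a u => mapI16 (leafOp D (mkCs n) s) (Nat.mul 16 a) u) 0 s)) = leafOp D (mkCs n) s l (leaf s l) := by
    intro l hl
    rw [sel_mapI18, sel_mapI16, val_to18 _ (by omega), val_to16 _ (by omega)]
    congr 1
    simp only [Nat.mul_eq]; omega
  have e1 : getN (BE.sop D (mkCs n) s).1 i = sel16 (to16 (i % 16)) (leafOp D (mkCs n) s (i / 16) (leaf s (i / 16))).1 := by
    rw [getN_leaf, leaf, BE.sop, splT]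
    simp only [sel_map18, sel_map16]
    rw [hl _ (by omega)]
  have e2 : (leafOp D (mkCs n) s (i / 16) (leaf s (i / 16))).2 = 0 := by
    have h1 : sum18 (map18 (fun u => sum16 (map16 Prod.snd u))
      (mapI18 (fun a u => mapI16 (leafOp D (mkCs n) s) (Nat.mul 16 a) u) 0 s)) = 0 := by
      rw [BE.sop, splT] at h0; exact h0
    have a := sum18_zero _ h1 (to18 (i / 16 / 16))
    rw [sel_map18] at a
    have b := sum16_zero _ a (to16 (i / 16 % 16))
    rwa [sel_map16, hl _ (by omega)] at b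
  rw [e1, srow]
  unfold leafOp at e2 ⊢
  cases c1 : inR D.lo D.hi (i / 16)
  · rw [c1] at e2
    cases c2 : inR 269 274 (i / 16)
    · simp only [Bool.false_eq_true, if_false]
      rw [← getN_leaf]; exact h i hi
    · rw [c2] at e2
      simp only [Bool.false_eq_true, if_false, if_true]
      have hr := inR_spec c2
      have e3 : sel16 (to16 (i % 16)) (mapI16 (fun i r => genRow (mkCs n) s (D.gt i) r) (Nat.mul 16 (i / 16))
          (leaf s (i / 16))) = genRow (mkCs n) s (D.gt i) (getN s i) := by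
        rw [sel_mapI16, val_to16 _ (by omega), ← getN_leaf,
          show Nat.mul 16 (i / 16) + i % 16 = i by simp only [Nat.mul_eq]; omega]
      have e2' : sum16 (map16 Prod.snd (mapI16 (fun i r => genRow (mkCs n) s (D.gt i) r) (Nat.mul 16 (i / 16))
          (leaf s (i / 16)))) = 0 := by
        rw [genLeaf, spl16] at e2; exact e2
      have e4 := sum16_zero _ e2' (to16 (i % 16))
      rw [sel_map16, e3] at e4
      have ok2 := allN_spec ok.2 (i - 4304) (by omega)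
      rw [show Nat.add 4304 (i - 4304) = i by simp only [Nat.add_eq]; omega] at ok2
      have := genRow_spec h _ ok2 (h i hi) e4
      rw [← e3, ← sel_map16 Prod.fst] at this
      rw [genLeaf, spl16]
      exact this
  · rw [c1] at e2
    simp only [if_true]
    have hr := inR_spec c1
    exact h16_spec _ _ (fun j => by
      rw [sel_leaf]; exact h _ (by have := val_lt16 j; omega)) e2 _

end
end CfsgH5.BE
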