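import Cfsg.Agent.H5.BEc
/-! Kernel evaluator (helper5): words and the checkers. -/
namespace CfsgH5.BE
noncomputable section

structure Al where
  tab : ℕ → Tab
  dn : ℕ → Dn
  code : ℕ → St → St
def Al.ok (A : Al) : Prop :=
  ∀ k, okTab (A.tab k) = true ∧ okD (A.dn k) = true ∧ ∀ s, A.code k s = gather (A.tab k) s
def isD (k : ℕ) : Bool := inR 43 45 k
def stepD (f : St → St) (a : ℕ) (r : St × ℕ) : St × ℕ := (f r.1, Nat.add a r.2)
def step (A : Al) (cs : Cs) (k : ℕ) (e : St × ℕ) : St × ℕ :=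
  Bool.rec (A.code k e.1, e.2) (stepD (A.code k) e.2 (sop (A.dn k) cs e.1)) (isD k)
def evalW (A : Al) (cs : Cs) (e : St × ℕ) (w : List ℕ) : St × ℕ := List.rec e (fun k _ ih => step A cs k ih) w
def let1 (A : Al) (k : ℕ) : EndV := Bool.rec (mono (A.tab k)) (mono (A.tab k) * smap (A.dn k)) (isD k)
def ev (A : Al) (w : List ℕ) : EndV := (w.map (let1 A)).prod
theorem ev_nil (A : Al) : ev A [] = 1 := rfl
theorem ev_cons (A : Al) (k : ℕ) (w : List ℕ) : ev A (k :: w) = let1 A k * ev A w := by simp [ev]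
theorem ev_append (A : Al) (u w : List ℕ) : ev A (u ++ w) = ev A u * ev A w := by simp [ev]

theorem eval_inv {A : Al} (ok : A.ok) {n : ℕ} {w : ℕ → V} {s : St} (h : Inv n w s) :
    ∀ u : List ℕ, (evalW A (mkCs n) (s, 0) u).2 = 0 → Inv n (fun c => ev A u (w c)) (evalW A (mkCs n) (s, 0) u).1 := by
  intro u
  induction u with
  | nil => intro _; exact h
  | cons k u ih =>
    have e : evalW A (mkCs n) (s, 0) (k :: u) = step A (mkCs n) k (evalW A (mkCs n) (s, 0) u) := rfl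
    rw [e, ev_cons, step, let1]
    cases isD k
    · intro h0
      simp only [(ok k).2.2] at h0 ⊢
      exact (ih h0).gather (ok k).1
    · intro h0
      simp only [stepD, Nat.add_eq, Nat.add_eq_zero_iff, (ok k).2.2] at h0 ⊢
      exact ((ih h0.1).sop (ok k).2.1 h0.2).gather (ok k).1

def mapI3 {α β : Type} (f : ℕ → α → β) (s : Tr α) : Tr β :=
  mapI18 (fun a u => mapI16 (fun l t => mapI16 f (Nat.mul 16 l) t) (Nat.mul 16 a) u) 0 s
theorem getN_mapI3 {α β : Type} (f : ℕ → α → β) (s : Tr α) {i : ℕ} (hi : i < 4371) :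
    getN (mapI3 f s) i = f i (getN s i) := by
  simp only [getN, mapI3, sel_mapI16, sel_mapI18, nmod, ndiv]
  rw [val_to18 _ (by omega), val_to16 _ (by omega), val_to16 _ (by omega)]
  congr 1
  simp only [Nat.mul_eq]; omega
def unitT : Tr Unit := cst18 (cst16 (cst16 ()))
def zrow : R := R.mk (fun _ => 0) (fun _ => 0)
def initRow (o c0 n i : ℕ) (_ : Unit) : R :=
  Bool.rec (Bool.rec zrow (r1 o) (Nat.ble i 4370))
    (r1 (Nat.add o (Nat.shiftLeft 256 (Nat.mul 14 (Nat.sub i c0))))) (inR c0 (Nat.add c0 n) i)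
def initS (o c0 n : ℕ) : St := mapI3 (initRow o c0 n) unitT
def col (c0 c : ℕ) : V := fun i => if (i : ℕ) = c0 + c then 256 else 0
def cso (cs : Cs) : ℕ := cs.8
def cst (cs : Cs) : Tb := cs.6
theorem cso_eq (n : ℕ) : cso (mkCs n) = UU n + BO n := by rw [mkCs_eq]; rfl
theorem cst_eq (n : ℕ) : cst (mkCs n) = mkTb (UU n) (BO n) (UU n + BO n) := by rw [mkCs_eq]; rfl
theorem inR_true {lo hi l : ℕ} (h1 : lo ≤ l) (h2 : l < hi) : inR lo hi l = true := by
  unfold inR
  rw [Nat.ble_eq_true_of_le h1]; exact Nat.ble_eq_true_of_le h2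

theorem init_inv (c0 n : ℕ) : Inv n (col c0) (initS (cso (mkCs n)) c0 n) := by
  intro i hi
  rw [initS, getN_mapI3 _ _ hi, cso_eq, initRow]
  cases c1 : inR c0 (Nat.add c0 n) i
  · rw [Nat.ble_eq_true_of_le (show i ≤ 4370 by omega)]
    have z : ph n 0 = 0 := (phH n).map_zero
    refine ⟨0, rep1 (by simp) (by simp [z]), fun c hc => ?_⟩
    rw [extL_lt hi, col, if_neg]; · simp
    intro e
    have e' : i = c0 + c := e
    rw [inR_true (by omega) (by simp only [Nat.add_eq]; omega)] at c1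
    exact absurd c1 (by simp)
  · have hr := inR_spec c1
    simp only [Nat.add_eq] at hr
    refine ⟨fun c => if c = i - c0 then 256 else 0, rep1 (fun c _ => by split_ifs <;> simp) ?_, fun c hc => ?_⟩
    · rw [ph_single n 256 (i - c0) (by omega)]
      simp [Nat.shiftLeft_eq]
    · rw [extL_lt hi, col]
      beta_reduce
      by_cases e : c = i - c0
      · rw [if_pos e, if_pos (show i = c0 + c by omega)]; simp
      · rw [if_neg e, if_neg (show ¬ i = c0 + c by omega)]; simp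

def run (A : Al) (cs : Cs) (c0 n : ℕ) (w : List ℕ) : St × ℕ := evalW A cs (initS (cso cs) c0 n, 0) w
theorem run_inv {A : Al} (ok : A.ok) {c0 n : ℕ} {w : List ℕ} (h : (run A (mkCs n) c0 n w).2 = 0) :
    Inv n (fun c => ev A w (col c0 c)) (run A (mkCs n) c0 n w).1 := eval_inv ok (init_inv c0 n) w h

def all3 {α : Type} (f : α → α → Bool) (s t : Tr α) : Bool := all218 (all216 (all216 f)) s t
theorem all3_get {α : Type} {f : α → α → Bool} {s t : Tr α} (h : all3 f s t = true) (i : ℕ) :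
    f (getN s i) (getN t i) = true := all216_sel _ _ _ (all216_sel _ _ _ (all218_sel _ _ _ h _) _) _
def band (a b : Bool) : Bool := Bool.rec false b a
theorem band_spec {a b : Bool} (h : band a b = true) : a = true ∧ b = true := by
  cases a <;> cases b <;> simp_all [band]
def cmp2 (ts : Tb) (e1 e2 : St × ℕ) : Bool :=
  band (Nat.beq e1.2 0) (band (Nat.beq e2.2 0) (all3 (fun r r' => Nat.beq (r.1 ts) (r'.1 ts)) e1.1 e2.1))
def chk1 (A : Al) (cs : Cs) (c0 n : ℕ) (w1 w2 : List ℕ) : Bool := cmp2 (cst cs) (run A cs c0 n w1) (run A cs c0 n w2)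
/-- the two words agree on the basis vectors `c0, …, c0 + n - 1` -/
def chkB (A : Al) (c0 n : ℕ) (w1 w2 : List ℕ) : Bool := chk1 A (mkCs n) c0 n w1 w2

theorem RepF.val {n w r f} (h : RepF n w r f) : ∃ d : ℕ → ℤ, (∀ c < n, |d c| ≤ 512) ∧
    ((rp r (cst (mkCs n)) : ℕ) : ℤ) = UU n + BO n + ph n d ∧ ∀ c < n, ((d c : ℤ) : ℚ) = f (w c) := by
  obtain ⟨d, h1, h2⟩ := h
  refine ⟨d, h1.1, ?_, h2⟩
  rw [cst_eq, (h1.2 _ (by omega)).1]; simp

theorem chkB_spec {A : Al} (ok : A.ok) {c0 n : ℕ} {w1 w2 : List ℕ} (h : chkB A c0 n w1 w2 = true) :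
    ∀ c < n, ev A w1 (col c0 c) = ev A w2 (col c0 c) := by
  intro c hc
  obtain ⟨h1, h2⟩ := band_spec h
  obtain ⟨h2, h3⟩ := band_spec h2
  funext ⟨i, hi⟩
  obtain ⟨d1, a1, a2, a3⟩ := (run_inv ok (Nat.eq_of_beq_eq_true h1) i hi).val
  obtain ⟨d2, b1, b2, b3⟩ := (run_inv ok (Nat.eq_of_beq_eq_true h2) i hi).val
  have e : rp (getN (run A (mkCs n) c0 n w1).1 i) (cst (mkCs n)) = rp (getN (run A (mkCs n) c0 n w2).1 i) (cst (mkCs n)) :=
    Nat.eq_of_beq_eq_true (all3_get h3 i)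
  have := ph_inj n d1 d2 a1 b1 (by rw [e] at a2; omega) c hc
  have x1 := a3 c hc
  have x2 := b3 c hc
  rw [extL_lt hi] at x1 x2
  rw [← x1, ← x2, this]

theorem col_eq (j : Fin 4371) (c0 c : ℕ) (h : (j : ℕ) = c0 + c) : col c0 c = (256 : ℚ) • (Pi.single j 1 : V) := by
  funext i
  by_cases e : i = j
  · subst e; simp [col, h]
  · have : ¬ (i : ℕ) = c0 + c := fun e' => e (Fin.ext (e'.trans h.symm))
    simp [col, this, e]
theorem end_ext {f g : EndV} (h : ∀ j : Fin 4371, ∃ c0 c, (j : ℕ) = c0 + c ∧ f (col c0 c) = g (col c0 c)) : f = g := by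
  refine LinearMap.pi_ext fun j x => ?_
  obtain ⟨c0, c, h1, h2⟩ := h j
  rw [col_eq j c0 c h1, map_smul, map_smul] at h2
  have h3 := smul_right_injective V (show (256 : ℚ) ≠ 0 by norm_num) h2
  have : (Pi.single j x : V) = x • (Pi.single j 1 : V) := by rw [← Pi.single_smul]; simp
  rw [this, map_smul, map_smul, h3]
theorem rel1 {A : Al} (ok : A.ok) {w1 w2 : List ℕ} (h : chkB A 0 4371 w1 w2 = true) : ev A w1 = ev A w2 :=
  end_ext fun j => ⟨0, j, by simp, chkB_spec ok h j j.2⟩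
theorem rel2 {A : Al} (ok : A.ok) {w1 w2 : List ℕ} (h : chkB A 0 2186 w1 w2 = true)
    (h' : chkB A 2186 2185 w1 w2 = true) : ev A w1 = ev A w2 :=
  end_ext fun j => by
    have := j.2
    by_cases e : (j : ℕ) < 2186
    · exact ⟨0, j, by simp, chkB_spec ok h j e⟩
    · exact ⟨2186, j - 2186, by omega, chkB_spec ok h' _ (by omega)⟩
theorem rel3 {A : Al} (ok : A.ok) {w1 w2 : List ℕ} (h : chkB A 0 1457 w1 w2 = true)
    (h' : chkB A 1457 1457 w1 w2 = true) (h'' : chkB A 2914 1457 w1 w2 = true) : ev A w1 = ev A w2 :=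
  end_ext fun j => by
    have := j.2
    by_cases e : (j : ℕ) < 1457
    · exact ⟨0, j, by simp, chkB_spec ok h j e⟩
    · by_cases e' : (j : ℕ) < 2914
      · exact ⟨1457, j - 1457, by omega, chkB_spec ok h' _ (by omega)⟩
      · exact ⟨2914, j - 2914, by omega, chkB_spec ok h'' _ (by omega)⟩

/-! zero blocks -/
def zer1 (cs : Cs) (lo : ℕ) (e : St × ℕ) : Bool :=
  band (Nat.beq e.2 0) (all3 (fun a _ => a)
    (mapI3 (fun i (r : R) => (Bool.rec true (Nat.beq (r.1 (cst cs)) (cso cs)) (inR lo 4371 i) : Bool)) e.1)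
    (cst18 (cst16 (cst16 true))))
def zer2 (A : Al) (cs : Cs) (c0 n lo : ℕ) (w : List ℕ) : Bool := zer1 cs lo (run A cs c0 n w)
/-- the images of the basis vectors `c0, …, c0 + n - 1` vanish in the coordinates `≥ lo` -/
def chkZ (A : Al) (c0 n lo : ℕ) (w : List ℕ) : Bool := zer2 A (mkCs n) c0 n lo w
theorem chkZ_spec {A : Al} (ok : A.ok) {c0 n lo : ℕ} {w : List ℕ} (h : chkZ A c0 n lo w = true) :
    ∀ c < n, ∀ i : Fin 4371, lo ≤ (i : ℕ) → ev A w (col c0 c) i = 0 := by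
  intro c hc ⟨i, hi⟩ hlo
  obtain ⟨h1, h2⟩ := band_spec h
  obtain ⟨d1, a1, a2, a3⟩ := (run_inv ok (Nat.eq_of_beq_eq_true h1) i hi).val
  have e := all3_get h2 i
  rw [getN_mapI3 _ _ hi, inR_true hlo hi] at e
  have e' : rp (getN (run A (mkCs n) c0 n w).1 i) (cst (mkCs n)) = cso (mkCs n) := Nat.eq_of_beq_eq_true e
  have z : ph n 0 = 0 := (phH n).map_zero
  have := ph_inj n d1 0 a1 (by simp) (by rw [e', cso_eq] at a2; push_cast at a2; omega) c hc
  have x1 := a3 c hc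
  rw [extL_lt hi] at x1
  rw [← x1, this]; simp

/-! entries -/
def ent (cs : Cs) (e : St × ℕ) (i c : ℕ) : ℕ := Nat.mod (Nat.shiftRight ((getN e.1 i).1 (cst cs)) (Nat.mul 14 c)) 16384
theorem ent_spec {A : Al} (ok : A.ok) {c0 n : ℕ} {w : List ℕ} (h : (run A (mkCs n) c0 n w).2 = 0) (i : Fin 4371)
    {c : ℕ} (hc : c < n) : ((ent (mkCs n) (run A (mkCs n) c0 n w) i c : ℕ) : ℚ) = 512 + ev A w (col c0 c) i := by
  obtain ⟨d1, a1, a2, a3⟩ := (run_inv ok h i i.2).val
  have := digit n _ d1 a1 (by rw [a2]; simp [UU, BO]) c hc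
  have e : ((ent (mkCs n) (run A (mkCs n) c0 n w) i c : ℕ) : ℤ) = 512 + d1 c := this
  have x1 := a3 c hc
  rw [extL_lt i.2] at x1
  rw [← x1]
  exact_mod_cast e

/-! monomial words -/
def initM : St := mapI3 (fun i (_ : Unit) => R.mk (fun _ => Nat.mul 2 i) (fun _ => Nat.succ (Nat.mul 2 i))) unitT
def evalM (A : Al) (w : List ℕ) : St := List.rec initM (fun k _ ih => A.code k ih) w
def tbz : Tb := mkTb 0 0 0
def chkM (A : Al) (w1 w2 : List ℕ) : Bool :=
  band (w1.all fun k => !isD k) (band (w2.all fun k => !isD k)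
    (all3 (fun r r' => Nat.beq (r.1 tbz) (r'.1 tbz)) (evalM A w1) (evalM A w2)))
def RepM (r : R) (f : V →ₗ[ℚ] ℚ) : Prop :=
  ∃ j b, rp r tbz = 2 * j + Bool.toNat b ∧ rn r tbz = 2 * j + Bool.toNat (!b) ∧ f = sgL b (extL j)
theorem RepM.flIf {r f} (h : RepM r f) (b : Bool) : RepM (flIf b r) (sgL b f) := by
  cases b
  · exact h
  · obtain ⟨j, b, h1, h2, h3⟩ := h
    cases r
    refine ⟨j, !b, h2, by rw [Bool.not_not]; exact h1, ?_⟩
    rw [h3]; cases b <;> simp [sgL]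
theorem evalM_spec {A : Al} (ok : A.ok) : ∀ w : List ℕ, (w.all fun k => !isD k) = true → ∀ i < 4371,
    RepM (getN (evalM A w) i) (extL i ∘ₗ ev A w) := by
  intro w
  induction w with
  | nil =>
    intro _ i hi
    have : evalM A [] = initM := rfl
    rw [this, initM, getN_mapI3 _ _ hi]
    exact ⟨i, false, rfl, rfl, rfl⟩
  | cons k w ih =>
    intro h i hi
    simp only [List.all_cons, Bool.and_eq_true, Bool.not_eq_true'] at h
    have : evalM A (k :: w) = gather (A.tab k) (evalM A w) := (ok k).2.2 _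
    rw [this, getN_gather, ev_cons, let1, h.1]
    have := (ih h.2 _ (okTab_spec (ok k).1 hi)).flIf (eSg (getN (A.tab k) i))
    convert this using 1
    refine LinearMap.ext fun v => ?_
    simp only [LinearMap.comp_apply, Module.End.mul_apply, mono, extL_ofRows hi]
    cases eSg (getN (A.tab k) i) <;> simp [sgL]
theorem relM {A : Al} (ok : A.ok) {w1 w2 : List ℕ} (h : chkM A w1 w2 = true) : ev A w1 = ev A w2 := by
  obtain ⟨h1, h2⟩ := band_spec h
  obtain ⟨h2, h3⟩ := band_spec h2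
  refine LinearMap.ext fun v => funext fun ⟨i, hi⟩ => ?_
  obtain ⟨j, b, a1, -, a3⟩ := evalM_spec ok w1 h1 i hi
  obtain ⟨j', b', b1, -, b3⟩ := evalM_spec ok w2 h2 i hi
  have e : rp (getN (evalM A w1) i) tbz = rp (getN (evalM A w2) i) tbz := Nat.eq_of_beq_eq_true (all3_get h3 i)
  rw [a1, b1] at e
  have e2 : j = j' ∧ b = b' := by cases b <;> cases b' <;> simp at e ⊢ <;> omega
  have x1 := LinearMap.congr_fun a3 v
  have x2 := LinearMap.congr_fun b3 v
  rw [LinearMap.comp_apply, extL_lt hi] at x1 x2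
  rw [x1, x2, e2.1, e2.2]

end
end CfsgH5.BE
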