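import Cfsg.Agent.H5.BQb
/-! Baby Monster (helper5): kernel-checked forests and orbits on codes. -/
namespace CfsgH5.BE
open Subgroup CfsgH5.BS
noncomputable section

def force {α : Type} (x : ℕ) (k : ℕ → α) : α := Nat.rec (motive := fun _ => α) (k 0) (fun n _ => k (Nat.succ n)) x
@[simp] theorem force_eq {α : Type} (x : ℕ) (k : ℕ → α) : force x k = k x := by cases x <;> rfl
def cnd {α : Type} (b : Bool) (t e : α) : α := Bool.rec (motive := fun _ => α) e t b
def get2 (tb : T16 (T16 ℕ)) (j : ℕ) : ℕ := sel16 (to16 (Nat.land j 15)) (sel16 (to16 (Nat.shiftRight j 4)) tb)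
def fldT (tb : T16 (T16 ℕ)) (w m i : ℕ) : ℕ :=
  force (Nat.shiftRight i 8) fun j => Nat.land (Nat.shiftRight (get2 tb j) (Nat.mul w (Nat.land i 255))) m
def slot (D : T16 (T16 ℕ)) (m1 n c : ℕ) : ℕ :=
  Nat.mod (Nat.mod (Nat.mul c (fldT D 24 16777215 (Nat.mod c m1))) 1000000007) n
theorem slot_lt (D m1 c) {n : ℕ} (hn : 0 < n) : slot D m1 n c < n := Nat.mod_lt _ hn
def kids (ih : ℕ → ℕ → ℕ) (v : ℕ) (gs : List M3) : ℕ → ℕ → ℕ :=
  List.rec (motive := fun _ => ℕ → ℕ → ℕ) (fun _ acc => acc)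
    (fun g _ rec m acc => cnd (Nat.beq m 0) acc (force (Nat.shiftRight m 1) fun m' =>
      cnd (Nat.beq (Nat.land m 1) 0) (rec m' acc)
        (force (force (mv g v) fun v' => ih v' acc) fun a => cnd (Nat.beq a 0) 0 (rec m' a)))) gs
def walk (tab : ℕ → ℕ) (gs : List M3) (fuel : ℕ) : ℕ → ℕ → ℕ :=
  Nat.rec (motive := fun _ => ℕ → ℕ → ℕ) (fun _ _ => 0)
    (fun _ ih v k => force (tab v) fun e => cnd (Nat.beq (Nat.shiftRight e 4) k)
      (force (Nat.land e 15) fun m => force (Nat.succ k) (kids ih v gs m)) 0) fuel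
def Seen (tab : ℕ → ℕ) (P : ℕ → Prop) (s e : ℕ) : Prop := ∀ j, s ≤ j → j < e → ∃ v, P v ∧ Nat.shiftRight (tab v) 4 = j

theorem walk_sound {tab : ℕ → ℕ} {gs : List M3} {P : ℕ → Prop} (hg : ∀ g ∈ gs, ∀ v, P v → P (mv g v)) (fuel : ℕ) :
    ∀ v k, P v → walk tab gs fuel v k ≠ 0 → Seen tab P k (walk tab gs fuel v k) := by
  induction fuel with
  | zero => intro v k _ h; exact absurd rfl h
  | succ n ih =>
    intro v k hv
    have hk : ∀ (l : List M3), (∀ g ∈ l, g ∈ gs) → ∀ m acc, kids (walk tab gs n) v l m acc ≠ 0 →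
        Seen tab P acc (kids (walk tab gs n) v l m acc) := by
      intro l
      induction l with
      | nil => intro _ m acc _ j h1 h2; exact absurd h2 (not_lt.2 h1)
      | cons g l ihl =>
        intro hl m acc
        have e : kids (walk tab gs n) v (g :: l) m acc = cnd (Nat.beq m 0) acc (force (Nat.shiftRight m 1) fun m' =>
            cnd (Nat.beq (Nat.land m 1) 0) (kids (walk tab gs n) v l m' acc)
              (force (force (mv g v) fun v' => walk tab gs n v' acc) fun a =>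
                cnd (Nat.beq a 0) 0 (kids (walk tab gs n) v l m' a))) := rfl
        have hl' : ∀ x ∈ l, x ∈ gs := fun x hx => hl x (List.mem_cons_of_mem _ hx)
        rw [e]
        simp only [force_eq]
        cases Nat.beq m 0
        · cases Nat.beq (Nat.land m 1) 0
          · cases ha : Nat.beq (walk tab gs n (mv g v) acc) 0
            · intro h j h1 h2
              by_cases hj : j < walk tab gs n (mv g v) acc
              · exact ih _ _ (hg g (hl g List.mem_cons_self) v hv) (Nat.ne_of_beq_eq_false ha) j h1 hj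
              · exact ihl hl' _ _ h j (not_lt.1 hj) h2
            · intro h; exact absurd rfl h
          · exact ihl hl' _ _
        · intro _ j h1 h2; exact absurd h2 (not_lt.2 h1)
    have e : walk tab gs (n + 1) v k = force (tab v) fun e => cnd (Nat.beq (Nat.shiftRight e 4) k)
      (force (Nat.land e 15) fun m => force (Nat.succ k) (kids (walk tab gs n) v gs m)) 0 := rfl
    rw [e]
    simp only [force_eq]
    cases hb : Nat.beq (Nat.shiftRight (tab v) 4) k
    · intro h; exact absurd rfl h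
    · intro h j h1 h2
      by_cases hj : j = k
      · exact ⟨v, hv, hj ▸ Nat.eq_of_beq_eq_true hb⟩
      · exact hk gs (fun _ h => h) _ _ h j (by omega) h2

variable {ι : Type}
/-- the entry of a list of `(size, data)` that covers position `j` -/
def atL (a : ι) (L : List (ℕ × ι)) : ℕ → ι :=
  List.rec (fun _ => a) (fun p _ ih j => cnd (Nat.ble p.1 j) (ih (Nat.sub j p.1)) p.2) L
def totL (L : List (ℕ × ι)) : ℕ := List.rec 0 (fun p _ ih => Nat.add p.1 ih) L
def sumL (f : ι → ℕ) (L : List (ℕ × ι)) : ℕ := List.rec 0 (fun p _ ih => Nat.add (Nat.mul p.1 (f p.2)) ih) L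
theorem atL_cons (a : ι) (p : ℕ × ι) (L : List (ℕ × ι)) (j : ℕ) :
    atL a (p :: L) j = if j < p.1 then p.2 else atL a L (j - p.1) := by
  show cnd (Nat.ble p.1 j) (atL a L (j - p.1)) p.2 = _
  cases h : Nat.ble p.1 j
  · rw [if_pos (by have := Nat.not_le_of_not_ble_eq_true (by rw [h]; simp : ¬ Nat.ble p.1 j = true); omega)]; rfl
  · rw [Nat.ble_eq] at h; rw [if_neg (by omega)]; rfl
theorem sum_atL (a : ι) (f : ι → ℕ) (L : List (ℕ × ι)) : ∑ j ∈ Finset.range (totL L), f (atL a L j) = sumL f L := by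
  induction L with
  | nil => rfl
  | cons p L ih =>
    have e1 : totL (p :: L) = p.1 + totL L := rfl
    have e2 : sumL f (p :: L) = p.1 * f p.2 + sumL f L := rfl
    rw [e1, e2, Finset.sum_range_add, ← ih]
    congr 1
    · rw [Finset.sum_congr rfl (g := fun _ => f p.2) fun j hj => by rw [atL_cons, if_pos (Finset.mem_range.1 hj)]]
      simp
    · exact Finset.sum_congr rfl fun j _ => by rw [atL_cons, if_neg (by omega), Nat.add_sub_cancel_left]
theorem atL_mem (a : ι) (L : List (ℕ × ι)) : ∀ j < totL L, ∃ p ∈ L, atL a L j = p.2 := by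
  induction L with
  | nil => intro j hj; exact absurd hj (Nat.not_lt_zero _)
  | cons p L ih =>
    intro j hj
    have e1 : totL (p :: L) = p.1 + totL L := rfl
    rw [atL_cons]
    split_ifs with h
    · exact ⟨p, List.mem_cons_self, rfl⟩
    · obtain ⟨q, hq, e⟩ := ih (j - p.1) (by omega)
      exact ⟨q, List.mem_cons_of_mem _ hq, e⟩
def forest (tab : ℕ → ℕ) (gs : List M3) (root : ι → ℕ) (L : List (ℕ × ι)) : ℕ → Bool :=
  List.rec (fun _ => true) (fun p _ ih k => band (Nat.ble 1 p.1) (band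
    (Nat.beq (force (root p.2) fun v => walk tab gs 200 v k) (Nat.add k p.1)) (force (Nat.add k p.1) ih))) L
theorem forest_sound {tab : ℕ → ℕ} {gs : List M3} {root : ι → ℕ} {P : ι → ℕ → Prop} (a : ι)
    (hg : ∀ i, ∀ g ∈ gs, ∀ v, P i v → P i (mv g v)) : ∀ (L : List (ℕ × ι)) (k : ℕ), (∀ p ∈ L, P p.2 (root p.2)) →
    forest tab gs root L k = true → ∀ j < totL L, ∃ v, P (atL a L j) v ∧ Nat.shiftRight (tab v) 4 = k + j := by
  intro L
  induction L with
  | nil => intro k _ _ j hj; exact absurd hj (Nat.not_lt_zero _)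
  | cons p L ih =>
    intro k hr h j hj
    have e1 : totL (p :: L) = p.1 + totL L := rfl
    have h' : band (Nat.ble 1 p.1) (band (Nat.beq (force (root p.2) fun v => walk tab gs 200 v k) (Nat.add k p.1))
      (force (Nat.add k p.1) (forest tab gs root L))) = true := h
    obtain ⟨h1, h2⟩ := band_spec h'
    obtain ⟨h2, h3⟩ := band_spec h2
    rw [Nat.ble_eq] at h1
    rw [force_eq] at h2 h3
    have h4 : walk tab gs 200 (root p.2) k = k + p.1 := Nat.eq_of_beq_eq_true h2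
    rw [atL_cons]
    split_ifs with hj'
    · exact walk_sound (hg p.2) 200 _ k (hr p List.mem_cons_self) (by omega) (k + j) (by omega) (by omega)
    · obtain ⟨v, hv, e⟩ := ih (k + p.1) (fun q hq => hr q (List.mem_cons_of_mem _ hq)) h3 (j - p.1) (by omega)
      exact ⟨v, hv, by omega⟩

/-- a hashed set of `n` codes -/
structure HS where
  n : ℕ
  sl : ℕ → ℕ
  cd : ℕ → ℕ
def HS.set (H : HS) : Set ℕ := {c | c < 2 ^ 22 ∧ H.cd (H.sl c) = c}
def HS.cl (H : HS) (a b : ℕ) (T : M3) : Bool :=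
  allN2 (fun s => force (mv T (H.cd s)) fun c => Nat.beq (H.cd (H.sl c)) c) a b
theorem HS.cl_spec {H : HS} {a b : ℕ} {T : M3} (hs : ∀ c, H.sl c < a * b) (hT : Lin (mv T)) (h : H.cl a b T = true) :
    ∀ c ∈ H.set, mv T c ∈ H.set := by
  intro c hc
  have := allN2_spec h _ (hs c)
  rw [force_eq, hc.2] at this
  exact ⟨hT.1 c hc.1, Nat.eq_of_beq_eq_true this⟩
theorem act_unique {n F F'} (h : Act n F) (h' : Act n F') {a : ℕ} (ha : a < 2 ^ 22) : F a = F' a :=
  X_inj (h.2.1.1 a ha) (h'.2.1.1 a ha) ((h.2.2 a ha).trans (h'.2.2 a ha).symm)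
theorem smul_p0 {n F} (h : Act n F) {c : ℕ} (hc : c < 2 ^ 22) : n • pm 0 c = pm 0 (F c) :=
  smul_pm h (by norm_num) hc h.2.1.zero
theorem p0_inj {c c' : ℕ} (hc : c < 2 ^ 22) (hc' : c' < 2 ^ 22) (h : pm 0 c = pm 0 c') : c = c' := by
  rcases pm_inj (by norm_num) hc hc' h with e | e <;> simp [e]
/-- an invariant set of codes contains the orbit -/
theorem orb_sub {b : ℕ} (hb : b ≤ 43) {O : Set ℕ} (hO : ∀ c ∈ O, c < 2 ^ 22)
    (h : ∀ k, 23 ≤ k → k ≤ b → ∀ c ∈ O, mv (LT k) c ∈ O) {c : ℕ} (hc : c ∈ O) :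
    ∀ n ∈ gL b, ∃ c' ∈ O, n • pm 0 c = pm 0 c' := by
  refine gen_ind ⟨c, hc, one_smul _ _⟩ ?_
  rintro k hk g ⟨c', hc', e⟩
  have hk' : k ≤ b := hk
  refine ⟨mv (LT k) c', ?_, by rw [mul_smul, e, smul_p0 (act_gen (by omega)) (hO c' hc')]⟩
  by_cases h1 : 23 ≤ k
  · exact h k h1 hk' c' hc'
  · rwa [mv_Q (by omega) (hO c' hc')]
theorem HS.surj {H : HS} (hs : ∀ c, H.sl c < H.n) (y : ℕ → ℕ) (hy : ∀ j < H.n, y j ∈ H.set)
    (hi : ∀ j < H.n, ∀ j' < H.n, y j = y j' → j = j') : ∀ c ∈ H.set, ∃ j < H.n, y j = c := by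
  intro c hc
  have inj : Function.Injective (fun j : Fin H.n => (⟨H.sl (y j), hs _⟩ : Fin H.n)) := by
    intro j j' e
    have e' : H.sl (y j) = H.sl (y j') := congrArg Fin.val e
    exact Fin.ext (hi _ j.2 _ j'.2 (by rw [← (hy j j.2).2, e', (hy j' j'.2).2]))
  obtain ⟨j, hj⟩ := Finite.surjective_of_injective inj ⟨H.sl c, hs c⟩
  have e' : H.sl (y j) = H.sl c := congrArg Fin.val hj
  exact ⟨j, j.2, by rw [← (hy j j.2).2, e', hc.2]⟩

/-- generators: word and table -/
def okG (b : ℕ) (gs : List (List ℕ × M3)) : Bool := gs.all fun g => band (okW b g.1) (okM3 g.2 (cw g.1))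
def TG (gs : List (List ℕ × M3)) : Subgroup GG := closure (wd '' {w | w ∈ gs.map Prod.fst})
theorem okW_mono {b c : ℕ} (h : b ≤ c) {w : List ℕ} (hw : okW b w = true) : okW c w = true := by
  simp only [okW, List.all_eq_true, Nat.ble_eq] at hw ⊢
  exact fun k hk => (hw k hk).trans h
theorem TG_le {b : ℕ} {gs} (h : okG b gs = true) : TG gs ≤ gL b := by
  simp only [okG, List.all_eq_true] at h
  refine (closure_le _).2 ?_
  rintro _ ⟨w, hw, rfl⟩
  obtain ⟨g, hg, rfl⟩ := List.mem_map.1 hw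
  exact wd_gL (band_spec (h g hg)).1
theorem TG_ind {gs : List (List ℕ × M3)} {H : Subgroup GG} (h : ∀ g ∈ gs, wd g.1 ∈ H) : TG gs ≤ H := by
  refine (closure_le _).2 ?_
  rintro _ ⟨w, hw, rfl⟩
  obtain ⟨g, hg, rfl⟩ := List.mem_map.1 hw
  exact h g hg

/-- The forest theorem: a system of representatives `t ρ` for the points of a hashed orbit. -/
theorem forest_reps {H : HS} {b : ℕ} (hb : b ≤ 43) (hs : ∀ c, H.sl c < H.n) {c0 : ℕ} (hc0 : c0 < 2 ^ 22)
    (hO : ∀ n ∈ gL b, ∃ c' ∈ H.set, n • pm 0 c0 = pm 0 c') {gs : List (List ℕ × M3)} (hg : okG b gs = true)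
    (a : ι) (ρ : ι → List ℕ) {L : List (ℕ × ι)} (hρ : (L.all fun p => okW b (ρ p.2)) = true) (hn : totL L = H.n)
    {tab : ℕ → ℕ} (h : forest tab (gs.map Prod.snd) (fun i => cw (ρ i) c0) L 0 = true) :
    ∃ t : Fin H.n → GG, (∀ j, t j ∈ TG gs) ∧ (∀ j : Fin H.n, wd (ρ (atL a L j)) ∈ gL b) ∧
      (∀ j j', (t j * wd (ρ (atL a L j))) • pm 0 c0 = (t j' * wd (ρ (atL a L j'))) • pm 0 c0 → j = j') ∧
      ∀ n ∈ gL b, ∃ j, n • pm 0 c0 = (t j * wd (ρ (atL a L j))) • pm 0 c0 := by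
  simp only [List.all_eq_true] at hρ
  have hg' := hg
  simp only [okG, List.all_eq_true] at hg'
  have key := forest_sound (tab := tab) (gs := gs.map Prod.snd) (root := fun i => cw (ρ i) c0)
    (P := fun i v => v < 2 ^ 22 ∧ ∃ t ∈ TG gs, (t * wd (ρ i)) • pm 0 c0 = pm 0 v) a (by
      rintro i T hT v ⟨hv, t, ht, e⟩
      obtain ⟨g, hg, rfl⟩ := List.mem_map.1 hT
      obtain ⟨h1, h2⟩ := band_spec (hg' g hg)
      have ha := (act_wd (okW_mono hb h1)).tab h2
      refine ⟨ha.2.1.1 v hv, wd g.1 * t, mul_mem (Subgroup.subset_closure ⟨g.1, List.mem_map_of_mem hg, rfl⟩) ht, ?_⟩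
      rw [mul_assoc, mul_smul, e, smul_p0 ha hv]) L 0 (by
      intro p hp
      have ha := act_wd (okW_mono hb (hρ p hp))
      exact ⟨ha.2.1.1 c0 hc0, 1, one_mem _, by rw [one_mul, smul_p0 ha hc0]⟩) h
  rw [hn] at key
  choose! y hy using key
  have hy1 := fun j hj => (hy j hj).1.2
  choose! t ht et using hy1
  have hρ' : ∀ j < H.n, wd (ρ (atL a L j)) ∈ gL b := fun j hj => by
    obtain ⟨p, hp, e⟩ := atL_mem a L j (by omega)
    rw [e]; exact wd_gL (hρ p hp)
  have hi : ∀ j < H.n, ∀ j' < H.n, y j = y j' → j = j' := fun j hj j' hj' e => by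
    have a1 := (hy j hj).2
    have a2 := (hy j' hj').2
    rw [e] at a1; omega
  have hmem : ∀ j < H.n, y j ∈ H.set := fun j hj => by
    obtain ⟨c', hc', e⟩ := hO _ (mul_mem (TG_le hg (ht j hj)) (hρ' j hj))
    rw [et j hj] at e
    rwa [p0_inj (hy j hj).1.1 hc'.1 e]
  refine ⟨fun j => t j, fun j => ht j j.2, fun j => hρ' j j.2, fun j j' e => ?_, fun n hn' => ?_⟩
  · rw [et j j.2, et j' j'.2] at e
    exact Fin.ext (hi _ j.2 _ j'.2 (p0_inj (hy j j.2).1.1 (hy j' j'.2).1.1 e))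
  · obtain ⟨c', hc', e⟩ := hO n hn'
    obtain ⟨j, hj, rfl⟩ := HS.surj hs y hmem hi c' hc'
    exact ⟨⟨j, hj⟩, by rw [e, et j hj]⟩

/-! free reduction -/
def red (w : List ℕ) : List ℕ :=
  List.rec [] (fun k _ ih => List.rec [k] (fun a l _ => cnd (Nat.beq k a) l (k :: a :: l)) ih) w
theorem wd_red (w : List ℕ) : wd (red w) = wd w := by
  induction w with
  | nil => rfl
  | cons k w ih =>
    have e : red (k :: w) = List.rec [k] (fun a l _ => cnd (Nat.beq k a) l (k :: a :: l)) (red w) := rfl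
    rw [e, wd_cons, ← ih]
    cases red w with
    | nil => simp [wd]
    | cons a l =>
      show wd (cnd (Nat.beq k a) l (k :: a :: l)) = _
      cases h : Nat.beq k a
      · exact wd_cons _ _
      · rw [Nat.eq_of_beq_eq_true h, wd_cons, ← mul_assoc, gen_mul_self, one_mul]; rfl
theorem rel_red {u v : List ℕ} (h : wd (red u) = wd (red v)) : wd u = wd v := by rwa [wd_red, wd_red] at h

end
end CfsgH5.BE
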