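import Cfsg.Agent.H5.BA
/-! Baby Monster letters as units; relation oracles at group level (helper5). -/
set_option Elab.async false
namespace CfsgH5.BE
noncomputable section

abbrev GG := EndVˣ
theorem sqM : allN (fun k => chkM AB [k, k] []) 43 = true := by decide +kernel
theorem sq43 : chkB AB 0 4371 [43, 43] [] = true := by decide +kernel
theorem sq44 : chkB AB 0 4371 [44, 44] [] = true := by decide +kernel
theorem sq45 : chkM AB [45, 45] [] = true := by decide +kernel
theorem let_sq {k : ℕ} (h : k < 46) : let1 AB k * let1 AB k = 1 := by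
  have e : ev AB [k, k] = ev AB [] := by
    by_cases h1 : k < 43
    · exact relM AB_ok (allN_spec sqM k h1)
    · obtain rfl | rfl | rfl : k = 43 ∨ k = 44 ∨ k = 45 := by omega
      · exact rel1 AB_ok sq43
      · exact rel1 AB_ok sq44
      · exact relM AB_ok sq45
  simpa [ev] using e
/-- letters `0 … 44` generate the group; `45` is the auxiliary involution `-1` on the 23-dimensional block -/
def gen (k : ℕ) : GG := if h : k < 46 then ⟨let1 AB k, let1 AB k, let_sq h, let_sq h⟩ else 1
theorem gen_val {k : ℕ} (h : k < 46) : (gen k : EndV) = let1 AB k := by simp [gen, h]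
theorem gen_mul_self (k : ℕ) : gen k * gen k = 1 := by
  by_cases h : k < 46
  · exact Units.ext (by simp [gen_val h, let_sq h])
  · simp [gen, h]
theorem gen_inv (k : ℕ) : (gen k)⁻¹ = gen k := inv_eq_of_mul_eq_one_right (gen_mul_self k)
def wd (w : List ℕ) : GG := (w.map gen).prod
theorem wd_nil : wd [] = 1 := rfl
theorem wd_cons (k : ℕ) (w : List ℕ) : wd (k :: w) = gen k * wd w := by simp [wd]
theorem wd_append (u w : List ℕ) : wd (u ++ w) = wd u * wd w := by simp [wd]
theorem wd_one (k : ℕ) : wd [k] = gen k := by simp [wd]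
theorem wd_reverse (w : List ℕ) : wd w.reverse = (wd w)⁻¹ := by
  induction w with
  | nil => simp [wd]
  | cons k w ih => rw [List.reverse_cons, wd_append, ih, wd_cons k w, wd_one, mul_inv_rev, gen_inv]
def okW (b : ℕ) (w : List ℕ) : Bool := w.all fun k => Nat.ble k b
theorem okW_spec {b : ℕ} {w : List ℕ} (h : okW b w = true) : ∀ k ∈ w, k ≤ b := by
  simpa [okW] using h
theorem wd_val : ∀ w : List ℕ, okW 45 w = true → (wd w : EndV) = ev AB w := by
  intro w
  induction w with
  | nil => intro _; rfl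
  | cons k w ih =>
    intro h
    simp only [okW, List.all_cons, Bool.and_eq_true, Nat.ble_eq] at h
    rw [wd_cons, ev_cons, Units.val_mul, ih h.2, gen_val (by omega)]
theorem wd_mem {H : Subgroup GG} {w : List ℕ} (h : ∀ k ∈ w, gen k ∈ H) : wd w ∈ H := by
  induction w with
  | nil => exact H.one_mem
  | cons k w ih =>
    rw [wd_cons]; exact H.mul_mem (h k List.mem_cons_self) (ih fun x hx => h x (List.mem_cons_of_mem _ hx))

def ok2 (w1 w2 : List ℕ) (b : Bool) : Bool := band (okW 45 w1) (band (okW 45 w2) b)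
theorem of_ev {w1 w2 : List ℕ} (h1 : okW 45 w1 = true) (h2 : okW 45 w2 = true) (h : ev AB w1 = ev AB w2) :
    wd w1 = wd w2 := Units.ext (by rw [wd_val _ h1, wd_val _ h2, h])
/-- full check in one piece (about 75 MB and 0.17 s per letter 43/44, 11 ms per monomial letter) -/
def chk (w1 w2 : List ℕ) : Bool := ok2 w1 w2 (chkB AB 0 4371 w1 w2)
theorem rel {w1 w2 : List ℕ} (h : chk w1 w2 = true) : wd w1 = wd w2 :=
  of_ev (band_spec h).1 (band_spec (band_spec h).2).1 (rel1 AB_ok (band_spec (band_spec h).2).2)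
/-- check in two halves -/
def chkA (w1 w2 : List ℕ) : Bool := ok2 w1 w2 (chkB AB 0 2186 w1 w2)
def chkA' (w1 w2 : List ℕ) : Bool := chkB AB 2186 2185 w1 w2
theorem relA {w1 w2 : List ℕ} (h : chkA w1 w2 = true) (h' : chkA' w1 w2 = true) : wd w1 = wd w2 :=
  of_ev (band_spec h).1 (band_spec (band_spec h).2).1 (rel2 AB_ok (band_spec (band_spec h).2).2 h')
/-- monomial words (no letters 43, 44) -/
def chkm (w1 w2 : List ℕ) : Bool := ok2 w1 w2 (chkM AB w1 w2)
theorem relm {w1 w2 : List ℕ} (h : chkm w1 w2 = true) : wd w1 = wd w2 :=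
  of_ev (band_spec h).1 (band_spec (band_spec h).2).1 (relM AB_ok (band_spec (band_spec h).2).2)

/-! commuting with the diagonal involution `gen 2`, for elements of a finite group -/
theorem pJ : chkM AB [46, 48, 47] [2] = true := by decide +kernel
theorem pP : chkM AB [46, 47] [] = true := by decide +kernel
theorem pP' : chkM AB [47, 46] [] = true := by decide +kernel
theorem jTab : allN2 (fun i => band (Nat.beq (eIdx (getN tb48 i)) i) (eSg (getN tb48 i) == Nat.ble 1939 i)) 93 47 = true := by
  decide +kernel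
theorem J_apply (v : V) (i : Fin 4371) : let1 AB 48 v i = if (i : ℕ) < 1939 then v i else - v i := by
  obtain ⟨h1, h2⟩ := band_spec (allN2_spec jTab i i.2)
  have e1 : eIdx (getN tb48 i) = i := Nat.eq_of_beq_eq_true h1
  have e2 : eSg (getN tb48 i) = Nat.ble 1939 i := by simpa using h2
  have : let1 AB 48 v i = sgL (eSg (getN tb48 i)) (extL (eIdx (getN tb48 i))) v := rfl
  rw [this, e1, e2]
  by_cases h : (i : ℕ) < 1939
  · have : Nat.ble 1939 i = false := by
      cases hb : Nat.ble 1939 i
      · rfl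
      · rw [Nat.ble_eq] at hb; omega
    rw [this, if_pos h]; exact extL_lt i.2 v
  · rw [Nat.ble_eq_true_of_le (by omega), if_neg h]
    simp [sgL, extL_lt i.2]

theorem comm_of_block (J x x' : EndV) (hJ : ∀ v i, J v i = if (i : ℕ) < 1939 then v i else - v i)
    (hx : x * x' = 1) (hx' : x' * x = 1)
    (hz : ∀ c < 1939, ∀ i : Fin 4371, 1939 ≤ (i : ℕ) → x (col 0 c) i = 0)
    {n : ℕ} (hn : 0 < n) (hp : (J * (x' * J * x)) ^ n = 1) : J * x = x * J := by
  -- `E` = vectors supported on the first block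
  let E : Submodule ℚ V := LinearMap.ker (J - 1)
  have memE : ∀ v, v ∈ E ↔ J v = v := fun v => by simp [E, sub_eq_zero]
  have JJ : ∀ v, J (J v) = v := fun v => funext fun i => by rw [hJ, hJ]; split_ifs <;> simp
  have hadd : ∀ v, J v + v ∈ E := fun v => by rw [memE, map_add, JJ, add_comm]
  -- `x` maps `E` into `E`
  have hxE : ∀ v ∈ E, x v ∈ E := by
    have key : (J - 1) * x * (J + 1) = 0 := by
      refine end_ext fun j => ⟨0, j, by simp, ?_⟩
      by_cases h : (j : ℕ) < 1939
      · have e : J (col 0 j) = col 0 j := funext fun i => by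
          rw [hJ]; split_ifs with h'
          · rfl
          · have : ¬ (i : ℕ) = j := by omega
            simp [col, this]
        have e2 : J (x (col 0 j)) = x (col 0 j) := funext fun i => by
          rw [hJ]; split_ifs with h'
          · rfl
          · rw [hz j h i (by omega)]; simp
        simp [e, e2]
      · have e : J (col 0 j) = - col 0 j := funext fun i => by
          rw [hJ]; split_ifs with h'
          · have : ¬ (i : ℕ) = j := by omega
            simp [col, this]
          · rfl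
        simp [e]
    intro v hv
    have := LinearMap.congr_fun key v
    rw [memE] at hv ⊢
    simp only [Module.End.mul_apply, LinearMap.add_apply, LinearMap.sub_apply, Module.End.one_apply, hv, map_add,
      LinearMap.zero_apply] at this
    have h2 : (2 : ℚ) • (J (x v) - x v) = 0 := by rw [← this]; module
    exact sub_eq_zero.1 ((smul_eq_zero.1 h2).resolve_left (by norm_num))
  have xx' : ∀ v, x (x' v) = v := fun v => LinearMap.congr_fun hx v
  have x'x : ∀ v, x' (x v) = v := fun v => LinearMap.congr_fun hx' v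
  have hx'E : ∀ v ∈ E, x' v ∈ E := by
    have inj : Function.Injective (x.restrict hxE) := fun a b h => Subtype.ext (by
      have := congrArg (fun t : E => x' t) h
      simpa [x'x] using this)
    intro v hv
    obtain ⟨a, ha⟩ := (LinearMap.injective_iff_surjective.1 inj) ⟨v, hv⟩
    have : x a = v := congrArg Subtype.val ha
    rw [← this, x'x]; exact a.2
  set u := J * (x' * J * x) with hu
  have u1 : ∀ v ∈ E, u v = v := fun v hv => by
    simp only [hu, Module.End.mul_apply]
    rw [(memE _).1 (hxE v hv), x'x, (memE _).1 hv]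
  have u2 : ∀ v, u v - v ∈ E := fun v => by
    have a := hx'E _ (hadd (x v))
    rw [map_add, x'x] at a
    have b := hadd (x' (J (x v)))
    have : u v - v = (J (x' (J (x v))) + x' (J (x v))) - (x' (J (x v)) + v) := by
      simp only [hu, Module.End.mul_apply]; abel
    rw [this]; exact E.sub_mem b a
  have u3 : ∀ (m : ℕ) v, (u ^ m) v = v + (m : ℚ) • (u v - v) := fun m v => by
    induction m with
    | zero => simp
    | succ m ih =>
      rw [pow_succ', Module.End.mul_apply, ih, map_add, map_smul, u1 _ (u2 v)]; push_cast; module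
  have u4 : ∀ v, u v = v := fun v => by
    have := u3 n v
    rw [hp, Module.End.one_apply, left_eq_add, smul_eq_zero] at this
    exact sub_eq_zero.1 (this.resolve_left (by exact_mod_cast hn.ne'))
  refine LinearMap.ext fun v => ?_
  have a := congrArg (fun t => x (J t)) (u4 v)
  simp only [hu, Module.End.mul_apply, JJ, xx'] at a
  exact a

/-- `wd w` maps the `+1` eigenspace of `gen 2` into itself -/
def chkC (w : List ℕ) : Bool := band (okW 45 w) (chkZ AB 0 1939 1939 (47 :: (w ++ [46])))
theorem commC {w : List ℕ} (h : chkC w = true) (hf : IsOfFinOrder (gen 2 * ((wd w)⁻¹ * gen 2 * wd w))) :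
    gen 2 * wd w = wd w * gen 2 := by
  obtain ⟨h1, h2⟩ := band_spec h
  obtain ⟨n, hn, hp⟩ := isOfFinOrder_iff_pow_eq_one.1 hf
  have pp : let1 AB 46 * let1 AB 47 = 1 := by simpa [ev] using relM AB_ok pP
  have pp' : let1 AB 47 * let1 AB 46 = 1 := by simpa [ev] using relM AB_ok pP'
  have pj : let1 AB 46 * (let1 AB 48 * let1 AB 47) = (gen 2 : EndV) := by
    rw [gen_val (by norm_num)]; simpa [ev] using relM AB_ok pJ
  let P : GG := ⟨_, _, pp, pp'⟩
  have hJ : let1 AB 48 = ((P⁻¹ * gen 2 * P : GG) : EndV) := by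
    show _ = let1 AB 47 * (gen 2 : EndV) * let1 AB 46
    rw [← pj, ← mul_assoc, pp', one_mul, mul_assoc, pp', mul_one]
  have hx : ev AB (47 :: (w ++ [46])) = ((P⁻¹ * wd w * P : GG) : EndV) := by
    show _ = let1 AB 47 * (wd w : EndV) * let1 AB 46
    rw [ev_cons, ev_append, wd_val _ h1, mul_assoc]; simp [ev]
  have key := comm_of_block (let1 AB 48) ((P⁻¹ * wd w * P : GG) : EndV) (((P⁻¹ * wd w * P)⁻¹ : GG) : EndV) J_apply
    (Units.mul_inv _) (Units.inv_mul _) (fun c hc i hi => by rw [← hx]; exact chkZ_spec AB_ok h2 c hc i hi) hn (by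
      rw [hJ, ← Units.val_mul, ← Units.val_mul, ← Units.val_mul, ← Units.val_pow_eq_pow_val]
      have : P⁻¹ * gen 2 * P * ((P⁻¹ * wd w * P)⁻¹ * (P⁻¹ * gen 2 * P) * (P⁻¹ * wd w * P)) =
        P⁻¹ * (gen 2 * ((wd w)⁻¹ * gen 2 * wd w)) * P⁻¹⁻¹ := by group
      rw [this, conj_pow, hp]; simp)
  rw [hJ, ← Units.val_mul, ← Units.val_mul, Units.val_inj] at key
  have : gen 2 * wd w = P * (P⁻¹ * gen 2 * P * (P⁻¹ * wd w * P)) * P⁻¹ := by group
  rw [this, key]; group

/-! block traces -/
def trB (lo n : ℕ) (y : EndV) : ℚ := ∑ i : Fin 4371, if lo ≤ (i : ℕ) ∧ (i : ℕ) < lo + n then y (Pi.single i 1) i else 0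
theorem trB_eq {lo n : ℕ} {J : EndV} (hJ : ∀ v i, J v i = if lo ≤ (i : ℕ) ∧ (i : ℕ) < lo + n then - v i else v i)
    (y : EndV) : LinearMap.trace ℚ V ((1 - J) * y) = 2 * trB lo n y := by
  rw [LinearMap.trace_eq_matrix_trace ℚ (Pi.basisFun ℚ (Fin 4371)), Matrix.trace, trB, Finset.mul_sum]
  refine Finset.sum_congr rfl fun i _ => ?_
  simp only [Matrix.diag, LinearMap.toMatrix_apply, Pi.basisFun_apply, Pi.basisFun_repr, Module.End.mul_apply,
    LinearMap.sub_apply, Module.End.one_apply, Pi.sub_apply, hJ]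
  split_ifs <;> ring
theorem trB_conj {lo n : ℕ} {J : GG} (hJ : ∀ v i, (J : EndV) v i = if lo ≤ (i : ℕ) ∧ (i : ℕ) < lo + n then - v i else v i)
    {g : GG} (hg : J * g = g * J) (y : GG) : trB lo n ((g * y * g⁻¹ : GG) : EndV) = trB lo n (y : EndV) := by
  have h1 := trB_eq hJ ((g * y * g⁻¹ : GG) : EndV)
  have h2 := trB_eq hJ (y : EndV)
  have c : (1 - (J : EndV)) * (g : EndV) = g * (1 - (J : EndV)) := by
    have := congrArg Units.val hg
    simp only [Units.val_mul] at this
    rw [sub_mul, mul_sub, this]; simp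
  rw [Units.val_mul, Units.val_mul, ← mul_assoc, LinearMap.trace_mul_comm, ← mul_assoc, ← mul_assoc, mul_assoc _ (1 - (J : EndV)),
    c, ← mul_assoc, Units.inv_mul, one_mul, h2] at h1
  rw [Units.val_mul, Units.val_mul]
  linarith
theorem diag_apply (k lo hi : ℕ) (hk : isD k = false)
    (h : allN2 (fun i => band (Nat.beq (eIdx (getN (AB.tab k) i)) i) (eSg (getN (AB.tab k) i) == inR lo hi i)) 93 47 = true)
    (v : V) (i : Fin 4371) : let1 AB k v i = if lo ≤ (i : ℕ) ∧ (i : ℕ) < hi then - v i else v i := by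
  obtain ⟨h1, h2⟩ := band_spec (allN2_spec h i i.2)
  have e1 : eIdx (getN (AB.tab k) i) = i := Nat.eq_of_beq_eq_true h1
  have e2 : eSg (getN (AB.tab k) i) = inR lo hi i := by simpa using h2
  have : let1 AB k v i = sgL (eSg (getN (AB.tab k) i)) (extL (eIdx (getN (AB.tab k) i))) v := by
    rw [let1, hk]; rfl
  rw [this, e1, e2]
  cases c : inR lo hi i
  · rw [if_neg (fun h => by rw [inR_true h.1 h.2] at c; exact absurd c (by simp))]; exact extL_lt i.2 v
  · rw [if_pos (inR_spec c)]; simp [sgL, extL_lt i.2]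
theorem gen45_apply (v : V) (i : Fin 4371) :
    (gen 45 : EndV) v i = if 4304 ≤ (i : ℕ) ∧ (i : ℕ) < 4304 + 23 then - v i else v i := by
  rw [gen_val (by norm_num)]; exact diag_apply 45 4304 4327 rfl (by decide +kernel) v i
theorem gen0_apply (v : V) (i : Fin 4371) :
    (gen 0 : EndV) v i = if 0 ≤ (i : ℕ) ∧ (i : ℕ) < 0 + 2048 then - v i else v i := by
  rw [gen_val (by norm_num)]; exact diag_apply 0 0 2048 rfl (by decide +kernel) v i
theorem c45M : allN (fun k => chkm [45, k] [k, 45]) 43 = true := by decide +kernel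
theorem c45X : chk [45, 43] [43, 45] = true := by decide +kernel
theorem comm45 {k : ℕ} (hk : k < 44) : gen 45 * gen k = gen k * gen 45 := by
  have : wd [45, k] = wd [k, 45] := by
    by_cases h : k < 43
    · exact relm (allN_spec c45M k h)
    · obtain rfl : k = 43 := by omega
      exact rel c45X
  simpa [wd] using this
def sumN (f : ℕ → ℕ) (n : ℕ) : ℕ := Nat.rec 0 (fun k ih => Nat.add ih (f k)) n
theorem sumN_eq (f : ℕ → ℕ) (n : ℕ) : sumN f n = ∑ k ∈ Finset.range n, f k := by
  induction n with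
  | zero => rfl
  | succ n ih => rw [Finset.sum_range_succ, ← ih]; rfl
def chkT2 (cs : Cs) (lo n t : ℕ) (e : St × ℕ) : Bool :=
  band (Nat.beq e.2 0) (Nat.beq (sumN (fun c => ent cs e (Nat.add lo c) c) n) t)
def chkT1 (cs : Cs) (lo n t : ℕ) (w : List ℕ) : Bool := chkT2 cs lo n t (run AB cs lo n w)
/-- `256 * (trace of wd w on the block [lo, lo + n)) + 512 * n = t` -/
def chkT (lo n t : ℕ) (w : List ℕ) : Bool := band (okW 45 w) (band (Nat.ble (Nat.add lo n) 4371) (chkT1 (mkCs n) lo n t w))
theorem trB_val {lo n t : ℕ} {w : List ℕ} (h : chkT lo n t w = true) :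
    256 * trB lo n (wd w : EndV) + 512 * n = t := by
  obtain ⟨h0, h1⟩ := band_spec h
  obtain ⟨h1, h2⟩ := band_spec h1
  obtain ⟨h2, h3⟩ := band_spec h2
  rw [Nat.ble_eq, Nat.add_eq] at h1
  have h4 := congrArg (Nat.cast : ℕ → ℚ) (Nat.eq_of_beq_eq_true h3)
  rw [sumN_eq, Nat.cast_sum] at h4
  rw [← h4, wd_val _ h0, trB, Finset.mul_sum]
  have e : ∀ c ∈ Finset.range n, ((ent (mkCs n) (run AB (mkCs n) lo n w) (Nat.add lo c) c : ℕ) : ℚ) =
      512 + extL (lo + c) (ev AB w (col lo c)) := fun c hc => by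
    have hc' := Finset.mem_range.1 hc
    rw [extL_lt (by omega)]
    exact ent_spec AB_ok (Nat.eq_of_beq_eq_true h2) ⟨lo + c, by omega⟩ hc'
  rw [Finset.sum_congr rfl e, Finset.sum_add_distrib, Finset.sum_const, Finset.card_range, add_comm]
  refine congrArg₂ (· + ·) (by simp [mul_comm]) ?_
  · symm
    refine Finset.sum_bij_ne_zero (fun c hc _ => ⟨lo + c, by have := Finset.mem_range.1 hc; omega⟩)
      (fun _ _ _ => Finset.mem_univ _) (fun a _ _ b _ _ h => by simpa using h) ?_ ?_
    · intro i _ hne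
      have hi : lo ≤ (i : ℕ) ∧ (i : ℕ) < lo + n := by
        by_contra hc; rw [if_neg hc] at hne; simp at hne
      rw [if_pos hi] at hne
      refine ⟨i - lo, Finset.mem_range.2 (by omega), ?_, Fin.ext (by simp only []; omega)⟩
      rw [show lo + (i - lo) = i by omega, extL_lt i.2, col_eq i lo (i - lo) (by omega), map_smul]
      exact hne
    · intro c hc _
      have hc' := Finset.mem_range.1 hc
      rw [if_pos (by simp only []; omega), extL_lt (by omega), col_eq ⟨lo + c, by omega⟩ lo c rfl, map_smul]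
      rfl

end
end CfsgH5.BE
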