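import Cfsg.Agent.H5.BH0
/-! Baby Monster (helper5): hashed orbits and forests (generated). -/
set_option Elab.async false
set_option linter.all false
namespace CfsgH5.BE
noncomputable section
theorem HL_cl23 : HL.cl 225 207 (LT 23) = true := by decide +kernel
theorem HL_cl24 : HL.cl 225 207 (LT 24) = true := by decide +kernel
theorem HL_cl25 : HL.cl 225 207 (LT 25) = true := by decide +kernel
theorem HL_cl26 : HL.cl 225 207 (LT 26) = true := by decide +kernel
theorem HL_cl27 : HL.cl 225 207 (LT 27) = true := by decide +kernel
theorem HL_cl28 : HL.cl 225 207 (LT 28) = true := by decide +kernel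
theorem HL_cl29 : HL.cl 225 207 (LT 29) = true := by decide +kernel
end
end CfsgH5.BE
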