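import Cfsg.Agent.H5.BH0
/-! Baby Monster (helper5): hashed orbits and forests (generated). -/
set_option Elab.async false
set_option linter.all false
namespace CfsgH5.BE
noncomputable section
theorem HL_cl30 : HL.cl 225 207 (LT 30) = true := by decide +kernel
theorem HL_cl31 : HL.cl 225 207 (LT 31) = true := by decide +kernel
theorem HL_cl32 : HL.cl 225 207 (LT 32) = true := by decide +kernel
theorem HL_cl33 : HL.cl 225 207 (LT 33) = true := by decide +kernel
theorem HL_cl34 : HL.cl 225 207 (LT 34) = true := by decide +kernel
theorem HL_cl35 : HL.cl 225 207 (LT 35) = true := by decide +kernel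
theorem HL_cl36 : HL.cl 225 207 (LT 36) = true := by decide +kernel
end
end CfsgH5.BE
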