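import Cfsg.Agent.H5.BH0
/-! Baby Monster (helper5): hashed orbits and forests (generated). -/
set_option Elab.async false
set_option linter.all false
namespace CfsgH5.BE
noncomputable section
theorem HL_cl37 : HL.cl 225 207 (LT 37) = true := by decide +kernel
theorem HL_cl38 : HL.cl 225 207 (LT 38) = true := by decide +kernel
theorem HL_cl39 : HL.cl 225 207 (LT 39) = true := by decide +kernel
theorem HL_cl40 : HL.cl 225 207 (LT 40) = true := by decide +kernel
theorem HL_cl41 : HL.cl 225 207 (LT 41) = true := by decide +kernel
theorem HL_cl42 : HL.cl 225 207 (LT 42) = true := by decide +kernel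
theorem HL_cl43 : HL.cl 225 207 (LT 43) = true := by decide +kernel
end
end CfsgH5.BE
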