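import Cfsg.Agent.H5.BR
/-! Baby Monster (helper5): stabiliser chains for the monomial subgroup, checkers. -/
namespace CfsgH5.BE
open Subgroup CfsgH5.BS
noncomputable section

abbrev Pg := gL 32
def flat (Ws : List (List ℕ)) (idx : List ℕ) : List ℕ := List.rec [] (fun i _ ih => List.append (nth [] Ws i) ih) idx
def CL (Ws : List (List ℕ)) : Subgroup GG := closure (wd '' {w | w ∈ Ws})
def XK (b : ℕ) (Ws : List (List ℕ)) : Subgroup GG := gL b ⊔ CL Ws
theorem wd_CL {Ws w} (h : w ∈ Ws) : wd w ∈ CL Ws := Subgroup.subset_closure ⟨w, h, rfl⟩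
theorem flat_CL (Ws idx) : wd (flat Ws idx) ∈ CL Ws := by
  induction idx with
  | nil => exact one_mem _
  | cons i idx ih =>
    show wd (nth [] Ws i ++ flat Ws idx) ∈ _
    rw [wd_append]
    exact mul_mem (nth_all (P := fun w => wd w ∈ CL Ws) (one_mem _) Ws (fun _ h => wd_CL h) i) ih
theorem flat_mem (b Ws idx) : wd (flat Ws idx) ∈ XK b Ws := mem_sup_right (flat_CL Ws idx)
theorem gL_XK (b Ws) : gL b ≤ XK b Ws := le_sup_left
theorem XK_le {b Ws} {H : Subgroup GG} (h1 : gL b ≤ H) (h2 : ∀ w ∈ Ws, wd w ∈ H) : XK b Ws ≤ H :=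
  sup_le h1 ((closure_le _).2 (by rintro _ ⟨w, hw, rfl⟩; exact h2 w hw))
theorem XK_nil (b) : XK b [] = gL b := le_antisymm (XK_le le_rfl (by simp)) (gL_XK _ _)
theorem XK_mono {b Ws Ws'} (h : ∀ w ∈ Ws, w ∈ Ws') : XK b Ws ≤ XK b Ws' :=
  XK_le (gL_XK _ _) fun w hw => mem_sup_right (wd_CL (h w hw))
theorem XK_cons (b s Ws) : XK b (s :: Ws) = XK b Ws ⊔ zpowers (wd s) := by
  refine le_antisymm (XK_le ((gL_XK _ _).trans le_sup_left) fun w hw => ?_)
    (sup_le (XK_mono fun w hw => List.mem_cons_of_mem _ hw) (zpowers_le.2 (mem_sup_right (wd_CL List.mem_cons_self))))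
  rcases List.mem_cons.1 hw with rfl | hw
  · exact mem_sup_right (mem_zpowers _)
  · exact mem_sup_left (mem_sup_right (wd_CL hw))
def okWs (b : ℕ) (Ws : List (List ℕ)) : Bool := Ws.all (okW b)
theorem okWs_spec {b Ws} (h : okWs b Ws = true) : ∀ w ∈ Ws, okW b w = true := by simpa [okWs] using h
theorem XK_gL {b c Ws} (hb : b ≤ c) (h : okWs c Ws = true) : XK b Ws ≤ gL c :=
  XK_le (gL_mono hb) fun w hw => wd_gL (okWs_spec h w hw)
theorem okW_append {b : ℕ} {u v : List ℕ} (hu : okW b u = true) (hv : okW b v = true) : okW b (u ++ v) = true := by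
  simp only [okW, List.all_append, Bool.and_eq_true] at *; exact ⟨hu, hv⟩
theorem okW_flat {b Ws} (h : okWs b Ws = true) (idx) : okW b (flat Ws idx) = true := by
  induction idx with
  | nil => rfl
  | cons i idx ih => exact okW_append (nth_all (P := fun w => okW b w = true) rfl Ws (okWs_spec h) i) ih
theorem mem_nth {α : Type} (a : α) {l : List α} {x : α} (h : x ∈ l) : ∃ i < l.length, nth a l i = x := by
  induction l with
  | nil => simp at h
  | cons y l ih =>
    rcases List.mem_cons.1 h with rfl | h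
    · exact ⟨0, by simp, rfl⟩
    · obtain ⟨i, hi, e⟩ := ih h
      exact ⟨i + 1, by simpa using hi, e⟩
theorem bits_mem (n e : ℕ) : wd (bitsL 0 (n + 1) e) ∈ gL n := by
  rw [wd_bitsL]; exact bw_mem _ (fun i hi => gen_mem (by omega)) e
def chr (u v : List ℕ) : Bool := chkm (red u) (red v)
theorem relr {u v} (h : chr u v = true) : wd u = wd v := rel_red (relm h)
def inK (Ws : List (List ℕ)) (w : List ℕ) (c : List ℕ × ℕ) : Bool := chr w (List.append (flat Ws c.1) (bitsL 0 33 c.2))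
theorem inK_spec {Ws w c} (h : inK Ws w c = true) : wd w ∈ XK 32 Ws := by
  rw [relr h, List.append_eq, wd_append]
  exact mul_mem (flat_mem _ _ _) (gL_XK _ _ (bits_mem 32 _))
def pal (Ws : List (List ℕ)) : Bool := Ws.all fun w => w.reverse == w
theorem pal_inv {Ws w} (h : pal Ws = true) (hw : w ∈ Ws) : (wd w)⁻¹ = wd w := by
  simp only [pal, List.all_eq_true, beq_iff_eq] at h
  rw [← wd_reverse, h w hw]
theorem XK_ind {b Ws} (hp : pal Ws = true) {P : GG → Prop} (h1 : P 1) (h2 : ∀ p ∈ gL b, ∀ g, P g → P (p * g))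
    (h3 : ∀ w ∈ Ws, ∀ g, P g → P (wd w * g)) : ∀ g ∈ XK b Ws, P g := by
  intro g hg
  have e : XK b Ws = closure ((gL b : Set GG) ∪ wd '' {w | w ∈ Ws}) := by
    rw [Subgroup.closure_union, Subgroup.closure_eq]; rfl
  rw [e] at hg
  induction hg using closure_induction_left with
  | one => exact h1
  | mul_left x hx y _ ih =>
    rcases hx with hx | ⟨w, hw, rfl⟩
    · exact h2 x hx y ih
    · exact h3 w hw y ih
  | inv_mul_cancel x hx y _ ih =>
    rcases hx with hx | ⟨w, hw, rfl⟩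
    · exact h2 _ (inv_mem hx) y ih
    · rw [pal_inv hp hw]; exact h3 w hw y ih
/-- elements `x` with `g⁻¹ x g ∈ K` -/
def cjS (g : GG) (K : Subgroup GG) : Subgroup GG := K.comap (MulAut.conj g⁻¹).toMonoidHom
theorem mem_cjS {g x : GG} {K : Subgroup GG} : x ∈ cjS g K ↔ g⁻¹ * x * g ∈ K := by simp [cjS]

/-! points -/
def pt (c : ℕ) : CS := pm 2048 c
def nm (c : ℕ) : ℕ := Nat.land c 4192255
theorem fix2048 : allN (fun k => Nat.beq (mv (LT k) 2048) 2048) 43 = true := by decide +kernel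
theorem cw_2048 : ∀ {w : List ℕ}, okW 42 w = true → cw w 2048 = 2048 := by
  intro w
  induction w with
  | nil => intro _; rfl
  | cons k w ih =>
    intro h
    simp only [okW, List.all_cons, Bool.and_eq_true, Nat.ble_eq] at h
    show mv (LT k) (cw w 2048) = _
    rw [ih h.2]; exact Nat.eq_of_beq_eq_true (allN_spec fix2048 k (by omega))
theorem act42 {w} (h : okW 42 w = true) : Act (wd w) (cw w) := act_wd (okW_mono (by norm_num) h)
theorem cw_lt {w c} (h : okW 42 w = true) (hc : c < 2 ^ 22) : cw w c < 2 ^ 22 := (act42 h).2.1.1 c hc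
theorem smul_pt {w c} (h : okW 42 w = true) (hc : c < 2 ^ 22) : wd w • pt c = pt (cw w c) :=
  smul_pm (act42 h) (by norm_num) hc (cw_2048 h)
theorem nm_bit (c i : ℕ) : (nm c).testBit i = (c.testBit i && (decide (i < 22) ^^ decide (11 = i))) := by
  rw [nm, Nat.land_eq, Nat.testBit_and, show 4192255 = (2 ^ 22 - 1) ^^^ 2 ^ 11 by decide, Nat.testBit_xor,
    Nat.testBit_two_pow_sub_one, Nat.testBit_two_pow]
theorem nm_xor (c : ℕ) : nm (c ^^^ 2048) = nm c := Nat.eq_of_testBit_eq fun i => by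
  rw [nm_bit, nm_bit, Nat.testBit_xor, show 2048 = 2 ^ 11 by norm_num, Nat.testBit_two_pow]
  by_cases h : 11 = i
  · subst h; simp
  · simp [h]
theorem pt_inj {c c'} (hc : c < 2 ^ 22) (hc' : c' < 2 ^ 22) (h : pt c = pt c') : nm c = nm c' := by
  rcases pm_inj (by norm_num) hc hc' h with e | e
  · rw [e]
  · rw [e, nm_xor]
theorem pt_eq {c c'} (hc : c < 2 ^ 22) (hc' : c' < 2 ^ 22) (h : nm c = nm c') : pt c = pt c' := by
  have key : ∀ i, i ≠ 11 → c.testBit i = c'.testBit i := fun i hi => by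
    by_cases h2 : i < 22
    · have := congrArg (fun x => Nat.testBit x i) h
      simpa [nm_bit, h2, hi.symm] using this
    · have p : 2 ^ 22 ≤ 2 ^ i := Nat.pow_le_pow_right (by norm_num) (by omega)
      rw [Nat.testBit_lt_two_pow (hc.trans_le p), Nat.testBit_lt_two_pow (hc'.trans_le p)]
  by_cases h11 : c.testBit 11 = c'.testBit 11
  · rw [Nat.eq_of_testBit_eq (x := c) (y := c') fun i => by
      by_cases hi : i = 11
      · rw [hi, h11]
      · exact key i hi]
  · rw [pt, ← pm_xor, Nat.eq_of_testBit_eq (x := c ^^^ 2048) (y := c') fun i => by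
      rw [Nat.testBit_xor, show 2048 = 2 ^ 11 by norm_num, Nat.testBit_two_pow]
      by_cases hi : i = 11
      · subst hi; revert h11; cases c.testBit 11 <;> cases c'.testBit 11 <;> simp
      · simp [key i hi, Ne.symm hi]]
    rfl
theorem okW_one {b k : ℕ} (h : k ≤ b) : okW b [k] = true := by simp [okW, h]
theorem M_fix {m : GG} (hm : m ∈ Mg) : m • pm 0 2048 = pm 0 2048 :=
  gen_ind (P := fun m => m • pm 0 2048 = pm 0 2048) (one_smul _ _) (fun k hk g hg => by
    rw [mul_smul, hg, ← wd_one, smul_p0 (act42 (okW_one hk)) (by norm_num), cw_2048 (okW_one hk)]) m hm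
def okP (c : ℕ) : Bool := band (Nat.ble c 4194303) (allN (fun k => Nat.beq (nm (mv (LT k) c)) (nm c)) 33)
theorem okP_lt {c} (h : okP c = true) : c < 2 ^ 22 := by
  have := (band_spec h).1
  rw [Nat.ble_eq] at this; omega
theorem P_fix {c} (h : okP c = true) {p : GG} (hp : p ∈ Pg) : p • pt c = pt c :=
  gen_ind (P := fun p => p • pt c = pt c) (one_smul _ _) (fun k hk g hg => by
    have hk' : k ≤ 32 := hk
    have h1 : okW 42 [k] = true := okW_one (by omega)
    rw [mul_smul, hg, ← wd_one, smul_pt h1 (okP_lt h)]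
    exact pt_eq (cw_lt h1 (okP_lt h)) (okP_lt h) (Nat.eq_of_beq_eq_true (allN_spec (band_spec h).2 k (by omega)))) p hp
def fixes (Ws : List (List ℕ)) (c : ℕ) : Bool := band (okP c) (band (okWs 42 Ws) (Ws.all fun w => Nat.beq (nm (cw w c)) (nm c)))
theorem XK_fix {Ws c} (h : fixes Ws c = true) : ∀ k ∈ XK 32 Ws, k • pt c = pt c := by
  obtain ⟨h1, h2⟩ := band_spec h
  obtain ⟨h2, h3⟩ := band_spec h2
  rw [List.all_eq_true] at h3
  refine XK_le (H := MulAction.stabilizer GG (pt c)) (fun p hp => P_fix h1 hp) fun w hw => ?_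
  have hw' := okWs_spec h2 w hw
  rw [MulAction.mem_stabilizer_iff, smul_pt hw' (okP_lt h1)]
  exact pt_eq (cw_lt hw' (okP_lt h1)) (okP_lt h1) (Nat.eq_of_beq_eq_true (h3 w hw))

/-- a level of the chain -/
structure Lv (Ws Ks : List (List ℕ)) (c : ℕ) (R : List (List ℕ)) : Prop where
  card : Nat.card (XK 32 Ws) = R.length * Nat.card (XK 32 Ks)
  stab : ∀ g ∈ XK 32 Ws, g • pt c = pt c → g ∈ XK 32 Ks
  orb : ∀ p ∈ Orb (XK 32 Ws) (pt c), ∃ b < R.length, p = pt (cw (flat Ws (nth [] R b)) c)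
  ok : okWs 42 Ws = true
  lt : c < 2 ^ 22
def bor (a b : Bool) : Bool := Bool.rec b true a
def dist (f : ℕ → ℕ) (n : ℕ) : Bool := allN (fun a => allN (fun b => bor (Nat.beq a b) (!Nat.beq (f a) (f b))) n) n
theorem dist_spec {f n} (h : dist f n = true) {a b : ℕ} (ha : a < n) (hb : b < n) (e : f a = f b) : a = b := by
  have := allN_spec (allN_spec h a ha) b hb
  rw [e, Nat.beq_refl] at this
  cases h' : Nat.beq a b
  · rw [h'] at this; exact absurd this (by simp [bor])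
  · exact Nat.eq_of_beq_eq_true h'
def okLv (Ws Ks : List (List ℕ)) (c : ℕ) (R : List (List ℕ)) : Bool :=
  band (band (okWs 42 Ws) (pal Ws)) (band (band (fixes Ks c) (Ks.all fun w => Ws.contains w))
    (band (band (Nat.ble 1 R.length) (nth [] R 0 == [])) (dist (fun b => nm (cw (flat Ws (nth [] R b)) c)) R.length)))
theorem lv_of_sur {Ws Ks c R} (h : okLv Ws Ks c R = true)
    (sur : ∀ g ∈ XK 32 Ws, ∃ b : Fin R.length, (wd (flat Ws (nth [] R b)))⁻¹ * g ∈ XK 32 Ks) : Lv Ws Ks c R := by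
  obtain ⟨h1, h2⟩ := band_spec h
  obtain ⟨h2, h3⟩ := band_spec h2
  obtain ⟨h3, h4⟩ := band_spec h3
  obtain ⟨h1, _⟩ := band_spec h1
  obtain ⟨h2, h5⟩ := band_spec h2
  obtain ⟨h3, h6⟩ := band_spec h3
  have hc := okP_lt (band_spec h2).1
  have hf := XK_fix h2
  rw [Nat.ble_eq] at h3
  have hle : XK 32 Ks ≤ XK 32 Ws := XK_mono (by simpa using h5)
  have e : ∀ b g, (wd (flat Ws (nth [] R b)))⁻¹ * g ∈ XK 32 Ks → g • pt c = pt (cw (flat Ws (nth [] R b)) c) :=
    fun b g hg => by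
      have := hf _ hg
      rwa [mul_smul, inv_smul_eq_iff, smul_pt (okW_flat h1 _) hc] at this
  have r0 : flat Ws (nth [] R 0) = [] := by rw [beq_iff_eq.1 h6]; rfl
  refine ⟨?_, fun g hg hs => ?_, ?_, h1, hc⟩
  · rw [card_trans hle (fun b : Fin R.length => wd (flat Ws (nth [] R b))) (fun b => flat_mem _ _ _) (fun b b' hb => ?_) sur,
      Nat.card_fin]
    have := e _ _ hb
    rw [smul_pt (okW_flat h1 _) hc] at this
    exact Fin.ext (dist_spec h4 b.2 b'.2 (pt_inj (cw_lt (okW_flat h1 _) hc) (cw_lt (okW_flat h1 _) hc) this).symm)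
  · obtain ⟨b, hb⟩ := sur g hg
    have := e _ _ hb
    rw [hs] at this
    have b0 : (b : ℕ) = 0 := dist_spec h4 b.2 (by omega) (by
      show _ = nm (cw (flat Ws (nth [] R 0)) c)
      rw [r0]; exact (pt_inj hc (cw_lt (okW_flat h1 _) hc) this).symm)
    rw [b0, r0] at hb
    simpa [wd] using hb
  · rintro _ ⟨g, hg, rfl⟩
    obtain ⟨b, hb⟩ := sur g hg
    exact ⟨b, b.2, e _ _ hb⟩
def exN (f : ℕ → Bool) (n : ℕ) : Bool := !allN (fun k => !f k) n
theorem exN_spec {f n} (h : exN f n = true) : ∃ k < n, f k = true := by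
  by_contra hc
  push Not at hc
  have : ∀ m ≤ n, allN (fun k => !f k) m = true := by
    intro m hm
    induction m with
    | zero => rfl
    | succ m ih =>
      show (Bool.rec false (allN (fun k => !f k) m) (!f m) : Bool) = true
      rw [ih (by omega), Bool.eq_false_iff.2 (hc m (by omega))]; rfl
  simp [exN, this n le_rfl] at h
def clO (Ws : List (List ℕ)) (c : ℕ) (R : List (List ℕ)) : Bool :=
  allN (fun b => force (cw (flat Ws (nth [] R b)) c) fun x => band (okP x) (Ws.all fun w => force (nm (cw w x)) fun y =>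
    exN (fun b' => Nat.beq y (nm (cw (flat Ws (nth [] R b')) c))) R.length)) R.length
theorem lv_of_stab {Ws Ks c R} (h : okLv Ws Ks c R = true) (h' : clO Ws c R = true)
    (stab : ∀ g ∈ XK 32 Ws, g • pt c = pt c → g ∈ XK 32 Ks) : Lv Ws Ks c R := by
  refine lv_of_sur h fun g hg => ?_
  obtain ⟨h1, h2⟩ := band_spec h
  obtain ⟨h2, h3⟩ := band_spec h2
  obtain ⟨h3, _⟩ := band_spec h3
  obtain ⟨h1, hp⟩ := band_spec h1
  obtain ⟨h2, _⟩ := band_spec h2
  obtain ⟨h3, h6⟩ := band_spec h3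
  have hc := okP_lt (band_spec h2).1
  rw [Nat.ble_eq] at h3
  have r0 : flat Ws (nth [] R 0) = [] := by rw [beq_iff_eq.1 h6]; rfl
  have key := XK_ind hp (P := fun g => ∃ b < R.length, g • pt c = pt (cw (flat Ws (nth [] R b)) c))
    ⟨0, by omega, by rw [r0, one_smul]; rfl⟩ (by
      rintro p hp g ⟨b, hb, e⟩
      have := allN_spec h' b hb
      rw [force_eq] at this
      exact ⟨b, hb, by rw [mul_smul, e, P_fix (band_spec this).1 hp]⟩) (by
      rintro w hw g ⟨b, hb, e⟩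
      have := allN_spec h' b hb
      rw [force_eq] at this
      have := List.all_eq_true.1 (band_spec this).2 w hw
      rw [force_eq] at this
      obtain ⟨b', hb', e'⟩ := exN_spec this
      have l1 := cw_lt (okW_flat h1 (nth [] R b)) hc
      refine ⟨b', hb', ?_⟩
      rw [mul_smul, e, smul_pt (okWs_spec h1 w hw) l1]
      exact pt_eq (cw_lt (okWs_spec h1 w hw) l1) (cw_lt (okW_flat h1 _) hc) (Nat.eq_of_beq_eq_true e')) g hg
  obtain ⟨b, hb, e⟩ := key
  refine ⟨⟨b, hb⟩, stab _ (mul_mem (inv_mem (flat_mem _ _ _)) hg) ?_⟩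
  rw [mul_smul, e, inv_smul_eq_iff, smul_pt (okW_flat h1 _) hc]

/-- `P` is normal in `M` -/
def NP : Prop := ∀ m ∈ Mg, ∀ p ∈ Pg, m * p * m⁻¹ ∈ Pg
def okExt (Ws Ks R : List (List ℕ)) (i : ℕ) (ce : List (ℕ × List ℕ × ℕ)) : Bool :=
  allN (fun b => band (Nat.blt (nth (0, [], 0) ce b).1 R.length)
    (inK Ks (List.append (flat Ws (nth [] R (nth (0, [], 0) ce b).1)).reverse (List.append (nth [] Ws i) (flat Ws (nth [] R b))))
      (nth (0, [], 0) ce b).2)) R.length
theorem lv_ext (np : NP) {Ws Ks c R} (h : okLv Ws Ks c R = true) (he : ∀ i < Ws.length, ∃ ce, okExt Ws Ks R i ce = true) :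
    Lv Ws Ks c R := by
  refine lv_of_sur h ?_
  obtain ⟨h1, h2⟩ := band_spec h
  obtain ⟨_, h3⟩ := band_spec h2
  obtain ⟨h3, _⟩ := band_spec h3
  obtain ⟨h1, hp⟩ := band_spec h1
  obtain ⟨h3, h6⟩ := band_spec h3
  rw [Nat.ble_eq] at h3
  refine trans_ext (gL_XK _ _) ?_ ?_ _ (fun b => flat_CL _ _) ⟨0, by omega⟩ (by rw [beq_iff_eq.1 h6]; rfl) ?_
  · rintro _ ⟨w, hw, rfl⟩
    nth_rewrite 1 [← pal_inv hp hw]
    simp
  · rintro _ ⟨w, hw, rfl⟩ p hp
    simpa using np _ (inv_mem (wd_gL (okWs_spec h1 w hw))) p hp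
  · rintro _ ⟨w, hw, rfl⟩ b
    obtain ⟨i, hi, rfl⟩ := mem_nth [] hw
    obtain ⟨ce, hce⟩ := he i hi
    obtain ⟨a1, a2⟩ := band_spec (allN_spec hce b b.2)
    rw [Nat.blt_eq] at a1
    have := inK_spec a2
    simp only [List.append_eq, wd_append, wd_reverse] at this
    exact ⟨⟨_, a1⟩, this⟩

structure TD where
  Ts : List (List ℕ)
  tin : List (List ℕ × ℕ)
  tcj : List (List ℕ × ℕ)
  rs : List (List ℕ)
  cov : List (List ℕ × ℕ)
  rel : List (ℕ × List ℕ × List ℕ × ℕ)
def okTD (Ks : List (List ℕ)) (s : List ℕ) (G : List (List ℕ)) (R : List (List ℕ)) (c : ℕ) (g : List ℕ) (d : TD) : Bool :=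
  band (band (okW 42 g) (okWs 42 d.Ts)) (band
    (allN (fun i => band (inK Ks (nth [] d.Ts i) (nth ([], 0) d.tin i))
      (inK Ks (List.append g.reverse (List.append (nth [] d.Ts i) g)) (nth ([], 0) d.tcj i))) d.Ts.length)
    (band (allN (fun b => band (Nat.blt (nth ([], 0) d.cov b).2 d.rs.length)
      (Nat.beq (nm (cw (List.append (flat d.Ts (nth ([], 0) d.cov b).1) (flat Ks (nth [] d.rs (nth ([], 0) d.cov b).2))) c))
        (nm (cw (flat Ks (nth [] R b)) c)))) R.length)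
    (allN (fun i => band (Nat.blt (nth (0, [], [], 0) d.rel i).1 G.length)
      (chr (List.append s (List.append (flat Ks (nth [] d.rs i)).reverse g))
        (List.append (flat Ks (nth (0, [], [], 0) d.rel i).2.1) (List.append (nth [] G (nth (0, [], [], 0) d.rel i).1)
          (List.append (flat Ks (nth (0, [], [], 0) d.rel i).2.2.1) (bitsL 0 33 (nth (0, [], [], 0) d.rel i).2.2.2))))))
      d.rs.length)))
theorem okTD_spec (np : NP) {Ks Ls c R s G g d} (lv : Lv Ks Ls c R) (hs : wd s * wd s = 1)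
    (hL : ∀ l ∈ XK 32 Ls, wd s * l * wd s ∈ XK 32 Ks) (h : okTD Ks s G R c g d = true) :
    ∀ k ∈ XK 32 Ks, ∃ j : Fin G.length, ∃ a ∈ XK 32 Ks, ∃ b ∈ XK 32 Ks, wd s * k⁻¹ * wd g = a * wd (nth [] G j) * b := by
  obtain ⟨h1, h2⟩ := band_spec h
  obtain ⟨h2, h3⟩ := band_spec h2
  obtain ⟨h3, h4⟩ := band_spec h3
  obtain ⟨h0, h1⟩ := band_spec h1
  refine dc_of_cov (T := XK 32 d.Ts) (R := {x | ∃ i < d.rs.length, x = wd (flat Ks (nth [] d.rs i))}) hs hL
    (cov_of_orb (β := pt c) (XK_le (gL_XK _ _) fun w hw => ?_) ?_ lv.stab fun p hp => ?_) ?_ ?_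
  · obtain ⟨i, hi, rfl⟩ := mem_nth [] hw
    exact inK_spec (band_spec (allN_spec h2 i hi)).1
  · rintro _ ⟨i, _, rfl⟩; exact flat_mem _ _ _
  · obtain ⟨b, hb, rfl⟩ := lv.orb p hp
    obtain ⟨a1, a2⟩ := band_spec (allN_spec h3 b hb)
    rw [Nat.blt_eq] at a1
    have o := okW_append (okW_flat h1 (nth ([], 0) d.cov b).1) (okW_flat lv.ok (nth [] d.rs (nth ([], 0) d.cov b).2))
    refine ⟨_, flat_mem 32 d.Ts (nth ([], 0) d.cov b).1, _, ⟨_, a1, rfl⟩, ?_⟩
    rw [← wd_append, smul_pt o lv.lt]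
    exact pt_eq (cw_lt (okW_flat lv.ok _) lv.lt) (cw_lt o lv.lt) (Nat.eq_of_beq_eq_true a2).symm
  · intro t ht
    refine mem_cjS.1 (XK_le (H := cjS (wd g) (XK 32 Ks)) (fun p hp => mem_cjS.2 (gL_XK _ _ ?_)) (fun w hw => ?_) ht)
    · simpa using np _ (inv_mem (wd_gL h0)) p hp
    · obtain ⟨i, hi, rfl⟩ := mem_nth [] hw
      have := inK_spec (band_spec (allN_spec h2 i hi)).2
      simp only [List.append_eq, wd_append, wd_reverse] at this
      rwa [mem_cjS, mul_assoc]
  · rintro _ ⟨i, hi, rfl⟩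
    obtain ⟨a1, a2⟩ := band_spec (allN_spec h4 i hi)
    rw [Nat.blt_eq] at a1
    have := relr a2
    simp only [List.append_eq, wd_append, wd_reverse] at this
    exact ⟨⟨_, a1⟩, _, flat_mem _ _ _, _, mul_mem (flat_mem _ _ _) (gL_XK _ _ (bits_mem 32 _)), by
      rw [mul_assoc, this, mul_assoc]⟩
def okSt (Ks Ls : List (List ℕ)) (s : List ℕ) (G : List (List ℕ)) (al : ℕ) (no : List (List ℕ × ℕ)) : Bool :=
  band (band (okWs 42 G) (band (Nat.ble 1 G.length) (nth [] G 0 == [])))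
    (band (allN (fun j => bor (Nat.beq j 0) (!Nat.beq (nm (cw (nth [] G j) al)) (nm al))) G.length)
      (allN (fun i => inK Ks (List.append s (List.append (nth [] Ls i) s)) (nth ([], 0) no i)) Ls.length))
theorem lv_step (np : NP) {Ks Ls c R s G al no R'} (lv : Lv Ks Ls c R) (h : okLv (s :: Ks) Ks al R' = true)
    (h' : clO (s :: Ks) al R' = true) (hS : okSt Ks Ls s G al no = true)
    (hD : ∀ j < G.length, ∃ d, okTD Ks s G R c (nth [] G j) d = true) : Lv (s :: Ks) Ks al R' := by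
  refine lv_of_stab h h' ?_
  obtain ⟨h1, h2⟩ := band_spec h
  obtain ⟨h2, _⟩ := band_spec h2
  obtain ⟨h1, hp⟩ := band_spec h1
  obtain ⟨h2, _⟩ := band_spec h2
  obtain ⟨s1, s2⟩ := band_spec hS
  obtain ⟨s2, s3⟩ := band_spec s2
  obtain ⟨s0, s1⟩ := band_spec s1
  obtain ⟨s1, s4⟩ := band_spec s1
  rw [Nat.ble_eq] at s1
  have hc := okP_lt (band_spec h2).1
  have hi := pal_inv hp (List.mem_cons_self (a := s))
  have hs : wd s * wd s = 1 := by nth_rewrite 1 [← hi]; simp
  have hL : ∀ l ∈ XK 32 Ls, wd s * l * wd s ∈ XK 32 Ks := fun l hl => by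
    have := mem_cjS.1 (XK_le (H := cjS (wd s) (XK 32 Ks)) (fun p hp => mem_cjS.2 (gL_XK _ _ ?_)) (fun w hw => ?_) hl)
    · rwa [hi] at this
    · simpa using np _ (inv_mem (wd_gL (okWs_spec h1 s List.mem_cons_self))) p hp
    · obtain ⟨i, hi', rfl⟩ := mem_nth [] hw
      have := inK_spec (allN_spec s3 i hi')
      simp only [List.append_eq, wd_append] at this
      rwa [mem_cjS, hi, mul_assoc]
  rw [XK_cons]
  refine step_stab hs (fun j : Fin G.length => wd (nth [] G j)) ⟨0, by omega⟩ (by rw [beq_iff_eq.1 s4]; rfl)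
    (fun j => ?_) (XK_fix h2) fun j hj => ?_
  · obtain ⟨d, hd⟩ := hD j j.2
    exact okTD_spec np lv hs hL hd
  · have o : okW 42 (nth [] G j) = true := nth_all (P := fun w => okW 42 w = true) rfl G (okWs_spec s0) j
    rw [smul_pt o hc] at hj
    have := allN_spec s2 j j.2
    rw [pt_inj (cw_lt o hc) hc hj, Nat.beq_refl] at this
    cases h' : Nat.beq j 0
    · rw [h'] at this; exact absurd this (by simp [bor])
    · exact Fin.ext (Nat.eq_of_beq_eq_true h')

/-! lower bounds -/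
theorem orb_ge {Γ α : Type*} [Group Γ] [MulAction Γ α] {H : Subgroup Γ} [Finite H] (β : α) {n : ℕ} (r : Fin n → Γ)
    (hr : ∀ b, r b ∈ H) (hi : ∀ b b', r b • β = r b' • β → b = b') : n ≤ Nat.card (Orb H β) := by
  have : Finite (Orb H β) := Finite.of_surjective (fun h : H => (⟨(h : Γ) • β, h, h.2, rfl⟩ : Orb H β))
    (by rintro ⟨_, h, hh, rfl⟩; exact ⟨⟨h, hh⟩, rfl⟩)
  have := Nat.card_le_card_of_injective (fun b => (⟨r b • β, _, hr b, rfl⟩ : Orb H β))
    (fun b b' e => hi b b' (congrArg Subtype.val e))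
  rwa [Nat.card_fin] at this
theorem XQ_fix {Ws c} (h : okWs 42 Ws = true) (hc : c < 2 ^ 22) (h' : (Ws.all fun w => Nat.beq (cw w c) c) = true) :
    ∀ k ∈ XK 22 Ws, k • pm 0 c = pm 0 c := by
  rw [List.all_eq_true] at h'
  refine XK_le (H := MulAction.stabilizer GG (pm 0 c)) (fun p hp => smul_p0 (act_Q hp) hc) fun w hw => ?_
  rw [MulAction.mem_stabilizer_iff, smul_p0 (act42 (okWs_spec h w hw)) hc, Nat.eq_of_beq_eq_true (h' w hw)]
def okLow (L : List (List ℕ × ℕ × List (List ℕ))) : Bool :=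
  List.rec true (fun p L ih => band (band (okWs 42 (p.1 :: L.map Prod.fst)) (Nat.ble p.2.1 4194303))
    (band (band ((L.map Prod.fst).all fun w => Nat.beq (cw w p.2.1) p.2.1)
      (dist (fun b => cw (flat (p.1 :: L.map Prod.fst) (nth [] p.2.2 b)) p.2.1) p.2.2.length)) ih)) L
def prL (L : List (List ℕ × ℕ × List (List ℕ))) : ℕ := List.rec 1 (fun p _ ih => Nat.mul p.2.2.length ih) L
theorem okLow_spec [Finite Mg] : ∀ {L}, okLow L = true → prL L * 2 ^ 23 ≤ Nat.card (XK 22 (L.map Prod.fst)) := by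
  intro L
  induction L with
  | nil => intro _; rw [List.map_nil, XK_nil, card_Q]; rfl
  | cons p L ih =>
    intro h
    obtain ⟨h1, h2⟩ := band_spec h
    obtain ⟨h2, h3⟩ := band_spec h2
    obtain ⟨h0, h1⟩ := band_spec h1
    obtain ⟨h2, h4⟩ := band_spec h2
    rw [Nat.ble_eq] at h1
    have hc : p.2.1 < 2 ^ 22 := by omega
    have : Finite (XK 22 (p.1 :: L.map Prod.fst)) :=
      Finite.of_injective _ (inclusion_injective (XK_gL (by norm_num) h0))
    have h0' : okWs 42 (L.map Prod.fst) = true := by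
      simp only [okWs, List.all_cons, Bool.and_eq_true] at h0 ⊢; exact h0.2
    have := low (XK_mono fun w hw => List.mem_cons_of_mem p.1 hw) (XQ_fix h0' hc h2)
      (orb_ge (H := XK 22 (p.1 :: L.map Prod.fst)) (pm 0 p.2.1) (n := p.2.2.length)
        (fun b => wd (flat (p.1 :: L.map Prod.fst) (nth [] p.2.2 b))) (fun b => flat_mem _ _ _) fun b b' e => by
          rw [smul_p0 (act42 (okW_flat h0 _)) hc, smul_p0 (act42 (okW_flat h0 _)) hc] at e
          exact Fin.ext (dist_spec h4 b.2 b'.2 (p0_inj (cw_lt (okW_flat h0 _) hc) (cw_lt (okW_flat h0 _) hc) e)))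
    refine le_trans ?_ this
    show p.2.2.length * prL L * 2 ^ 23 ≤ _
    rw [mul_assoc]
    exact Nat.mul_le_mul_left _ (ih h3)

/-! the subgroup `M0` -/
def M0 : Subgroup GG := closure (gen '' {k | k ≤ 42 ∧ k ≠ 1})
def ok0 (w : List ℕ) : Bool := w.all fun k => band (Nat.ble k 42) (!Nat.beq k 1)
theorem ok0_spec {w} (h : ok0 w = true) : wd w ∈ M0 := wd_mem fun k hk => by
  obtain ⟨h1, h2⟩ := band_spec (List.all_eq_true.1 h k hk)
  rw [Nat.ble_eq] at h1
  refine Subgroup.subset_closure (Set.mem_image_of_mem gen ⟨h1, ?_⟩)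
  rintro rfl; simp at h2
def cU (T : List (List ℕ)) (k : ℕ) : Bool := bor (Nat.beq k 1) (band (ok0 (nth [] T k)) (chr [1, k, 1] (nth [] T k)))
def cV (T : List (List ℕ)) (k : ℕ) : Bool := bor (Nat.beq k 1) (band (ok0 (nth [] T k)) (chk [44, k, 44] (nth [] T k)))

end
end CfsgH5.BE
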