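import Cfsg.Agent.H5.BM
/-! Baby Monster (helper5): stabiliser chain data (generated). -/
set_option Elab.async false
set_option linter.all false
namespace CfsgH5.BE
noncomputable section
noncomputable def npL : List (List ℕ) := [[4169144249, 3690993516, 3657439364, 3640659388, 8547997821, 3976204929, 536870912, 6132075677, 2768248809, 226496720], [8388608, 5343545253, 226496720, 5175776925, 142612936, 620757577, 436210597, 1333789120, 6534728624, 4546629852], [7784631088, 662705025, 3120563585, 2944406869, 134221824, 5872028580, 8103395804, 3732936836, 218106704, 6660559680], [1711283365, 1736446361, 2600471060, 2634024548, 6358568045, 5981079973, 536875008, 645925017, 3774881481, 3984590733], [6056578205, 2617253120, 7289701465, 4731181988, 998246109, 1736442265, 327160573, 5872028580, 5486153212, 8229228057], [7289705561, 7298092113, 8413780169, 7348421721, 3900705597, 4412409812, 562043396, 8355059609, 2172654092, 8061457265], [4009757241, 4001373721, 4378860788, 8531216845, 4546625756, 268435456, 6224354412, 7390366473, 7834968040, 4563406400], [260053236, 3707768036,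 1157634016, 1124078712, 3556777852, 1459623428, 4076865132, 2617253120, 2147483648, 6777995660], [4991225985, 2659188916, 3011517385, 973079413, 3112176585, 268435456, 503317945, 3581939444, 4437579872, 4563406400], [8392704, 2650805688, 7289701465, 1937770297, 3766485805, 7902070896, 6308234968, 6559898076, 4152364073, 8195673813]]
theorem np33 : allN (fun i => chkm [33, Nat.add 23 i, 33] (bitsL 0 33 (nth 0 (nth [] npL 0) i))) 10 = true := by decide +kernel
theorem np34 : allN (fun i => chkm [34, Nat.add 23 i, 34] (bitsL 0 33 (nth 0 (nth [] npL 1) i))) 10 = true := by decide +kernel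
theorem np35 : allN (fun i => chkm [35, Nat.add 23 i, 35] (bitsL 0 33 (nth 0 (nth [] npL 2) i))) 10 = true := by decide +kernel
theorem np36 : allN (fun i => chkm [36, Nat.add 23 i, 36] (bitsL 0 33 (nth 0 (nth [] npL 3) i))) 10 = true := by decide +kernel
theorem np37 : allN (fun i => chkm [37, Nat.add 23 i, 37] (bitsL 0 33 (nth 0 (nth [] npL 4) i))) 10 = true := by decide +kernel
theorem np38 : allN (fun i => chkm [38, Nat.add 23 i, 38] (bitsL 0 33 (nth 0 (nth [] npL 5) i))) 10 = true := by decide +kernel
theorem np39 : allN (fun i => chkm [39, Nat.add 23 i, 39] (bitsL 0 33 (nth 0 (nth [] npL 6) i))) 10 = true := by decide +kernel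
theorem np40 : allN (fun i => chkm [40, Nat.add 23 i, 40] (bitsL 0 33 (nth 0 (nth [] npL 7) i))) 10 = true := by decide +kernel
theorem np41 : allN (fun i => chkm [41, Nat.add 23 i, 41] (bitsL 0 33 (nth 0 (nth [] npL 8) i))) 10 = true := by decide +kernel
theorem np42 : allN (fun i => chkm [42, Nat.add 23 i, 42] (bitsL 0 33 (nth 0 (nth [] npL 9) i))) 10 = true := by decide +kernel
noncomputable def unL : List (List ℕ) := [[0], [1], [2], [3], [4], [5], [6], [7], [8], [9], [10], [11], [0, 12], [13], [14], [0, 15], [16], [0, 17], [0, 18], [19], [20], [0, 21], [22], [13, 23], [14, 24], [0, 12, 15, 25], [16, 26], [0, 12, 17, 27], [0, 12, 18, 28], [19, 29], [20, 30], [0, 12, 21, 31], [22, 32], [3, 5, 33], [34], [35], [3, 5, 6, 7, 9, 10, 36], [2, 5, 6, 7, 8, 37], [38], [3, 11, 39], [2, 5, 6, 7, 8, 40], [3, 11, 41], [3, 5, 6, 7, 9, 10, 42]]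
theorem unC : allN (cU unL) 43 = true := by decide +kernel
end
end CfsgH5.BE
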