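import Cfsg.Agent.H5.BN1
import Cfsg.Agent.H5.BN2
import Cfsg.Agent.H5.BN4
import Cfsg.Agent.H5.BH1
import Cfsg.Agent.H5.BH2
import Cfsg.Agent.H5.BH3
import Cfsg.Agent.H5.BK0
import Cfsg.Agent.H5.BK5
/-! Baby Monster (helper5): the orders of `P`, `M`, `N`. -/
namespace CfsgH5.BE
open Subgroup CfsgH5.BS
noncomputable section

def Y (e : ℕ) : GG := bw (fun i => gen (23 + i)) 10 e
theorem Y_mem (e : ℕ) : Y e ∈ Pg := bw_mem 10 (fun i hi => gen_mem (by omega)) e
theorem normQ {n : GG} (hn : n ∈ Ng) : n ∈ normalizer (Qg : Set GG) := by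
  rw [mem_normalizer_iff]
  exact fun x => ⟨norm_Q hn, fun h => by simpa [mul_assoc] using norm_Q (inv_mem hn) h⟩
theorem hP1 : ∀ i < 10, gen (23 + i) ∈ normalizer (Qg : Set GG) := fun i hi => normQ (gen_mem (by omega))
theorem hP2 : ∀ i < 10, gen (23 + i) * gen (23 + i) ∈ Qg := fun i _ => by rw [gen_mul_self]; exact one_mem _
theorem hP3 : ∀ i < 10, ∀ j < 10, (gen (23 + j) * gen (23 + i))⁻¹ * (gen (23 + i) * gen (23 + j)) ∈ Qg := fun i hi j hj => by
  have := bits_mem 22 (nth 0 (nth [] cmL i) j)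
  rw [← relm (allN_spec (allN_spec ycm i hi) j hj)] at this
  simpa [wd, gen_inv, mul_assoc] using this
theorem P_cover : ∀ x ∈ Pg, ∃ e : Fin (2 ^ 10), (Y e)⁻¹ * x ∈ Qg := by
  intro x hx
  refine bw_cover 10 hP1 hP2 hP3 x ((closure_le _).2 ?_ hx)
  rintro _ ⟨k, hk, rfl⟩
  have hk' : k ≤ 32 := hk
  by_cases h : k ≤ 22
  · exact mem_sup_left (gen_mem h)
  · exact mem_sup_right (Subgroup.subset_closure ⟨k - 23, by simp; omega, by simp only []; congr 1; omega⟩)
theorem okW_bitsL {b c : ℕ} (e : ℕ) : ∀ n, b + n ≤ c + 1 → okW c (bitsL b n e) = true := by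
  intro n
  induction n with
  | zero => intro _; rfl
  | succ n ih =>
    intro h
    have : bitsL b (n + 1) e = (Bool.rec (bitsL b n e) (bitsL b n e ++ [b + n]) (Nat.testBit e n) : List ℕ) := rfl
    rw [this]
    cases e.testBit n
    · exact ih (by omega)
    · exact okW_append (ih (by omega)) (okW_one (by omega))
theorem bor_ne {j x y : ℕ} (h : bor (Nat.beq j 0) (!Nat.beq x y) = true) (e : x = y) : j = 0 := by
  rw [e, Nat.beq_refl] at h
  cases h' : Nat.beq j 0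
  · rw [h'] at h; exact absurd h (by simp [bor])
  · exact Nat.eq_of_beq_eq_true h'
theorem Y_triv {e : ℕ} (he : e < 2 ^ 10) (h : Act (Y e) (fun a => a)) : e = 0 := by
  have a := act_wd (okW_bitsL (b := 23) (c := 43) e 10 (by norm_num))
  rw [wd_bitsL] at a
  exact bor_ne (allN2_spec yinj e he) (act_unique a h (by norm_num))
theorem card_P : Nat.card Pg = 2 ^ 33 := by
  rw [card_trans (gL_mono (by norm_num)) (fun e : Fin (2 ^ 10) => Y e) (fun e => Y_mem e) (fun a b h => ?_) P_cover, card_Q,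
    Nat.card_fin]
  · norm_num
  · have h1 := bw_mul_mem 10 hP1 hP2 hP3 a b
    have h2 := bw_mul_mem 10 hP1 hP2 hP3 a a
    rw [Nat.xor_self, bw_zero, inv_one, one_mul] at h2
    have h3 : Y a * Y b ∈ Qg := by simpa [Y, mul_assoc] using mul_mem h2 h
    have h4 : Y (a ^^^ b) ∈ Qg := by simpa [Y, mul_assoc] using mul_mem h3 (inv_mem h1)
    exact Fin.ext (Nat.xor_eq_zero_iff.1 (Y_triv (Nat.xor_lt_two_pow a.2 b.2) (act_Q h4)))
theorem np0 {k : ℕ} (h1 : 33 ≤ k) (h2 : k ≤ 42) {i : ℕ} (hi : i < 10) : gen k * gen (23 + i) * gen k ∈ Pg := by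
  have : ∃ n, chkm [k, Nat.add 23 i, k] (bitsL 0 33 n) = true := by
    interval_cases k
    · exact ⟨_, allN_spec np33 i hi⟩
    · exact ⟨_, allN_spec np34 i hi⟩
    · exact ⟨_, allN_spec np35 i hi⟩
    · exact ⟨_, allN_spec np36 i hi⟩
    · exact ⟨_, allN_spec np37 i hi⟩
    · exact ⟨_, allN_spec np38 i hi⟩
    · exact ⟨_, allN_spec np39 i hi⟩
    · exact ⟨_, allN_spec np40 i hi⟩
    · exact ⟨_, allN_spec np41 i hi⟩
    · exact ⟨_, allN_spec np42 i hi⟩
  obtain ⟨n, hn⟩ := this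
  have := bits_mem 32 n
  rwa [← relm hn, wd3] at this
theorem np : NP := by
  have h1 : ∀ k ≤ 42, ∀ p ∈ Pg, gen k * p * gen k ∈ Pg := fun k hk => by
    refine gen_ind (by rw [mul_one, gen_mul_self]; exact one_mem _) fun j hj g hg => ?_
    have hj' : j ≤ 32 := hj
    have : gen k * gen j * gen k ∈ Pg := by
      by_cases a : k ≤ 32
      · exact mul_mem (mul_mem (gen_mem a) (gen_mem hj')) (gen_mem a)
      · by_cases b : j ≤ 22
        · have := norm_Q (gen_mem (k := k) (by omega)) (gen_mem b)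
          rw [gen_inv] at this
          exact gL_mono (by norm_num) this
        · have := np0 (k := k) (by omega) hk (i := j - 23) (by omega)
          rwa [show 23 + (j - 23) = j by omega] at this
    have e : gen k * (gen j * g) * gen k = gen k * gen j * gen k * (gen k * g * gen k) := by
      calc _ = gen k * gen j * (gen k * gen k) * g * gen k := by rw [gen_mul_self]; group
        _ = _ := by group
    rw [e]; exact mul_mem this hg
  refine gen_ind (by simp) fun k hk g hg p hp => ?_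
  have := h1 k hk _ (hg p hp)
  rw [mul_inv_rev, gen_inv]
  simpa only [mul_assoc] using this

theorem lS : Lv WS [] 4 RS := lv_ext np lvS fun i hi => by
    have hi' : i < 2 := hi
    interval_cases i
    · exact ⟨_, exS_0⟩
    · exact ⟨_, exS_1⟩
theorem lH3 : Lv W3 WS 2 RH3 := lv_ext np lvH3 fun i hi => by
    have hi' : i < 3 := hi
    interval_cases i
    · exact ⟨_, exH3_0⟩
    · exact ⟨_, exH3_1⟩
    · exact ⟨_, exH3_2⟩
theorem lH2 : Lv W2 W3 986 RH2 := lv_step np lH3 lvH2 clH2 stH2 fun i hi => by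
    have hi' : i < 3 := hi
    interval_cases i
    · exact ⟨_, tdH2_0⟩
    · exact ⟨_, tdH2_1⟩
    · exact ⟨_, tdH2_2⟩
theorem lH1 : Lv W1 W2 1024 RH1 := lv_step np lH2 lvH1 clH1 stH1 fun i hi => by
    have hi' : i < 2 := hi
    interval_cases i
    · exact ⟨_, tdH1_0⟩
    · exact ⟨_, tdH1_1⟩
theorem lH0 : Lv W0 W1 512 RH0 := lv_step np lH1 lvH0 clH0 stH0 fun i hi => by
    have hi' : i < 2 := hi
    interval_cases i
    · exact ⟨_, tdH0_0⟩
    · exact ⟨_, tdH0_1⟩
theorem W0_eq : XK 32 W0 = Mg := by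
  refine le_antisymm (XK_gL (by norm_num) lH0.ok) ((closure_le _).2 ?_)
  rintro _ ⟨k, hk, rfl⟩
  have hk' : k ≤ 42 := hk
  by_cases h : k ≤ 32
  · exact gL_XK _ _ (gen_mem h)
  · rw [← wd_one]
    have h' : 33 ≤ k := by omega
    interval_cases k
    · exact inK_spec mem33
    · exact inK_spec mem34
    · exact inK_spec mem35
    · exact inK_spec mem36
    · exact inK_spec mem37
    · exact inK_spec mem38
    · exact inK_spec mem39
    · exact inK_spec mem40
    · exact inK_spec mem41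
    · exact inK_spec mem42
theorem card_M : Nat.card Mg = 887040 * 2 ^ 33 := by
  have a := lH0.card
  rw [lH1.card, lH2.card, lH3.card, lS.card, XK_nil, card_P, W0_eq] at a
  exact a
instance : Finite Mg := Nat.finite_of_card_ne_zero (by rw [card_M]; norm_num)
theorem ker_M {m : GG} (hm : m ∈ Mg) (h : Act m (fun a => a)) : m ∈ Qg := by
  have f : ∀ c < 2 ^ 22, m • pt c = pt c := fun c hc => smul_pm h (by norm_num) hc rfl
  rw [← W0_eq] at hm
  have := lS.stab _ (lH3.stab _ (lH2.stab _ (lH1.stab _ (lH0.stab _ hm (f _ lH0.lt)) (f _ lH1.lt)) (f _ lH2.lt))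
    (f _ lH3.lt)) (f _ lS.lt)
  rw [XK_nil] at this
  obtain ⟨e, he⟩ := P_cover m this
  have a := h.mul (act_Q (inv_mem he))
  rw [mul_inv_rev, inv_inv, mul_inv_cancel_left] at a
  rw [Y_triv e.2 a, Y, bw_zero] at he
  simpa using he

/-! hashed orbits -/
theorem HL_sl (c : ℕ) : HL.sl c < 46575 := slot_lt HLD 15536 c (by norm_num)
theorem HL_orb : ∀ n ∈ gL 43, ∃ c' ∈ HL.set, n • pm 0 2048 = pm 0 c' :=
  orb_sub (by norm_num) (fun _ h => h.1) (fun k h1 h2 => HS.cl_spec (a := 225) (b := 207) HL_sl (lin_LT k (by omega)) (by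
    interval_cases k
    · exact HL_cl23
    · exact HL_cl24
    · exact HL_cl25
    · exact HL_cl26
    · exact HL_cl27
    · exact HL_cl28
    · exact HL_cl29
    · exact HL_cl30
    · exact HL_cl31
    · exact HL_cl32
    · exact HL_cl33
    · exact HL_cl34
    · exact HL_cl35
    · exact HL_cl36
    · exact HL_cl37
    · exact HL_cl38
    · exact HL_cl39
    · exact HL_cl40
    · exact HL_cl41
    · exact HL_cl42
    · exact HL_cl43)) ⟨by norm_num, Nat.eq_of_beq_eq_true HL_c0⟩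
theorem HD_sl (c : ℕ) : HD.sl c < 2300 := slot_lt HDD 787 c (by norm_num)
theorem HD_orb : ∀ n ∈ gL 43, ∃ c' ∈ HD.set, n • pm 0 2 = pm 0 c' :=
  orb_sub (by norm_num) (fun _ h => h.1) (fun k h1 h2 => HS.cl_spec (a := 46) (b := 50) HD_sl (lin_LT k (by omega)) (by
    interval_cases k
    · exact HD_cl23
    · exact HD_cl24
    · exact HD_cl25
    · exact HD_cl26
    · exact HD_cl27
    · exact HD_cl28
    · exact HD_cl29
    · exact HD_cl30
    · exact HD_cl31
    · exact HD_cl32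
    · exact HD_cl33
    · exact HD_cl34
    · exact HD_cl35
    · exact HD_cl36
    · exact HD_cl37
    · exact HD_cl38
    · exact HD_cl39
    · exact HD_cl40
    · exact HD_cl41
    · exact HD_cl42
    · exact HD_cl43)) ⟨by norm_num, Nat.eq_of_beq_eq_true HD_c0⟩
theorem HB_sl (c : ℕ) : HB.sl c < 462 := slot_lt HBD 187 c (by norm_num)
theorem HB_orb : ∀ n ∈ gL 42, ∃ c' ∈ HB.set, n • pm 0 2054 = pm 0 c' :=
  orb_sub (by norm_num) (fun _ h => h.1) (fun k h1 h2 => HS.cl_spec (a := 21) (b := 22) HB_sl (lin_LT k (by omega)) (by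
    interval_cases k
    · exact HB_cl23
    · exact HB_cl24
    · exact HB_cl25
    · exact HB_cl26
    · exact HB_cl27
    · exact HB_cl28
    · exact HB_cl29
    · exact HB_cl30
    · exact HB_cl31
    · exact HB_cl32
    · exact HB_cl33
    · exact HB_cl34
    · exact HB_cl35
    · exact HB_cl36
    · exact HB_cl37
    · exact HB_cl38
    · exact HB_cl39
    · exact HB_cl40
    · exact HB_cl41
    · exact HB_cl42)) ⟨by norm_num, Nat.eq_of_beq_eq_true HB_c0⟩
def AllL {α : Type} (P : α → Prop) (l : List α) : Prop := List.rec True (fun x _ ih => P x ∧ ih) l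
theorem AllL.mem {α : Type} {P : α → Prop} : ∀ {l : List α}, AllL P l → ∀ x ∈ l, P x := by
  intro l
  induction l with
  | nil => simp
  | cons y l ih =>
    intro h x hx
    rcases List.mem_cons.1 hx with rfl | hx
    · exact h.1
    · exact ih h.2 x hx

/-! `N` over `M` -/
abbrev Lg := XK 22 (LVl.map Prod.fst)
theorem okLg : okWs 42 (LVl.map Prod.fst) = true := by decide +kernel
theorem stabB : ∀ m ∈ Mg, m • pm 0 2054 = pm 0 2054 → m ∈ Lg := by
  obtain ⟨t, h1, h2, h3, -⟩ := forest_reps (H := HB) (by norm_num) HB_sl (by norm_num) HB_orb ng0 ([], 0) Prod.fst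
    (L := nL0) (by decide +kernel) rfl nf0
  refine (stab_of_card (XK_gL (by norm_num) okLg) (XQ_fix okLg (by norm_num) fixL)
    (orb_ge (H := Mg) (pm 0 2054) _ (fun j => mul_mem (TG_le ng0 (h1 j)) (h2 j)) h3) ?_).1
  have := okLow_spec lowL
  rw [show prL LVl = 1966080 by decide +kernel] at this
  rw [card_M, show HB.n = 462 from rfl]
  omega
theorem xiL : ∀ l ∈ Lg, gen 43 * l * gen 43 ∈ Mg := fun l hl => by
  have := mem_cjS.1 (XK_le (H := cjS (wd [43]) Mg) (fun p hp => mem_cjS.2 (gL_mono (b := 22) (by norm_num) ?_))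
    (fun w hw => mem_cjS.2 (AllL.mem (P := fun w => TZ 42 w [43]) (l := LVl.map Prod.fst)
      ⟨lx0, lx1, lx2, lx3, lx4, lx5, lx6, lx7, lx8, trivial⟩ w hw)) hl)
  · rwa [wd_one, gen_inv] at this
  · simpa using norm_Q (inv_mem (wd_gL (w := [43]) rfl)) hp
theorem covB {gs} {L : List (ℕ × List ℕ × ℕ)} {tab g} (hg : okG 42 gs = true) (hρ : (L.all fun p => okW 42 p.2.1) = true)
    (hn : totL L = 462) (hf : forest tab (gs.map Prod.snd) (fun p => cw p.1 2054) L 0 = true)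
    (hT : AllL (fun x => TZ 42 x.1 g) gs) (hR : AllL (fun p => p.2.2 < 5 ∧ DZ 42 p.2.1 g (gN p.2.2)) L) :
    ∀ k ∈ Mg, ∃ j : Fin 5, ∃ a ∈ Mg, ∃ b ∈ Mg, gen 43 * k⁻¹ * wd g = a * wd (gN j) * b := by
  obtain ⟨t, h1, h2, -, h4⟩ := forest_reps (H := HB) (by norm_num) HB_sl (by norm_num) HB_orb hg ([], 0) Prod.fst hρ hn hf
  refine dc_of_cov (T := TG gs) (R := {x | ∃ j : Fin HB.n, x = wd (atL ([], 0) L j).1}) (gen_mul_self 43) xiL
    (cov_of_orb (β := pm 0 2054) (TG_le hg) ?_ stabB ?_) ?_ ?_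
  · rintro _ ⟨j, rfl⟩; exact h2 j
  · rintro _ ⟨m, hm, rfl⟩
    obtain ⟨j, hj⟩ := h4 m hm
    exact ⟨_, h1 j, _, ⟨j, rfl⟩, hj⟩
  · exact fun x hx => mem_cjS.1 (TG_ind (H := cjS (wd g) Mg) (fun y hy => mem_cjS.2 (hT.mem y hy)) hx)
  · rintro _ ⟨j, rfl⟩
    obtain ⟨p, hp, e⟩ := atL_mem ([], 0) L j (by rw [hn]; exact j.2)
    obtain ⟨a, b⟩ := hR.mem p hp
    rw [e]
    exact ⟨⟨_, a⟩, b⟩
theorem stabN : ∀ n ∈ Ng, n • pm 0 2048 = pm 0 2048 → n ∈ Mg := by
  rw [show Ng = Mg ⊔ zpowers (gen 43) from gL_succ 42]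
  refine step_stab (gen_mul_self 43) (fun j : Fin 5 => wd (gN j)) 0 rfl (fun j => ?_) (fun _ => M_fix) fun j hj => ?_
  · obtain ⟨j, hj⟩ := j
    interval_cases j
    · exact covB ng0 (by decide +kernel) rfl nf0 ⟨nt0_0, nt0_1, trivial⟩
        ⟨⟨by decide, nr0_0⟩, trivial⟩
    · exact covB ng1 (by decide +kernel) rfl nf1 ⟨nt1_0, nt1_1, trivial⟩
        ⟨⟨by decide, nr1_0⟩, ⟨by decide, nr1_1⟩, ⟨by decide, nr1_2⟩, ⟨by decide, nr1_3⟩, ⟨by decide, nr1_4⟩, trivial⟩
    · exact covB ng2 (by decide +kernel) rfl nf2 ⟨nt2_0, nt2_1, trivial⟩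
        ⟨⟨by decide, nr2_0⟩, ⟨by decide, nr2_1⟩, ⟨by decide, nr2_2⟩, ⟨by decide, nr2_3⟩, ⟨by decide, nr2_4⟩, ⟨by decide, nr2_5⟩, trivial⟩
    · exact covB ng3 (by decide +kernel) rfl nf3 ⟨nt3_0, nt3_1, trivial⟩
        ⟨⟨by decide, nr3_0⟩, ⟨by decide, nr3_1⟩, ⟨by decide, nr3_2⟩, ⟨by decide, nr3_3⟩, trivial⟩
    · exact covB ng4 (by decide +kernel) rfl nf4 ⟨nt4_0, nt4_1, trivial⟩
        ⟨⟨by decide, nr4_0⟩, ⟨by decide, nr4_1⟩, ⟨by decide, nr4_2⟩, ⟨by decide, nr4_3⟩, trivial⟩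
  · obtain ⟨a, b⟩ := band_spec (allN_spec gNne j j.2)
    rw [smul_p0 (act_wd a) (by norm_num)] at hj
    exact Fin.ext (bor_ne b (p0_inj ((act_wd a).2.1.1 _ (by norm_num)) (by norm_num) hj))
theorem ker_N {n : GG} (h : Act n (fun a => a)) : n ∈ Qg := ker_M (stabN n h.1 (smul_p0 h (by norm_num))) h
theorem transL {gs} {L : List (ℕ × List ℕ × ℕ × ℕ)} {tab} (hg : okG 43 gs = true) (hρ : (L.all fun p => okW 43 p.2.1) = true)
    (hn : totL L = 46575) (hf : forest tab (gs.map Prod.snd) (fun p => cw p.1 2048) L 0 = true) :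
    ∃ t : Fin 46575 → GG, (∀ j, t j ∈ TG gs) ∧ (∀ j : Fin 46575, wd (atL ([], 0, 0) L j).1 ∈ Ng) ∧
      (∀ j j', (t j * wd (atL ([], 0, 0) L j).1)⁻¹ * (t j' * wd (atL ([], 0, 0) L j').1) ∈ Mg → j = j') ∧
      ∀ n ∈ Ng, ∃ j, (t j * wd (atL ([], 0, 0) L j).1)⁻¹ * n ∈ Mg := by
  obtain ⟨t, h1, h2, h3, h4⟩ := forest_reps (H := HL) le_rfl HL_sl (by norm_num) HL_orb hg ([], 0, 0) Prod.fst hρ hn hf
  refine ⟨t, h1, h2, fun j j' h => h3 j j' ?_, fun n hn => ?_⟩
  · have := M_fix h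
    rw [mul_smul, inv_smul_eq_iff] at this
    exact this.symm
  · obtain ⟨j, hj⟩ := h4 n hn
    refine ⟨j, stabN _ (mul_mem (inv_mem (mul_mem (TG_le hg (h1 j)) (h2 j))) hn) ?_⟩
    rw [mul_smul, hj, inv_smul_smul]
theorem card_N : Nat.card Ng = 46575 * (887040 * 2 ^ 33) := by
  obtain ⟨t, h1, h2, h3, h4⟩ := transL (L := zL0) zg0 (by decide +kernel) rfl zf0
  rw [card_trans (gL_mono (by norm_num)) _ (fun j => mul_mem (TG_le zg0 (h1 j)) (h2 j)) h3 h4, card_M, Nat.card_fin]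
instance : Finite Ng := Nat.finite_of_card_ne_zero (by rw [card_N]; norm_num)

/-! the subgroup `M0` -/
theorem M0_le : M0 ≤ Mg := closure_mono (Set.image_mono fun _ h => h.1)
theorem cj_M0 {s : ℕ} (h : ∀ k ≤ 42, k ≠ 1 → gen s * gen k * gen s ∈ M0) : ∀ m ∈ M0, gen s * m * gen s ∈ M0 := by
  refine gen_ind (by rw [mul_one, gen_mul_self]; exact one_mem _) fun j hj g hg => ?_
  have e : gen s * (gen j * g) * gen s = gen s * gen j * gen s * (gen s * g * gen s) := by
    calc _ = gen s * gen j * (gen s * gen s) * g * gen s := by rw [gen_mul_self]; group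
      _ = _ := by group
  rw [e]; exact mul_mem (h j hj.1 hj.2) hg
theorem bor_1 {k : ℕ} {b : Bool} (h : bor (Nat.beq k 1) b = true) (hk : k ≠ 1) : b = true := by
  cases h' : Nat.beq k 1
  · rw [h'] at h; exact h
  · exact absurd (Nat.eq_of_beq_eq_true h') hk
theorem u_M0 : ∀ m ∈ M0, gen 1 * m * gen 1 ∈ M0 := cj_M0 fun k hk h1 => by
  obtain ⟨a, b⟩ := band_spec (bor_1 (allN_spec unC k (by omega)) h1)
  rw [← wd3, relr b]; exact ok0_spec a
theorem tcK {k : ℕ} (hk : k ≤ 42) (h1 : k ≠ 1) : gen 44 * gen k * gen 44 = wd (nth [] tcL k) ∧ wd (nth [] tcL k) ∈ M0 := by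
  have : cV tcL k = true := by
    by_cases a : k < 11
    · simpa using allN_spec tc0 k a
    · by_cases b : k < 22
      · have := allN_spec tc1 (k - 11) (by omega)
        rwa [Nat.add_eq, show 11 + (k - 11) = k by omega] at this
      · by_cases c : k < 33
        · have := allN_spec tc2 (k - 22) (by omega)
          rwa [Nat.add_eq, show 22 + (k - 22) = k by omega] at this
        · have := allN_spec tc3 (k - 33) (by omega)
          rwa [Nat.add_eq, show 33 + (k - 33) = k by omega] at this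
  obtain ⟨a, b⟩ := band_spec (bor_1 this h1)
  exact ⟨by rw [← wd3, rel b], ok0_spec a⟩
theorem tau_M0 : ∀ m ∈ M0, gen 44 * m * gen 44 ∈ M0 := cj_M0 fun k hk h1 => by
  rw [(tcK hk h1).1]; exact (tcK hk h1).2
theorem tau_z : gen 44 * gen 0 * gen 44 = gen 12 := by
  rw [(tcK (by norm_num) (by norm_num)).1]; exact wd_one 12
theorem u_z' : gen 1 * gen 12 * gen 1 = gen 12 * gen 0 := by
  have := cjQ (k := 1) (by norm_num) (i := 11) (by norm_num)
  rwa [show (eps 1).testBit 11 = true by decide +kernel] at this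
theorem u_not : gen 1 ∉ M0 := fun h => by
  have a := comm_z (gL_mono (by norm_num) (M0_le (tau_M0 _ h)))
  have b : gen 1 * gen 12 * gen 1 = gen 12 := by
    rw [← tau_z]
    calc _ = (gen 44 * gen 44) * gen 1 * gen 44 * gen 0 * gen 44 * gen 1 := by rw [gen_mul_self]; group
      _ = gen 44 * (gen 44 * gen 1 * gen 44 * gen 0) * gen 44 * gen 1 := by group
      _ = (gen 44 * gen 0 * gen 44) * gen 1 * (gen 44 * gen 44) * gen 1 := by rw [a]; group
      _ = _ := by rw [gen_mul_self, mul_one, mul_assoc _ (gen 1), gen_mul_self, mul_one]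
  rw [u_z', mul_eq_left] at b
  exact z_ne b
def ub (b : Bool) : GG := Bool.rec 1 (gen 1) b
theorem M_cover : ∀ m ∈ Mg, ∃ b, (ub b)⁻¹ * m ∈ M0 := by
  refine gen_ind ⟨false, by simp [ub]⟩ ?_
  rintro k hk g ⟨b, hb⟩
  by_cases h : k = 1
  · subst h
    cases b
    · exact ⟨true, by simpa [ub] using hb⟩
    · exact ⟨false, by simpa [ub, gen_inv] using hb⟩
  · have hk' : gen k ∈ M0 := Subgroup.subset_closure (Set.mem_image_of_mem gen ⟨hk, h⟩)
    cases b
    · exact ⟨false, by simpa [ub] using mul_mem hk' (by simpa [ub] using hb)⟩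
    · refine ⟨true, ?_⟩
      have := mul_mem (u_M0 _ hk') hb
      simp only [ub, gen_inv] at this ⊢
      rwa [mul_assoc, ← mul_assoc (gen 1) (gen 1), gen_mul_self, one_mul, mul_assoc] at this
theorem ub_inj {b b' : Bool} (h : (ub b)⁻¹ * ub b' ∈ M0) : b = b' := by
  cases b <;> cases b' <;> simp_all [ub, u_not]
instance : Finite M0 := Finite.of_injective _ (inclusion_injective M0_le)

end
end CfsgH5.BE
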