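import Cfsg.Agent.H5.BQ0
/-! Baby Monster (helper5): conjugation relations (generated). -/
set_option Elab.async false
set_option linter.all false
namespace CfsgH5.BE
noncomputable section
theorem cj0 : cjM (LT 0) (eps 0) 0 = true := by decide +kernel
theorem cj1 : cjM (LT 1) (eps 1) 1 = true := by decide +kernel
theorem cj2 : cjM (LT 2) (eps 2) 2 = true := by decide +kernel
theorem cj3 : cjM (LT 3) (eps 3) 3 = true := by decide +kernel
theorem cj4 : cjM (LT 4) (eps 4) 4 = true := by decide +kernel
theorem cj5 : cjM (LT 5) (eps 5) 5 = true := by decide +kernel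
theorem cj6 : cjM (LT 6) (eps 6) 6 = true := by decide +kernel
theorem cj7 : cjM (LT 7) (eps 7) 7 = true := by decide +kernel
theorem cj8 : cjM (LT 8) (eps 8) 8 = true := by decide +kernel
theorem cj9 : cjM (LT 9) (eps 9) 9 = true := by decide +kernel
theorem cj10 : cjM (LT 10) (eps 10) 10 = true := by decide +kernel
theorem cj11 : cjM (LT 11) (eps 11) 11 = true := by decide +kernel
theorem cj12 : cjM (LT 12) (eps 12) 12 = true := by decide +kernel
theorem cj13 : cjM (LT 13) (eps 13) 13 = true := by decide +kernel
theorem cj14 : cjM (LT 14) (eps 14) 14 = true := by decide +kernel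
theorem cj15 : cjM (LT 15) (eps 15) 15 = true := by decide +kernel
theorem cj16 : cjM (LT 16) (eps 16) 16 = true := by decide +kernel
theorem cj17 : cjM (LT 17) (eps 17) 17 = true := by decide +kernel
theorem cj18 : cjM (LT 18) (eps 18) 18 = true := by decide +kernel
theorem cj19 : cjM (LT 19) (eps 19) 19 = true := by decide +kernel
theorem cj20 : cjM (LT 20) (eps 20) 20 = true := by decide +kernel
theorem cj21 : cjM (LT 21) (eps 21) 21 = true := by decide +kernel
theorem cj22 : cjM (LT 22) (eps 22) 22 = true := by decide +kernel
end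
end CfsgH5.BE
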