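import Cfsg.Agent.H5.BQ0
/-! Baby Monster (helper5): conjugation relations (generated). -/
set_option Elab.async false
set_option linter.all false
namespace CfsgH5.BE
noncomputable section
theorem cj23 : cjM (LT 23) (eps 23) 23 = true := by decide +kernel
theorem cj24 : cjM (LT 24) (eps 24) 24 = true := by decide +kernel
theorem cj25 : cjM (LT 25) (eps 25) 25 = true := by decide +kernel
theorem cj26 : cjM (LT 26) (eps 26) 26 = true := by decide +kernel
theorem cj27 : cjM (LT 27) (eps 27) 27 = true := by decide +kernel
theorem cj28 : cjM (LT 28) (eps 28) 28 = true := by decide +kernel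
theorem cj29 : cjM (LT 29) (eps 29) 29 = true := by decide +kernel
theorem cj30 : cjM (LT 30) (eps 30) 30 = true := by decide +kernel
theorem cj31 : cjM (LT 31) (eps 31) 31 = true := by decide +kernel
theorem cj32 : cjM (LT 32) (eps 32) 32 = true := by decide +kernel
end
end CfsgH5.BE
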