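import Cfsg.Agent.H5.BQ0
/-! Baby Monster (helper5): conjugation relations (generated). -/
set_option Elab.async false
set_option linter.all false
namespace CfsgH5.BE
noncomputable section
theorem cj33 : cjM (LT 33) (eps 33) 33 = true := by decide +kernel
theorem cj34 : cjM (LT 34) (eps 34) 34 = true := by decide +kernel
theorem cj35 : cjM (LT 35) (eps 35) 35 = true := by decide +kernel
theorem cj36 : cjM (LT 36) (eps 36) 36 = true := by decide +kernel
theorem cj37 : cjM (LT 37) (eps 37) 37 = true := by decide +kernel
theorem cj38 : cjM (LT 38) (eps 38) 38 = true := by decide +kernel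
theorem cj39 : cjM (LT 39) (eps 39) 39 = true := by decide +kernel
theorem cj40 : cjM (LT 40) (eps 40) 40 = true := by decide +kernel
theorem cj41 : cjM (LT 41) (eps 41) 41 = true := by decide +kernel
theorem cj42 : cjM (LT 42) (eps 42) 42 = true := by decide +kernel
end
end CfsgH5.BE
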