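import Cfsg.Agent.H5.BQ0
/-! Baby Monster (helper5): conjugation relations (generated). -/
set_option Elab.async false
set_option linter.all false
namespace CfsgH5.BE
noncomputable section
theorem cx0 : chk [43, Nat.succ 0, 43] (cjL (LT 43) (eps 43) 0) = true := by decide +kernel
theorem cx1 : chk [43, Nat.succ 1, 43] (cjL (LT 43) (eps 43) 1) = true := by decide +kernel
theorem cx2 : chk [43, Nat.succ 2, 43] (cjL (LT 43) (eps 43) 2) = true := by decide +kernel
theorem cx3 : chk [43, Nat.succ 3, 43] (cjL (LT 43) (eps 43) 3) = true := by decide +kernel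
theorem cx4 : chk [43, Nat.succ 4, 43] (cjL (LT 43) (eps 43) 4) = true := by decide +kernel
theorem cx5 : chk [43, Nat.succ 5, 43] (cjL (LT 43) (eps 43) 5) = true := by decide +kernel
theorem cx6 : chk [43, Nat.succ 6, 43] (cjL (LT 43) (eps 43) 6) = true := by decide +kernel
theorem cx7 : chk [43, Nat.succ 7, 43] (cjL (LT 43) (eps 43) 7) = true := by decide +kernel
theorem cx8 : chk [43, Nat.succ 8, 43] (cjL (LT 43) (eps 43) 8) = true := by decide +kernel
theorem cx9 : chk [43, Nat.succ 9, 43] (cjL (LT 43) (eps 43) 9) = true := by decide +kernel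
theorem cx10 : chk [43, Nat.succ 10, 43] (cjL (LT 43) (eps 43) 10) = true := by decide +kernel
theorem cx11 : chk [43, Nat.succ 11, 43] (cjL (LT 43) (eps 43) 11) = true := by decide +kernel
theorem cx12 : chk [43, Nat.succ 12, 43] (cjL (LT 43) (eps 43) 12) = true := by decide +kernel
theorem cx13 : chk [43, Nat.succ 13, 43] (cjL (LT 43) (eps 43) 13) = true := by decide +kernel
theorem cx14 : chk [43, Nat.succ 14, 43] (cjL (LT 43) (eps 43) 14) = true := by decide +kernel
theorem cx15 : chk [43, Nat.succ 15, 43] (cjL (LT 43) (eps 43) 15) = true := by decide +kernel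
theorem cx16 : chk [43, Nat.succ 16, 43] (cjL (LT 43) (eps 43) 16) = true := by decide +kernel
theorem cx17 : chk [43, Nat.succ 17, 43] (cjL (LT 43) (eps 43) 17) = true := by decide +kernel
theorem cx18 : chk [43, Nat.succ 18, 43] (cjL (LT 43) (eps 43) 18) = true := by decide +kernel
theorem cx19 : chk [43, Nat.succ 19, 43] (cjL (LT 43) (eps 43) 19) = true := by decide +kernel
theorem cx20 : chk [43, Nat.succ 20, 43] (cjL (LT 43) (eps 43) 20) = true := by decide +kernel
theorem cx21 : chk [43, Nat.succ 21, 43] (cjL (LT 43) (eps 43) 21) = true := by decide +kernel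
end
end CfsgH5.BE
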