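import Mathlib
/-! Orbit closure and double counting for a group generated by a finite subgroup and an involution (helper5). -/
namespace CfsgH5.BS
open Subgroup MulAction

variable {Γ : Type*} [Group Γ] {α : Type*} [MulAction Γ α]

/-- every element of `K` is a product `t ρ l` -/
def Cov (K T : Subgroup Γ) (R : Set Γ) (L : Subgroup Γ) : Prop := ∀ k ∈ K, ∃ t ∈ T, ∃ ρ ∈ R, ∃ l ∈ L, k = t * ρ * l
def Orb (K : Subgroup Γ) (x : α) : Set α := {y | ∃ h ∈ K, y = h • x}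
theorem Orb.smul {K : Subgroup Γ} {x y : α} (hy : y ∈ Orb K x) {k : Γ} (hk : k ∈ K) : k • y ∈ Orb K x := by
  obtain ⟨h, hh, rfl⟩ := hy
  exact ⟨k * h, K.mul_mem hk hh, (mul_smul _ _ _).symm⟩
theorem Orb.self (K : Subgroup Γ) (x : α) : x ∈ Orb K x := ⟨1, K.one_mem, (one_smul _ _).symm⟩
theorem Orb.smul_iff {K : Subgroup Γ} {x y : α} {k : Γ} (hk : k ∈ K) : k • y ∈ Orb K x ↔ y ∈ Orb K x :=
  ⟨fun h => by simpa using Orb.smul h (K.inv_mem hk), fun h => Orb.smul h hk⟩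

theorem closure_ind {K : Subgroup Γ} {s : Γ} (hs : s * s = 1) {P : Γ → Prop} (h1 : P 1)
    (hK : ∀ k ∈ K, ∀ g, P g → P (k * g)) (h2 : ∀ g, P g → P (s * g)) : ∀ g ∈ K ⊔ zpowers s, P g := by
  intro g hg
  have e : K ⊔ zpowers s = closure ((K : Set Γ) ∪ {s}) := by
    rw [Subgroup.closure_union, Subgroup.closure_eq, zpowers_eq_closure]
  rw [e] at hg
  induction hg using closure_induction_left with
  | one => exact h1
  | mul_left x hx y _ ih =>
    rcases hx with hx | rfl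
    · exact hK x hx y ih
    · exact h2 y ih
  | inv_mul_cancel x hx y _ ih =>
    rcases hx with hx | rfl
    · exact hK _ (K.inv_mem hx) y ih
    · rw [inv_eq_of_mul_eq_one_right hs]; exact h2 y ih

/-- the union of the orbits is closed -/
theorem closed {ι : Type*} {K : Subgroup Γ} {s : Γ} (hs : s * s = 1) (x : ι → α)
    (h : ∀ i, ∀ k ∈ K, ∃ j, s • k⁻¹ • x i ∈ Orb K (x j)) :
    ∀ g ∈ K ⊔ zpowers s, ∀ i, ∃ j, g • x i ∈ Orb K (x j) := by
  intro g hg i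
  refine closure_ind hs (P := fun g => ∃ j, g • x i ∈ Orb K (x j)) ⟨i, by simpa using Orb.self K _⟩ ?_ ?_ g hg
  · rintro k hk g ⟨j, hj⟩
    exact ⟨j, by rw [mul_smul]; exact Orb.smul hj hk⟩
  · rintro g ⟨j, k, hk, hj⟩
    obtain ⟨j', h'⟩ := h j k⁻¹ (K.inv_mem hk)
    exact ⟨j', by rw [mul_smul, hj]; simpa using h'⟩

theorem of_cov {K T L : Subgroup Γ} {R : Set Γ} {s : Γ} (hs : s * s = 1) (hL : ∀ l ∈ L, s * l * s ∈ K) (hc : Cov K T R L)
    {x : α} (hT : ∀ t ∈ T, t • x = x) {P : Set α} (hP : ∀ k ∈ K, ∀ y ∈ P, k • y ∈ P)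
    (hR : ∀ ρ ∈ R, s • ρ⁻¹ • x ∈ P) : ∀ k ∈ K, s • k⁻¹ • x ∈ P := by
  intro k hk
  obtain ⟨t, ht, ρ, hρ, l, hl, rfl⟩ := hc k hk
  have : s • (t * ρ * l)⁻¹ • x = (s * l⁻¹ * s) • s • ρ⁻¹ • x := by
    rw [mul_inv_rev, mul_inv_rev, mul_smul, mul_smul, hT _ (T.inv_mem ht), ← mul_smul _ s, mul_assoc, hs, mul_one,
      mul_smul]
  rw [this]; exact hP _ (hL _ (L.inv_mem hl)) _ (hR ρ hρ)

/-- double counting -/
theorem dcount {K : Subgroup Γ} {s : Γ} (hs : s * s = 1) (x y : α) :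
    Nat.card (Orb K x) * Nat.card {k : K // s • (k : Γ)⁻¹ • x ∈ Orb K y} =
      Nat.card (Orb K y) * Nat.card {k : K // s • (k : Γ)⁻¹ • y ∈ Orb K x} := by
  have key : ∀ x y : α, Nat.card (Orb K x) * Nat.card {k : K // s • (k : Γ)⁻¹ • x ∈ Orb K y} =
      Nat.card K * Nat.card {p : α // p ∈ Orb K x ∧ s • p ∈ Orb K y} := by
    intro x y
    rw [← Nat.card_prod, ← Nat.card_prod]
    have hc : ∀ p : Orb K x, ∃ h : K, (p : α) = (h : Γ) • x := fun p => by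
      obtain ⟨h, hh, e⟩ := p.2; exact ⟨⟨h, hh⟩, e⟩
    choose c hc using hc
    refine Nat.card_congr
      { toFun := fun q => (c q.1 * q.2.1, ⟨(q.2.1 : Γ)⁻¹ • x, Orb.smul (Orb.self K x) (K.inv_mem q.2.1.2), q.2.2⟩)
        invFun := fun q => (⟨(q.1 : Γ) • q.2.1, Orb.smul q.2.2.1 q.1.2⟩,
          ⟨(c ⟨(q.1 : Γ) • q.2.1, Orb.smul q.2.2.1 q.1.2⟩)⁻¹ * q.1, by
            have := hc ⟨(q.1 : Γ) • q.2.1, Orb.smul q.2.2.1 q.1.2⟩
            simp only [coe_mul, coe_inv, mul_inv_rev, inv_inv, mul_smul]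
            rw [← this]; simpa using q.2.2.2⟩)
        left_inv := ?_, right_inv := ?_ }
    · rintro ⟨p, k, hk⟩
      have e : (⟨((c p * k : K) : Γ) • (k : Γ)⁻¹ • x, Orb.smul (Orb.smul (Orb.self K x) (K.inv_mem k.2)) (c p * k).2⟩ :
          Orb K x) = p := Subtype.ext (by simp [mul_smul, hc p])
      simp only [Prod.mk.injEq, Subtype.mk.injEq]
      refine ⟨e, ?_⟩
      rw [e]; simp
    · rintro ⟨k, p, hp⟩
      have := hc ⟨(k : Γ) • p, Orb.smul hp.1 k.2⟩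
      simp only [Prod.mk.injEq, Subtype.mk.injEq, mul_inv_cancel_left, true_and, coe_mul, coe_inv, mul_inv_rev,
        inv_inv, mul_smul]
      rw [← this]; simp
  rw [key, key]
  congr 1
  have ss : ∀ p : α, s • s • p = p := fun p => by rw [← mul_smul, hs, one_smul]
  exact Nat.card_congr
    { toFun := fun p => ⟨s • p.1, p.2.2, by rw [ss]; exact p.2.1⟩
      invFun := fun p => ⟨s • p.1, p.2.2, by rw [ss]; exact p.2.1⟩
      left_inv := fun p => Subtype.ext (ss _)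
      right_inv := fun p => Subtype.ext (ss _) }

/-- counting the elements of `K` by labels of a transversal of `L` -/
theorem count_lab {ι β : Type*} [Fintype β] [DecidableEq ι] {K L : Subgroup Γ} {s : Γ} (hs : s * s = 1) (hLK : L ≤ K)
    (hL : ∀ l ∈ L, s * l * s ∈ K) (r : β → Γ) (hr : ∀ b, r b ∈ K) (hinj : ∀ b b', (r b)⁻¹ * r b' ∈ L → b = b')
    (hsur : ∀ k ∈ K, ∃ b, (r b)⁻¹ * k ∈ L) (x : α) (y : ι → α) (hd : ∀ i j, y i ∈ Orb K (y j) → i = j)
    (lab : β → ι) (hlab : ∀ b, s • (r b)⁻¹ • x ∈ Orb K (y (lab b))) (j : ι) :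
    Nat.card {k : K // s • (k : Γ)⁻¹ • x ∈ Orb K (y j)} = (∑ b, if lab b = j then 1 else 0) * Nat.card L := by
  have e1 : (∑ b, if lab b = j then 1 else 0) = Nat.card {b // lab b = j} := by
    rw [Nat.card_eq_fintype_card, Fintype.card_subtype, Finset.card_filter]
  have key : ∀ b, ∀ l ∈ L, s • (r b * l)⁻¹ • x ∈ Orb K (y (lab b)) := fun b l hl => by
    have : s • (r b * l)⁻¹ • x = (s * l⁻¹ * s) • s • (r b)⁻¹ • x := by
      rw [mul_inv_rev, mul_smul, ← mul_smul _ s, mul_assoc, hs, mul_one, mul_smul]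
    rw [this]; exact Orb.smul (hlab b) (hL _ (L.inv_mem hl))
  rw [e1, ← Nat.card_prod]
  symm
  refine Nat.card_congr (Equiv.ofBijective
    (fun q => ⟨⟨r q.1.1 * q.2, K.mul_mem (hr _) (hLK q.2.2)⟩, by have := key q.1.1 q.2 q.2.2; rwa [q.1.2] at this⟩)
    ⟨?_, ?_⟩)
  · rintro ⟨⟨b, hb⟩, l⟩ ⟨⟨b', hb'⟩, l'⟩ h
    simp only [Subtype.mk.injEq] at h
    have : b = b' := hinj b b' (by
      have : (r b)⁻¹ * r b' = l * (l' : Γ)⁻¹ := by
        rw [inv_mul_eq_iff_eq_mul, ← mul_assoc, h]; simp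
      rw [this]; exact L.mul_mem l.2 (L.inv_mem l'.2))
    subst this
    simp only [mul_right_inj, SetLike.coe_eq_coe] at h
    rw [h]
  · rintro ⟨⟨k, hk⟩, h⟩
    obtain ⟨b, hb⟩ := hsur k hk
    have h1 := key b _ hb
    rw [mul_inv_cancel_left] at h1
    obtain ⟨a, ha, e⟩ := h
    obtain ⟨a', ha', e'⟩ := h1
    have : lab b = j := hd _ _ ⟨a'⁻¹ * a, K.mul_mem (K.inv_mem ha') ha, by
      rw [mul_smul, ← e, e']; simp⟩
    exact ⟨⟨⟨b, this⟩, ⟨_, hb⟩⟩, by simp⟩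

/-! orbit and stabiliser -/
theorem card_orb (H K : Subgroup Γ) (β : α) (hK : K ≤ H) (h : ∀ g ∈ H, g • β = β ↔ g ∈ K) :
    Nat.card H = Nat.card (Orb H β) * Nat.card K := by
  rw [← Nat.card_prod]
  have hc : ∀ p : Orb H β, ∃ h : H, (p : α) = (h : Γ) • β := fun p => by
    obtain ⟨h, hh, e⟩ := p.2; exact ⟨⟨h, hh⟩, e⟩
  choose c hc using hc
  symm
  refine Nat.card_congr (Equiv.ofBijective (fun q => c q.1 * ⟨q.2, hK q.2.2⟩) ⟨?_, ?_⟩)
  · rintro ⟨p, k⟩ ⟨p', k'⟩ e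
    have e' : (c p : Γ) * k = c p' * k' := congrArg Subtype.val e
    have : p = p' := Subtype.ext (by
      rw [hc p, hc p', ← (h _ (hK k.2)).2 k.2, ← mul_smul, e', mul_smul, (h _ (hK k'.2)).2 k'.2, (h _ (hK k.2)).2 k.2])
    subst this
    simp only [mul_right_inj, SetLike.coe_eq_coe] at e'
    rw [e']
  · intro g
    let p : Orb H β := ⟨(g : Γ) • β, Orb.smul (Orb.self H β) g.2⟩
    refine ⟨(p, ⟨(c p : Γ)⁻¹ * g, (h _ (H.mul_mem (H.inv_mem (c p).2) g.2)).1 ?_⟩), Subtype.ext (by simp)⟩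
    rw [mul_smul, inv_smul_eq_iff, ← hc p]

theorem card_orb' (H : Subgroup Γ) (β : α) :
    Nat.card H = Nat.card (Orb H β) * Nat.card (H ⊓ stabilizer Γ β : Subgroup Γ) :=
  card_orb H _ β inf_le_left (fun g hg => by simp [hg])

/-- lower bound -/
theorem low {H K : Subgroup Γ} [Finite H] {β : α} (hK : K ≤ H) (hf : ∀ k ∈ K, k • β = β) {n : ℕ}
    (hn : n ≤ Nat.card (Orb H β)) : n * Nat.card K ≤ Nat.card H := by
  rw [card_orb' H β]
  have : Finite (H ⊓ stabilizer Γ β : Subgroup Γ) := Finite.of_injective _ (inclusion_injective inf_le_left)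
  exact Nat.mul_le_mul hn (card_le_of_le (fun k hk => ⟨hK hk, hf k hk⟩))

theorem stab_of_card {H K : Subgroup Γ} [Finite H] {β : α} (hK : K ≤ H) (hf : ∀ k ∈ K, k • β = β) {n : ℕ}
    (hn : n ≤ Nat.card (Orb H β)) (hc : Nat.card H ≤ n * Nat.card K) :
    (∀ g ∈ H, g • β = β → g ∈ K) ∧ Nat.card (Orb H β) = n := by
  have hfin : Finite (H ⊓ stabilizer Γ β : Subgroup Γ) := Finite.of_injective _ (inclusion_injective inf_le_left)
  have hle : K ≤ H ⊓ stabilizer Γ β := fun k hk => ⟨hK hk, hf k hk⟩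
  have h1 := card_le_of_le hle
  have h2 := card_orb' H β
  have h3 : 0 < Nat.card H := Nat.card_pos
  have h4 : 0 < Nat.card (H ⊓ stabilizer Γ β : Subgroup Γ) := Nat.card_pos
  have h5 : Nat.card (Orb H β) ≤ n := by
    by_contra hlt
    have : (n + 1) * Nat.card (H ⊓ stabilizer Γ β : Subgroup Γ) ≤ n * Nat.card (H ⊓ stabilizer Γ β : Subgroup Γ) :=
      (Nat.mul_le_mul_right _ (by omega)).trans (h2 ▸ hc.trans (Nat.mul_le_mul_left _ h1))
    nlinarith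
  have h6 : Nat.card (Orb H β) = n := le_antisymm h5 hn
  have h7 : Nat.card (H ⊓ stabilizer Γ β : Subgroup Γ) ≤ Nat.card K := by
    rw [h2, h6] at hc h3
    exact Nat.le_of_mul_le_mul_left hc (Nat.pos_of_mul_pos_right h3 |> fun _ => by
      rcases Nat.eq_zero_or_pos n with h | h
      · simp [h] at h3
      · exact h)
  refine ⟨fun g hg e => ?_, h6⟩
  rw [eq_of_le_of_card_ge hle h7]; exact ⟨hg, e⟩

/-- upper bound from a list of coset representatives -/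
theorem up {H K : Subgroup Γ} [Finite K] {β : Type*} [Finite β] (r : β → Γ) (h : ∀ g ∈ H, ∃ b, (r b)⁻¹ * g ∈ K) :
    Finite H ∧ Nat.card H ≤ Nat.card β * Nat.card K := by
  choose b hb using h
  have inj : Function.Injective (fun g : H => ((b g g.2, ⟨_, hb g g.2⟩) : β × K)) := by
    intro g g' e
    simp only [Prod.mk.injEq, Subtype.mk.injEq] at e
    have e2 := e.2
    rw [e.1, mul_right_inj] at e2
    exact Subtype.ext e2
  exact ⟨Finite.of_injective _ inj, by rw [← Nat.card_prod]; exact Nat.card_le_card_of_injective _ inj⟩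

theorem finite_of_orb {H K : Subgroup Γ} [Finite K] {β : α} (h : ∀ g ∈ H, g • β = β → g ∈ K)
    (hf : Finite (Orb H β)) : Finite H := by
  have hc : ∀ p : Orb H β, ∃ h : H, (p : α) = (h : Γ) • β := fun p => by
    obtain ⟨h, hh, e⟩ := p.2; exact ⟨⟨h, hh⟩, e⟩
  choose c hc using hc
  refine (up (K := K) (fun p => (c p : Γ)) fun g hg => ⟨⟨g • β, Orb.smul (Orb.self H β) hg⟩, h _ (H.mul_mem (H.inv_mem (c _).2) hg) ?_⟩).1
  rw [mul_smul, inv_smul_eq_iff, ← hc]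

theorem cov_of_orb {K T L : Subgroup Γ} {R : Set Γ} {β : α} (hT : T ≤ K) (hR : R ⊆ K)
    (hs : ∀ g ∈ K, g • β = β → g ∈ L) (h : ∀ p ∈ Orb K β, ∃ t ∈ T, ∃ ρ ∈ R, p = (t * ρ) • β) : Cov K T R L := by
  intro k hk
  obtain ⟨t, ht, ρ, hρ, e⟩ := h _ (Orb.smul (Orb.self K β) hk)
  refine ⟨t, ht, ρ, hρ, (t * ρ)⁻¹ * k, hs _ (K.mul_mem (K.inv_mem (K.mul_mem (hT ht) (hR hρ))) hk) ?_, by group⟩
  rw [mul_smul, e, inv_smul_smul]

/-- the double coset step: the stabiliser of a point -/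
theorem step_stab {ι : Type*} {K : Subgroup Γ} {s : Γ} (hs : s * s = 1) (g : ι → Γ) (i0 : ι) (h0 : g i0 = 1)
    (h : ∀ i, ∀ k ∈ K, ∃ j, ∃ a ∈ K, ∃ b ∈ K, s * k⁻¹ * g i = a * g j * b) {β : α} (hf : ∀ k ∈ K, k • β = β)
    (hne : ∀ j, g j • β = β → j = i0) : ∀ x ∈ K ⊔ zpowers s, x • β = β → x ∈ K := by
  have key : ∀ x ∈ K ⊔ zpowers s, ∃ j, ∃ a ∈ K, ∃ b ∈ K, x = a * g j * b := by
    refine closure_ind hs ⟨i0, 1, K.one_mem, 1, K.one_mem, by simp [h0]⟩ ?_ ?_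
    · rintro k hk _ ⟨j, a, ha, b, hb, rfl⟩
      exact ⟨j, k * a, K.mul_mem hk ha, b, hb, by group⟩
    · rintro _ ⟨j, a, ha, b, hb, rfl⟩
      obtain ⟨j', a', ha', b', hb', e⟩ := h j a⁻¹ (K.inv_mem ha)
      refine ⟨j', a', ha', b' * b, K.mul_mem hb' hb, ?_⟩
      rw [← mul_assoc _ b', ← e]; group
  intro x hx e
  obtain ⟨j, a, ha, b, hb, rfl⟩ := key x hx
  rw [mul_smul, mul_smul, hf b hb, smul_eq_iff_eq_inv_smul, hf _ (K.inv_mem ha)] at e
  rw [hne j e, h0, mul_one]; exact K.mul_mem ha hb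

theorem dc_of_cov {ι : Type*} {K T L : Subgroup Γ} {R : Set Γ} {s : Γ} (hs : s * s = 1) (hL : ∀ l ∈ L, s * l * s ∈ K)
    (hc : Cov K T R L) {g : ι → Γ} {x : Γ} (hT : ∀ t ∈ T, x⁻¹ * t * x ∈ K)
    (hR : ∀ ρ ∈ R, ∃ j, ∃ a ∈ K, ∃ b ∈ K, s * ρ⁻¹ * x = a * g j * b) :
    ∀ k ∈ K, ∃ j, ∃ a ∈ K, ∃ b ∈ K, s * k⁻¹ * x = a * g j * b := by
  intro k hk
  obtain ⟨t, ht, ρ, hρ, l, hl, rfl⟩ := hc k hk
  obtain ⟨j, a, ha, b, hb, e⟩ := hR ρ hρ
  refine ⟨j, s * l⁻¹ * s * a, K.mul_mem (hL _ (L.inv_mem hl)) ha, b * (x⁻¹ * t⁻¹ * x), K.mul_mem hb (hT _ (T.inv_mem ht)), ?_⟩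
  have : s * l⁻¹ * s * a * g j * (b * (x⁻¹ * t⁻¹ * x)) = s * l⁻¹ * s * (a * g j * b) * (x⁻¹ * t⁻¹ * x) := by group
  rw [this, ← e]
  have e2 : s * l⁻¹ * s * (s * ρ⁻¹ * x) * (x⁻¹ * t⁻¹ * x) = s * l⁻¹ * (s * s) * ρ⁻¹ * t⁻¹ * x := by group
  rw [e2, hs]; group

/-- coset representatives for an extension of a normalised subgroup -/
theorem trans_ext {P K : Subgroup Γ} {S : Set Γ} (hPK : P ≤ K) (hS : ∀ s ∈ S, s * s ∈ P)
    (hn : ∀ s ∈ S, ∀ p ∈ P, s⁻¹ * p * s ∈ P) {β : Type*} (r : β → Γ) (hr : ∀ b, r b ∈ closure S) (b0 : β) (h0 : r b0 = 1)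
    (h : ∀ s ∈ S, ∀ b, ∃ b', (r b')⁻¹ * (s * r b) ∈ K) : ∀ g ∈ P ⊔ closure S, ∃ b, (r b)⁻¹ * g ∈ K := by
  have hn' : ∀ s ∈ S, ∀ p ∈ P, s * p * s⁻¹ ∈ P := fun s hs p hp => by
    have := hn s hs _ (P.mul_mem (P.mul_mem (hS s hs) hp) (P.inv_mem (hS s hs)))
    convert this using 1; group
  have hN : ∀ w ∈ closure S, ∀ p ∈ P, w⁻¹ * p * w ∈ P := by
    intro w hw
    induction hw using closure_induction_left with
    | one => simp
    | mul_left x hx y _ ih => intro p hp; have := ih _ (hn x hx p hp); convert this using 1; group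
    | inv_mul_cancel x hx y _ ih => intro p hp; have := ih _ (hn' x hx p hp); convert this using 1; group
  have hP : ∀ p ∈ P, ∀ g, (∃ b, (r b)⁻¹ * g ∈ K) → ∃ b, (r b)⁻¹ * (p * g) ∈ K := by
    rintro p hp g ⟨b, hb⟩
    refine ⟨b, ?_⟩
    have := K.mul_mem (hPK (hN _ (hr b) p hp)) hb
    convert this using 1; group
  have h1 : ∀ s ∈ S, ∀ g, (∃ b, (r b)⁻¹ * g ∈ K) → ∃ b, (r b)⁻¹ * (s * g) ∈ K := by
    rintro s hs g ⟨b, hb⟩
    obtain ⟨b', hb'⟩ := h s hs b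
    refine ⟨b', ?_⟩
    have := K.mul_mem hb' hb
    convert this using 1; group
  intro g hg
  have e : P ⊔ closure S = closure ((P : Set Γ) ∪ S) := by rw [Subgroup.closure_union, Subgroup.closure_eq]
  rw [e] at hg
  induction hg using closure_induction_left with
  | one => exact ⟨b0, by simp [h0, K.one_mem]⟩
  | mul_left x hx y _ ih =>
    rcases hx with hx | hx
    · exact hP x hx y ih
    · exact h1 x hx y ih
  | inv_mul_cancel x hx y _ ih =>
    rcases hx with hx | hx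
    · exact hP _ (P.inv_mem hx) y ih
    · have := hP _ (P.inv_mem (hS x hx)) _ (h1 x hx y ih)
      convert this using 4; group

/-! binary words -/
def bw (f : ℕ → Γ) : ℕ → ℕ → Γ
  | 0, _ => 1
  | n + 1, e => bw f n e * (if e.testBit n then f n else 1)

theorem bw_mem {f : ℕ → Γ} {H : Subgroup Γ} (n : ℕ) (h : ∀ i < n, f i ∈ H) (e : ℕ) : bw f n e ∈ H := by
  induction n with
  | zero => exact H.one_mem
  | succ n ih =>
    refine H.mul_mem (ih fun i hi => h i (by omega)) ?_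
    split_ifs
    · exact h n (by omega)
    · exact H.one_mem

theorem bw_zero (f : ℕ → Γ) (n : ℕ) : bw f n 0 = 1 := by
  induction n with
  | zero => rfl
  | succ n ih => simp [bw, ih]

theorem bw_congr (f : ℕ → Γ) (n : ℕ) {e e' : ℕ} (h : ∀ i < n, e.testBit i = e'.testBit i) : bw f n e = bw f n e' := by
  induction n with
  | zero => rfl
  | succ n ih => rw [bw, bw, ih fun i hi => h i (by omega), h n (by omega)]

theorem bw_pow (f : ℕ → Γ) (n i : ℕ) (hi : i < n) : bw f n (2 ^ i) = f i := by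
  induction n with
  | zero => omega
  | succ n ih =>
    rw [bw, Nat.testBit_two_pow]
    by_cases e : i = n
    · subst e
      rw [bw_congr f i (e' := 0) (fun j hj => by rw [Nat.testBit_two_pow]; simp; omega), bw_zero]; simp
    · rw [ih (by omega)]; simp [e]

theorem bw_mul {Γ' : Type*} [Group Γ'] (φ : Γ →* Γ') {f : ℕ → Γ} (n : ℕ) (h1 : ∀ i < n, φ (f i) * φ (f i) = 1)
    (h2 : ∀ i < n, ∀ j < n, Commute (φ (f i)) (φ (f j))) (e e' : ℕ) :
    φ (bw f n e) * φ (bw f n e') = φ (bw f n (e ^^^ e')) := by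
  induction n with
  | zero => simp [bw]
  | succ n ih =>
    have hc : ∀ m ≤ n, ∀ e, Commute (φ (f n)) (φ (bw f m e)) := by
      intro m hm e
      induction m with
      | zero => simp [bw]
      | succ m ihm =>
        rw [bw, map_mul]
        refine (ihm (by omega)).mul_right ?_
        split_ifs
        · exact h2 n (by omega) m (by omega)
        · simp
    have := ih (fun i hi => h1 i (by omega)) (fun i hi j hj => h2 i (by omega) j (by omega))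
    have c := (hc n le_rfl e').eq
    have q := h1 n (by omega)
    simp only [bw, map_mul, Nat.testBit_xor, ← this]
    cases e.testBit n <;> cases e'.testBit n <;> simp
    · rw [mul_assoc]
    · rw [mul_assoc, c, mul_assoc]
    · rw [mul_assoc, ← mul_assoc (φ (f n)), c, mul_assoc, q, mul_one]

end CfsgH5.BS
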