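import Cfsg.Agent.H5.BG
import Cfsg.Agent.H5.BS
/-! Baby Monster (helper5): codes for the extraspecial group and the linear action on them. -/
namespace CfsgH5.BE
open Subgroup CfsgH5.BS
noncomputable section

theorem map_bw {Γ Γ' : Type*} [Group Γ] [Group Γ'] (ψ : Γ →* Γ') (f : ℕ → Γ) (n e : ℕ) :
    ψ (bw f n e) = bw (fun i => ψ (f i)) n e := by
  induction n with
  | zero => simp [bw]
  | succ n ih => rw [bw, bw, map_mul, ih]; split_ifs <;> simp
theorem bw_congr' {Γ : Type*} [Group Γ] {f g : ℕ → Γ} (n e : ℕ) (h : ∀ i < n, f i = g i) : bw f n e = bw g n e := by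
  induction n with
  | zero => rfl
  | succ n ih => rw [bw, bw, ih fun i hi => h i (by omega), h n (by omega)]

theorem bw_mul_mem {Γ : Type*} [Group Γ] {Z : Subgroup Γ} {f : ℕ → Γ} (n : ℕ) (hn : ∀ i < n, f i ∈ normalizer (Z : Set Γ))
    (h1 : ∀ i < n, f i * f i ∈ Z) (h2 : ∀ i < n, ∀ j < n, (f j * f i)⁻¹ * (f i * f j) ∈ Z) (e e' : ℕ) :
    (bw f n (e ^^^ e'))⁻¹ * (bw f n e * bw f n e') ∈ Z := by
  classical
  let F : ℕ → normalizer (Z : Set Γ) := fun i => if h : i < n then ⟨f i, hn i h⟩ else 1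
  have hF : ∀ i < n, (F i : Γ) = f i := fun i hi => by simp [F, hi]
  have key := bw_mul (QuotientGroup.mk' (Z.subgroupOf (normalizer (Z : Set Γ)))) (f := F) n
    (fun i hi => by
      rw [← map_mul, QuotientGroup.mk'_apply, QuotientGroup.eq_one_iff, mem_subgroupOf, coe_mul, hF i hi]; exact h1 i hi)
    (fun i hi j hj => by
      rw [Commute, SemiconjBy, ← map_mul, ← map_mul, QuotientGroup.mk'_apply, QuotientGroup.mk'_apply, eq_comm,
        QuotientGroup.eq, mem_subgroupOf, coe_mul, coe_inv, coe_mul, coe_mul, hF i hi, hF j hj]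
      exact h2 i hi j hj) e e'
  rw [← map_mul, QuotientGroup.mk'_apply, QuotientGroup.mk'_apply, eq_comm, QuotientGroup.eq, mem_subgroupOf, coe_mul,
    coe_inv, coe_mul] at key
  have e1 : ∀ e, ((bw F n e : normalizer (Z : Set Γ)) : Γ) = bw f n e := fun e =>
    (map_bw (normalizer (Z : Set Γ)).subtype F n e).trans (bw_congr' n e hF)
  rwa [e1, e1, e1] at key

theorem bw_cover {Γ : Type*} [Group Γ] {Z : Subgroup Γ} {f : ℕ → Γ} (n : ℕ) (hn : ∀ i < n, f i ∈ normalizer (Z : Set Γ))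
    (h1 : ∀ i < n, f i * f i ∈ Z) (h2 : ∀ i < n, ∀ j < n, (f j * f i)⁻¹ * (f i * f j) ∈ Z) :
    ∀ x ∈ Z ⊔ closure (f '' {i | i < n}), ∃ e : Fin (2 ^ n), (bw f n e)⁻¹ * x ∈ Z := by
  refine trans_ext le_rfl ?_ ?_ _ (fun b => bw_mem n (fun i hi => Subgroup.subset_closure (Set.mem_image_of_mem f hi)) _)
    ⟨0, by positivity⟩ (bw_zero f n) ?_
  · rintro _ ⟨i, hi, rfl⟩; exact h1 i hi
  · rintro _ ⟨i, hi, rfl⟩ p hp
    have := (mem_normalizer_iff''.1 (hn i hi) p).1 hp
    exact this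
  · rintro _ ⟨i, hi, rfl⟩ b
    refine ⟨⟨2 ^ i ^^^ b, Nat.xor_lt_two_pow (Nat.pow_lt_pow_right (by norm_num) hi) b.2⟩, ?_⟩
    have := bw_mul_mem n hn h1 h2 (2 ^ i) b
    rwa [bw_pow f n i hi] at this

/-! linear maps on bit vectors -/
def linS (col : ℕ → ℕ) (n a : ℕ) : ℕ :=
  Nat.rec 0 (fun k ih => Bool.rec ih (Nat.xor ih (col k)) (Nat.testBit a k)) n
theorem linS_succ (col : ℕ → ℕ) (n a : ℕ) : linS col (n + 1) a = linS col n a ^^^ (if a.testBit n then col n else 0) := by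
  show (Bool.rec (linS col n a) (Nat.xor (linS col n a) (col n)) (Nat.testBit a n) : ℕ) = _
  cases a.testBit n <;> simp [Nat.xor_eq]
theorem linS_xor (col : ℕ → ℕ) (n a b : ℕ) : linS col n (a ^^^ b) = linS col n a ^^^ linS col n b := by
  induction n with
  | zero => simp [linS]
  | succ n ih =>
    simp only [linS_succ, ih, Nat.testBit_xor]
    cases a.testBit n <;> cases b.testBit n <;> simp [Nat.xor_assoc, Nat.xor_left_comm, Nat.xor_comm]
theorem linS_lt {col : ℕ → ℕ} {n m : ℕ} (h : ∀ i < n, col i < 2 ^ m) (a : ℕ) : linS col n a < 2 ^ m := by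
  induction n with
  | zero => simp [linS]
  | succ n ih =>
    rw [linS_succ]
    refine Nat.xor_lt_two_pow (ih fun i hi => h i (by omega)) ?_
    split_ifs
    · exact h n (by omega)
    · positivity
theorem linS_id (n a : ℕ) : linS (fun i => 2 ^ i) n a = a % 2 ^ n := by
  induction n with
  | zero => simp [linS, Nat.mod_one]
  | succ n ih =>
    rw [linS_succ, ih]
    refine Nat.eq_of_testBit_eq fun i => ?_
    simp only [Nat.testBit_xor, Nat.testBit_mod_two_pow]
    by_cases e : i = n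
    · subst e; cases h : a.testBit i <;> simp
    · have : (n = i) = False := by simp; omega
      have h2 : (i < n + 1) = (i < n) := by simp; omega
      split_ifs <;> simp [Nat.testBit_two_pow, this, h2]
def Lin (F : ℕ → ℕ) : Prop := (∀ a < 2 ^ 22, F a < 2 ^ 22) ∧ ∀ a < 2 ^ 22, ∀ b < 2 ^ 22, F (a ^^^ b) = F a ^^^ F b
theorem Lin.zero {F} (h : Lin F) : F 0 = 0 := by have := h.2 0 (by norm_num) 0 (by norm_num); simpa using this
theorem Lin.comp {F G} (h : Lin F) (h' : Lin G) : Lin (fun a => F (G a)) :=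
  ⟨fun a ha => h.1 _ (h'.1 a ha), fun a ha b hb => by
    beta_reduce
    rw [h'.2 a ha b hb, h.2 _ (h'.1 a ha) _ (h'.1 b hb)]⟩
theorem Lin.linS {F} (h : Lin F) {col : ℕ → ℕ} {n : ℕ} (hc : ∀ i < n, col i < 2 ^ 22) (a : ℕ) :
    F (linS col n a) = linS (fun i => F (col i)) n a := by
  induction n with
  | zero => exact h.zero
  | succ n ih =>
    rw [linS_succ, linS_succ, h.2 _ (linS_lt (fun i hi => hc i (by omega)) a), ih fun i hi => hc i (by omega)]
    · split_ifs
      · rfl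
      · rw [h.zero]
    · split_ifs
      · exact hc n (by omega)
      · norm_num
theorem linS_congr {c c' : ℕ → ℕ} {n : ℕ} (h : ∀ i < n, c i = c' i) (a : ℕ) : linS c n a = linS c' n a := by
  induction n with
  | zero => rfl
  | succ n ih => rw [linS_succ, linS_succ, ih fun i hi => h i (by omega), h n (by omega)]
theorem lin_linS {col : ℕ → ℕ} (h : ∀ i < 22, col i < 2 ^ 22) : Lin (linS col 22) :=
  ⟨fun a _ => linS_lt h a, fun a _ b _ => linS_xor col 22 a b⟩
theorem Lin.eq_linS {F} (h : Lin F) {a : ℕ} (ha : a < 2 ^ 22) : F a = BE.linS (fun i => F (2 ^ i)) 22 a := by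
  rw [← h.linS (fun i hi => Nat.pow_lt_pow_right (by norm_num) hi), linS_id, Nat.mod_eq_of_lt ha]

inductive M3 | mk (t0 t1 t2 : ℕ)
def fld (T i : ℕ) : ℕ := Nat.land (Nat.shiftRight T (Nat.mul 24 i)) 16777215
def mv (T : M3) (a : ℕ) : ℕ :=
  Nat.xor (fld T.1 (Nat.land a 255)) (Nat.xor (fld T.2 (Nat.land (Nat.shiftRight a 8) 127)) (fld T.3 (Nat.shiftRight a 15)))
def okM3 (T : M3) (F : ℕ → ℕ) : Bool :=
  band (allN2 (fun e => Nat.beq (fld T.1 e) (F e)) 16 16) (allN2 (fun e =>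
    band (Nat.beq (fld T.2 e) (F (Nat.shiftLeft e 8))) (Nat.beq (fld T.3 e) (F (Nat.shiftLeft e 15)))) 8 16)
theorem split22 {a : ℕ} : a = (a &&& 255) ^^^ ((((a >>> 8) &&& 127) <<< 8) ^^^ ((a >>> 15) <<< 15)) := by
  refine Nat.eq_of_testBit_eq fun i => ?_
  rw [show 255 = 2 ^ 8 - 1 by norm_num, show 127 = 2 ^ 7 - 1 by norm_num]
  simp only [Nat.testBit_xor, Nat.testBit_and, Nat.testBit_shiftLeft, Nat.testBit_shiftRight, Nat.testBit_two_pow_sub_one]
  by_cases h1 : i < 8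
  · simp [h1, show ¬ 8 ≤ i by omega, show ¬ 15 ≤ i by omega]
  · by_cases h2 : i < 15
    · simp [h1, show 8 ≤ i by omega, show ¬ 15 ≤ i by omega, show i - 8 < 7 by omega]
    · simp [h1, show 15 ≤ i by omega, show ¬ i - 8 < 7 by omega]
theorem mv_eq {T : M3} {F : ℕ → ℕ} (hF : Lin F) (h : okM3 T F = true) {a : ℕ} (ha : a < 2 ^ 22) : mv T a = F a := by
  obtain ⟨h1, h2⟩ := band_spec h
  have b0 : a &&& 255 < 256 := Nat.and_lt_two_pow a (n := 8) (by norm_num)
  have b1 : (a >>> 8) &&& 127 < 128 := Nat.and_lt_two_pow _ (n := 7) (by norm_num)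
  have b2 : a >>> 15 < 128 := by rw [Nat.shiftRight_eq_div_pow]; omega
  have e0 := Nat.eq_of_beq_eq_true (allN2_spec h1 _ b0)
  have e1 := Nat.eq_of_beq_eq_true (band_spec (allN2_spec h2 _ b1)).1
  have e2 := Nat.eq_of_beq_eq_true (band_spec (allN2_spec h2 _ b2)).2
  have c1 : ((a >>> 8) &&& 127) <<< 8 < 2 ^ 22 := by rw [Nat.shiftLeft_eq]; omega
  have c2 : (a >>> 15) <<< 15 < 2 ^ 22 := by rw [Nat.shiftLeft_eq]; omega
  conv_rhs => rw [split22 (a := a), hF.2 _ (by omega) _ (Nat.xor_lt_two_pow c1 c2), hF.2 _ c1 _ c2]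
  exact congrArg₂ Nat.xor e0 (congrArg₂ Nat.xor e1 e2)
theorem Lin.congr {F G} (h : Lin F) (e : ∀ a < 2 ^ 22, G a = F a) : Lin G :=
  ⟨fun a ha => by rw [e a ha]; exact h.1 a ha, fun a ha b hb => by
    rw [e a ha, e b hb, e _ (Nat.xor_lt_two_pow ha hb), h.2 a ha b hb]⟩
def okLin (T : M3) : Bool :=
  band (allN (fun i => Nat.ble (mv T (Nat.pow 2 i)) 4194303) 22) (okM3 T (linS (fun i => mv T (Nat.pow 2 i)) 22))
theorem okLin_spec {T : M3} (h : okLin T = true) : Lin (mv T) := by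
  obtain ⟨h1, h2⟩ := band_spec h
  have hl : Lin (linS (fun i => mv T (Nat.pow 2 i)) 22) := lin_linS fun i hi => by
    have := allN_spec h1 i hi
    rw [Nat.ble_eq] at this; omega
  exact hl.congr fun a ha => mv_eq hl h2 ha

/-! words for bit vectors -/
def bitsL (b n e : ℕ) : List ℕ := Nat.rec [] (fun k ih => Bool.rec ih (List.append ih [Nat.add b k]) (Nat.testBit e k)) n
theorem wd_bitsL (b n e : ℕ) : wd (bitsL b n e) = bw (fun i => gen (b + i)) n e := by
  induction n with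
  | zero => rfl
  | succ n ih =>
    have : bitsL b (n + 1) e = (Bool.rec (bitsL b n e) (bitsL b n e ++ [b + n]) (Nat.testBit e n) : List ℕ) := rfl
    rw [this, bw]
    cases e.testBit n <;> simp [wd_append, ih, wd_one]
def zl (b : Bool) : List ℕ := Bool.rec [] [0] b
def zb (b : Bool) : GG := Bool.rec 1 (gen 0) b
theorem wd_zl (b : Bool) : wd (zl b) = zb b := by cases b <;> simp [zl, zb, wd]
/-- `gen k` conjugates `gen (i + 1)` to the word with code `T e_i` -/
def cjL (T : M3) (ε i : ℕ) : List ℕ := List.append (bitsL 1 22 (mv T (Nat.pow 2 i))) (zl (Nat.testBit ε i))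
def cjM (T : M3) (ε k : ℕ) : Bool := allN (fun i => chkm [k, Nat.succ i, k] (cjL T ε i)) 22

end
end CfsgH5.BE
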