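import Cfsg.Agent.H5.BQ1
import Cfsg.Agent.H5.BQ2
import Cfsg.Agent.H5.BQ3
import Cfsg.Agent.H5.BQ4
/-! Baby Monster (helper5): the extraspecial group `Q` and the action of `N` on `Q / Z`. -/
namespace CfsgH5.BE
open Subgroup CfsgH5.BS
noncomputable section

theorem card_trans {Γ : Type*} [Group Γ] {H K : Subgroup Γ} {β : Type*} (hK : K ≤ H) (r : β → Γ) (hr : ∀ b, r b ∈ H)
    (hinj : ∀ b b', (r b)⁻¹ * r b' ∈ K → b = b') (hsur : ∀ g ∈ H, ∃ b, (r b)⁻¹ * g ∈ K) :
    Nat.card H = Nat.card β * Nat.card K := by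
  rw [← Nat.card_prod]
  symm
  refine Nat.card_congr (Equiv.ofBijective (fun q => ⟨r q.1 * q.2, H.mul_mem (hr _) (hK q.2.2)⟩) ⟨?_, ?_⟩)
  · rintro ⟨b, l⟩ ⟨b', l'⟩ h
    simp only [Subtype.mk.injEq] at h
    have : b = b' := hinj b b' (by
      have : (r b)⁻¹ * r b' = l * (l' : Γ)⁻¹ := by
        rw [inv_mul_eq_iff_eq_mul, ← mul_assoc, h]; simp
      rw [this]; exact K.mul_mem l.2 (K.inv_mem l'.2))
    subst this
    simp only [mul_right_inj, SetLike.coe_eq_coe] at h
    rw [h]
  · rintro ⟨k, hk⟩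
    obtain ⟨b, hb⟩ := hsur k hk
    exact ⟨⟨b, ⟨_, hb⟩⟩, by simp⟩

def gL (b : ℕ) : Subgroup GG := closure (gen '' {k | k ≤ b})
theorem gen_mem {b k : ℕ} (h : k ≤ b) : gen k ∈ gL b := Subgroup.subset_closure (Set.mem_image_of_mem gen h)
theorem gL_mono {b c : ℕ} (h : b ≤ c) : gL b ≤ gL c := closure_mono (Set.image_mono fun _ hk => le_trans hk h)
theorem wd_gL {b : ℕ} {w : List ℕ} (h : okW b w = true) : wd w ∈ gL b := wd_mem fun k hk => gen_mem (okW_spec h k hk)
theorem gen_ind {S : Set ℕ} {P : GG → Prop} (h1 : P 1) (h : ∀ k ∈ S, ∀ g, P g → P (gen k * g)) :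
    ∀ g ∈ closure (gen '' S), P g := by
  intro g hg
  induction hg using closure_induction_left with
  | one => exact h1
  | mul_left x hx y _ ih => obtain ⟨k, hk, rfl⟩ := hx; exact h k hk y ih
  | inv_mul_cancel x hx y _ ih => obtain ⟨k, hk, rfl⟩ := hx; rw [gen_inv]; exact h k hk y ih
theorem gL_succ (b : ℕ) : gL (b + 1) = gL b ⊔ zpowers (gen (b + 1)) := by
  rw [gL, gL, zpowers_eq_closure, ← Subgroup.closure_union, ← Set.image_singleton, ← Set.image_union]
  congr 2
  ext k; simp; omega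
abbrev Qg := gL 22
abbrev Mg := gL 42
abbrev Ng := gL 43
abbrev Gg := gL 44
def Zs : Subgroup GG := zpowers (gen 0)
theorem memZ {x : GG} : x ∈ Zs ↔ x = 1 ∨ x = gen 0 := by
  constructor
  · intro h
    rw [Zs, zpowers_eq_closure, ← Set.image_singleton] at h
    refine gen_ind (P := fun x => x = 1 ∨ x = gen 0) (Or.inl rfl) ?_ x h
    rintro k rfl g (rfl | rfl)
    · simp
    · exact Or.inl (gen_mul_self 0)
  · rintro (rfl | rfl)
    · exact Zs.one_mem
    · exact mem_zpowers _
theorem zb_mem (b : Bool) : zb b ∈ Zs := by cases b <;> simp [zb, memZ]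
theorem Zs_le (b : ℕ) : Zs ≤ gL b := zpowers_le.2 (gen_mem (Nat.zero_le b))
theorem wd3 (a b c : ℕ) : wd [a, b, c] = gen a * gen b * gen c := by simp [wd, mul_assoc]
theorem comm_z {n : GG} (hn : n ∈ Ng) : n * gen 0 = gen 0 * n := by
  refine gen_ind (P := fun n => n * gen 0 = gen 0 * n) (by simp) (fun k hk g hg => ?_) n hn
  have e : wd [k, 0, k] = wd [0] := by
    by_cases h : k < 43
    · exact relm (allN_spec cz0 k h)
    · obtain rfl : k = 43 := by have : k ≤ 43 := hk; omega
      exact rel cz1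
  rw [wd3, wd_one] at e
  have : gen k * gen 0 = gen 0 * gen k := by
    conv_rhs => rw [← e, mul_assoc, gen_mul_self, mul_one]
  rw [mul_assoc, hg, ← mul_assoc, this, mul_assoc]
theorem comm_Z {n x : GG} (hn : n ∈ Ng) (hx : x ∈ Zs) : n * x = x * n := by
  rcases memZ.1 hx with rfl | rfl
  · simp
  · exact comm_z hn
theorem z_ne : gen 0 ≠ 1 := by
  intro h
  have := gen0_apply (fun _ => 1) ⟨0, by norm_num⟩
  rw [h] at this
  norm_num at this

def EZ (x y : GG) : Prop := x⁻¹ * y ∈ Zs
theorem EZ.refl (x : GG) : EZ x x := by simp [EZ]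
theorem EZ.symm {x y} (h : EZ x y) : EZ y x := by have := Zs.inv_mem h; simpa [EZ] using this
theorem EZ.trans {x y w} (h : EZ x y) (h' : EZ y w) : EZ x w := by have := Zs.mul_mem h h'; simpa [EZ, mul_assoc] using this
theorem EZ.mul {x y x' y'} (h : EZ x y) (h' : EZ x' y') (hx : x' ∈ Ng) : EZ (x * x') (y * y') := by
  have : (x * x')⁻¹ * (y * y') = (x⁻¹ * y) * (x'⁻¹ * y') := by
    rw [← mul_assoc (x⁻¹ * y), ← comm_Z (Ng.inv_mem hx) h]; group
  rw [EZ, this]; exact Zs.mul_mem h h'
theorem EZ.conj_iff {x y n} (hn : n ∈ Ng) : EZ (n * x * n⁻¹) (n * y * n⁻¹) ↔ EZ x y := by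
  have key : ∀ {x y n}, n ∈ Ng → EZ x y → EZ (n * x * n⁻¹) (n * y * n⁻¹) := fun {x y n} hn h => by
    have : (n * x * n⁻¹)⁻¹ * (n * y * n⁻¹) = n * (x⁻¹ * y) * n⁻¹ := by group
    rw [EZ, this, comm_Z hn h, mul_inv_cancel_right]; exact h
  exact ⟨fun h => by simpa [mul_assoc] using key (Ng.inv_mem hn) h, key hn⟩
theorem EZ.zb (x : GG) (b : Bool) : EZ x (x * zb b) := by simp [EZ, zb_mem]
theorem EZ.cases {x y} (h : EZ x y) : y = x ∨ y = x * gen 0 := by
  rcases memZ.1 h with h | h
  · left; rw [inv_mul_eq_one] at h; exact h.symm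
  · right; rw [← h]; simp

def X (e : ℕ) : GG := bw (fun i => gen (1 + i)) 22 e
theorem X_mem (e : ℕ) : X e ∈ Qg := bw_mem 22 (fun i hi => gen_mem (by omega)) e
theorem X_memN (e : ℕ) : X e ∈ Ng := gL_mono (by norm_num) (X_mem e)
theorem X_pow {i : ℕ} (hi : i < 22) : X (2 ^ i) = gen (1 + i) := bw_pow _ 22 i hi
theorem X_zero : X 0 = 1 := bw_zero _ 22
theorem cj {k : ℕ} (hk : k ≤ 43) {i : ℕ} (hi : i < 22) :
    gen k * gen (1 + i) * gen k = X (mv (LT k) (2 ^ i)) * zb ((eps k).testBit i) := by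
  have e : wd [k, Nat.succ i, k] = wd (cjL (LT k) (eps k) i) := by
    by_cases h : k < 43
    · refine relm (allN_spec (f := fun i => chkm [k, Nat.succ i, k] (cjL (LT k) (eps k) i)) ?_ i hi)
      interval_cases k
      · exact cj0
      · exact cj1
      · exact cj2
      · exact cj3
      · exact cj4
      · exact cj5
      · exact cj6
      · exact cj7
      · exact cj8
      · exact cj9
      · exact cj10
      · exact cj11
      · exact cj12
      · exact cj13
      · exact cj14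
      · exact cj15
      · exact cj16
      · exact cj17
      · exact cj18
      · exact cj19
      · exact cj20
      · exact cj21
      · exact cj22
      · exact cj23
      · exact cj24
      · exact cj25
      · exact cj26
      · exact cj27
      · exact cj28
      · exact cj29
      · exact cj30
      · exact cj31
      · exact cj32
      · exact cj33
      · exact cj34
      · exact cj35
      · exact cj36
      · exact cj37
      · exact cj38
      · exact cj39
      · exact cj40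
      · exact cj41
      · exact cj42
    · obtain rfl : k = 43 := by omega
      interval_cases i
      · exact rel cx0
      · exact rel cx1
      · exact rel cx2
      · exact rel cx3
      · exact rel cx4
      · exact rel cx5
      · exact rel cx6
      · exact rel cx7
      · exact rel cx8
      · exact rel cx9
      · exact rel cx10
      · exact rel cx11
      · exact rel cx12
      · exact rel cx13
      · exact rel cx14
      · exact rel cx15
      · exact rel cx16
      · exact rel cx17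
      · exact rel cx18
      · exact rel cx19
      · exact rel cx20
      · exact rel cx21
  rw [wd3, cjL, List.append_eq, wd_append, wd_bitsL, wd_zl, Nat.succ_eq_one_add] at e
  exact e
theorem lin_LT (k : ℕ) (hk : k ≤ 43) : Lin (mv (LT k)) := okLin_spec (allN_spec LT_lin k (by omega))
theorem lin_id : Lin (fun a => a) := ⟨fun _ h => h, fun _ _ _ _ => rfl⟩
theorem mv_Q {k : ℕ} (hk : k ≤ 22) {a : ℕ} (ha : a < 2 ^ 22) : mv (LT k) a = a := by
  have : LT k = mI := by
    unfold LT
    cases h : Nat.ble 23 k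
    · rfl
    · rw [Nat.ble_eq] at h; omega
  rw [this]; exact mv_eq lin_id LT_id ha
theorem pow_lt22 {i : ℕ} (hi : i < 22) : 2 ^ i < 2 ^ 22 := Nat.pow_lt_pow_right (by norm_num) hi
theorem cjQ {k : ℕ} (hk : k ≤ 22) {i : ℕ} (hi : i < 22) :
    gen k * gen (1 + i) * gen k = gen (1 + i) * zb ((eps k).testBit i) := by
  rw [cj (by omega) hi, mv_Q hk (pow_lt22 hi), X_pow hi]
theorem normZ {n : GG} (hn : n ∈ Ng) : n ∈ normalizer (Zs : Set GG) := by
  rw [mem_normalizer_iff]
  intro x
  constructor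
  · intro h; rw [comm_Z hn h]; simpa using h
  · intro h
    have := comm_Z (Ng.inv_mem hn) h
    have e : x = n * x * n⁻¹ := by
      calc x = n⁻¹ * (n * x * n⁻¹) * n := by group
        _ = _ := by rw [this]; group
    rwa [e]
theorem hQ1 : ∀ i < 22, gen (1 + i) ∈ normalizer (Zs : Set GG) := fun i hi => normZ (gen_mem (by omega))
theorem hQ2 : ∀ i < 22, gen (1 + i) * gen (1 + i) ∈ Zs := fun i _ => by rw [gen_mul_self]; exact Zs.one_mem
theorem hQ3 : ∀ i < 22, ∀ j < 22, (gen (1 + j) * gen (1 + i))⁻¹ * (gen (1 + i) * gen (1 + j)) ∈ Zs := fun i hi j hj => by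
  rw [mul_inv_rev, gen_inv, gen_inv, ← mul_assoc, cjQ (by omega) hj, mul_assoc,
    ← comm_Z (gen_mem (by omega)) (zb_mem _), ← mul_assoc, gen_mul_self, one_mul]
  exact zb_mem _
theorem X_mul (a b : ℕ) : EZ (X (a ^^^ b)) (X a * X b) := bw_mul_mem 22 hQ1 hQ2 hQ3 a b
theorem Q_cover : ∀ x ∈ Qg, ∃ e : Fin (2 ^ 22), EZ (X e) x := by
  intro x hx
  refine bw_cover 22 hQ1 hQ2 hQ3 x ((closure_le _).2 ?_ hx)
  rintro _ ⟨k, hk, rfl⟩
  cases k with
  | zero => exact mem_sup_left (mem_zpowers _)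
  | succ k => exact mem_sup_right (Subgroup.subset_closure ⟨k, by have : k + 1 ≤ 22 := hk; simp; omega, by simp [add_comm]⟩)

theorem zb_xor (a b : Bool) : zb (a ^^ b) = zb a * zb b := by cases a <;> cases b <;> simp [zb, gen_mul_self]
theorem conj_X {k : ℕ} (hk : k < 22) (a : ℕ) :
    gen (k + 1) * X a * gen (k + 1) = X a * zb ((linS (nth 0 omL) 22 a).testBit k) := by
  have key : ∀ m ≤ 22, gen (k + 1) * bw (fun i => gen (1 + i)) m a * gen (k + 1) =
      bw (fun i => gen (1 + i)) m a * zb ((linS (nth 0 omL) m a).testBit k) := by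
    intro m hm
    induction m with
    | zero => simp [bw, linS, zb, gen_mul_self]
    | succ m ih =>
      rw [bw, linS_succ, Nat.testBit_xor, zb_xor]
      cases a.testBit m
      · simpa [zb] using ih (by omega)
      · have e : (nth 0 omL m).testBit k = (eps (k + 1)).testBit m := by
          simpa using allN_spec (allN_spec om_eps m (by omega)) k hk
        have c := cjQ (k := k + 1) (by omega) (i := m) (by omega)
        simp only [if_true, e]
        calc _ = (gen (k + 1) * bw (fun i => gen (1 + i)) m a * gen (k + 1)) * (gen (k + 1) * gen (1 + m) * gen (k + 1)) := by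
              rw [mul_assoc _ (gen (k + 1)) (_ * _), ← mul_assoc (gen (k + 1)) (_ * _), ← mul_assoc (gen (k + 1)) (gen _),
                gen_mul_self]; group
          _ = _ := by
              rw [ih (by omega), c, mul_assoc, ← mul_assoc (zb _), ← comm_Z (gen_mem (by omega)) (zb_mem _)]; group
  exact key 22 le_rfl
theorem om_zero {a : ℕ} (ha : a < 2 ^ 22) (h : ∀ k < 22, gen (k + 1) * X a = X a * gen (k + 1)) : a = 0 := by
  have b1 : ∀ i < 22, nth 0 omL i < 2 ^ 22 := fun i hi => by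
    have := (band_spec (allN_spec om_lt i hi)).1
    rw [Nat.ble_eq] at this; omega
  have b2 : ∀ i < 22, nth 0 omI i < 2 ^ 22 := fun i hi => by
    have := (band_spec (allN_spec om_lt i hi)).2
    rw [Nat.ble_eq] at this; omega
  have h0 : linS (nth 0 omL) 22 a = 0 := Nat.eq_of_testBit_eq fun k => by
    rw [Nat.zero_testBit]
    by_cases hk : k < 22
    · have := conj_X hk a
      rw [h k hk, mul_assoc, gen_mul_self, mul_right_inj] at this
      cases hb : (linS (nth 0 omL) 22 a).testBit k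
      · rfl
      · rw [hb] at this; exact absurd this.symm z_ne
    · exact Nat.testBit_lt_two_pow ((linS_lt b1 a).trans_le (Nat.pow_le_pow_right (by norm_num) (by omega)))
  have := (lin_linS b2).linS b1 a
  rw [h0, (lin_linS b2).zero, linS_congr (c' := fun i => 2 ^ i) (fun i hi => Nat.eq_of_beq_eq_true (allN_spec om_inv i hi)),
    linS_id, Nat.mod_eq_of_lt ha] at this
  exact this.symm
theorem X_inj {a b : ℕ} (ha : a < 2 ^ 22) (hb : b < 2 ^ 22) (h : EZ (X a) (X b)) : a = b := by
  have h1 : EZ (X (a ^^^ b)) (X a * X a) := (X_mul a b).trans ((EZ.refl _).mul h.symm (X_memN _))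
  have h2 : EZ 1 (X a * X a) := by have := X_mul a a; rwa [Nat.xor_self, X_zero] at this
  have h3 : X (a ^^^ b) ∈ Zs := by have := h2.trans h1.symm; simpa [EZ] using this
  exact Nat.xor_eq_zero_iff.1 (om_zero (Nat.xor_lt_two_pow ha hb) fun k hk => comm_Z (gen_mem (by omega)) h3)
theorem card_Z : Nat.card Zs = 2 := by
  rw [Zs, Nat.card_zpowers]
  exact orderOf_eq_prime (by rw [pow_two, gen_mul_self]) z_ne
theorem card_Q : Nat.card Qg = 2 ^ 23 := by
  rw [card_trans (Zs_le 22) (fun e : Fin (2 ^ 22) => X e) (fun e => X_mem e)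
    (fun a b h => Fin.ext (X_inj a.2 b.2 h)) Q_cover, card_Z, Nat.card_fin]
  norm_num
instance : Finite Qg := Nat.finite_of_card_ne_zero (by rw [card_Q]; norm_num)

def Act (n : GG) (F : ℕ → ℕ) : Prop := n ∈ Ng ∧ Lin F ∧ ∀ a < 2 ^ 22, EZ (X (F a)) (n * X a * n⁻¹)
theorem act_gen {k : ℕ} (hk : k ≤ 43) : Act (gen k) (mv (LT k)) := by
  refine ⟨gen_mem hk, lin_LT k hk, fun a ha => ?_⟩
  have key : ∀ m ≤ 22, EZ (X (linS (fun i => mv (LT k) (2 ^ i)) m a))
      (gen k * bw (fun i => gen (1 + i)) m a * (gen k)⁻¹) := by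
    intro m hm
    induction m with
    | zero => simpa [linS, bw, X_zero] using EZ.refl 1
    | succ m ih =>
      rw [linS_succ, bw]
      cases a.testBit m
      · simpa using ih (by omega)
      · simp only [if_true]
        have := (X_mul _ _).trans ((ih (by omega)).mul (EZ.zb (X (mv (LT k) (2 ^ m))) ((eps k).testBit m)) (X_memN _))
        rw [← cj hk (by omega)] at this
        convert this using 1
        rw [gen_inv]
        calc _ = gen k * bw (fun i => gen (1 + i)) m a * (gen k * gen k) * gen (1 + m) * gen k := by rw [gen_mul_self]; group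
          _ = _ := by group
  rw [(lin_LT k hk).eq_linS ha]
  exact key 22 le_rfl
theorem act_one : Act 1 (fun a => a) := ⟨Ng.one_mem, lin_id, fun a _ => by simpa using EZ.refl _⟩
theorem Act.mul {n n' F F'} (h : Act n F) (h' : Act n' F') : Act (n * n') (fun a => F (F' a)) := by
  refine ⟨Ng.mul_mem h.1 h'.1, h.2.1.comp h'.2.1, fun a ha => ?_⟩
  have := (h.2.2 _ (h'.2.1.1 a ha)).trans ((EZ.conj_iff h.1).2 (h'.2.2 a ha))
  convert this using 1; group
theorem Act.congr {n F F'} (h : Act n F) (e : ∀ a < 2 ^ 22, F' a = F a) : Act n F' :=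
  ⟨h.1, h.2.1.congr e, fun a ha => by rw [e a ha]; exact h.2.2 a ha⟩
theorem Act.tab {n F T} (h : Act n F) (e : okM3 T F = true) : Act n (mv T) := h.congr fun _ ha => mv_eq h.2.1 e ha
def cw (w : List ℕ) (a : ℕ) : ℕ := List.rec a (fun k _ ih => mv (LT k) ih) w
theorem act_wd : ∀ {w : List ℕ}, okW 43 w = true → Act (wd w) (cw w) := by
  intro w
  induction w with
  | nil => intro _; exact act_one
  | cons k w ih =>
    intro h
    simp only [okW, List.all_cons, Bool.and_eq_true, Nat.ble_eq] at h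
    rw [wd_cons]; exact (act_gen h.1).mul (ih h.2)
theorem exists_act {n : GG} (hn : n ∈ Ng) : ∃ F, Act n F :=
  gen_ind (P := fun n => ∃ F, Act n F) ⟨_, act_one⟩ (fun _ hk _ ⟨_, hF⟩ => ⟨_, (act_gen hk).mul hF⟩) n hn
theorem act_Q {q : GG} (hq : q ∈ Qg) : Act q (fun a => a) :=
  gen_ind (P := fun n => Act n (fun a => a)) act_one
    (fun k hk _ hF => ((act_gen (k := k) (le_trans hk (by norm_num))).mul hF).congr fun _ ha => (mv_Q hk ha).symm) q hq
theorem norm_Q {n q : GG} (hn : n ∈ Ng) (hq : q ∈ Qg) : n * q * n⁻¹ ∈ Qg := by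
  obtain ⟨F, hF⟩ := exists_act hn
  obtain ⟨e, he⟩ := Q_cover q hq
  have := Zs_le 22 ((hF.2.2 e e.2).trans ((EZ.conj_iff hn).2 he))
  simpa using Qg.mul_mem (X_mem (F e)) this

/-! points: sets of group elements under conjugation -/
def CS := Set GG
instance : MulAction GG CS where
  smul g S := {x | (g⁻¹ * x * g) ∈ (show Set GG from S)}
  one_smul S := Set.ext fun x => by show 1⁻¹ * x * 1 ∈ (show Set GG from S) ↔ _; simp
  mul_smul g h S := Set.ext fun x => by
    show (g * h)⁻¹ * x * (g * h) ∈ (show Set GG from S) ↔ h⁻¹ * (g⁻¹ * x * g) * h ∈ (show Set GG from S)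
    rw [mul_inv_rev]; simp only [mul_assoc]
def pm (m c : ℕ) : CS := {x : GG | EZ (X c) x ∨ EZ (X (c ^^^ m)) x}
theorem smul_pm {n F} (h : Act n F) {m c : ℕ} (hm : m < 2 ^ 22) (hc : c < 2 ^ 22) (hF : F m = m) :
    n • pm m c = pm m (F c) := by
  refine Set.ext fun x => ?_
  show EZ (X c) (n⁻¹ * x * n) ∨ EZ (X (c ^^^ m)) (n⁻¹ * x * n) ↔ EZ (X (F c)) x ∨ EZ (X (F c ^^^ m)) x
  have key : ∀ a < 2 ^ 22, EZ (X a) (n⁻¹ * x * n) ↔ EZ (X (F a)) x := fun a ha => by
    rw [← EZ.conj_iff h.1, show n * (n⁻¹ * x * n) * n⁻¹ = x by group]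
    exact ⟨fun e => (h.2.2 a ha).trans e, fun e => (h.2.2 a ha).symm.trans e⟩
  rw [key c hc, key _ (Nat.xor_lt_two_pow hc hm), h.2.1.2 c hc m hm, hF]
theorem pm_inj {m c c' : ℕ} (hm : m < 2 ^ 22) (hc : c < 2 ^ 22) (hc' : c' < 2 ^ 22) (h : pm m c = pm m c') :
    c' = c ∨ c' = c ^^^ m := by
  have : X c' ∈ (show Set GG from pm m c) := by rw [h]; exact Or.inl (EZ.refl _)
  rcases this with e | e
  · exact Or.inl (X_inj hc hc' e).symm
  · exact Or.inr (X_inj (Nat.xor_lt_two_pow hc hm) hc' e).symm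
theorem pm_xor (m c : ℕ) : pm m (c ^^^ m) = pm m c := Set.ext fun x => by
  show EZ _ x ∨ EZ _ x ↔ EZ _ x ∨ EZ _ x
  rw [Nat.xor_xor_cancel_right, or_comm]

end
end CfsgH5.BE
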