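import Cfsg.Agent.H5.BF
/-! Baby Monster (helper5): formats of the relation certificates. -/
namespace CfsgH5.BE
open Subgroup CfsgH5.BS
noncomputable section

/-- `s ρ⁻¹ g ∈ K g' K` for `K = gL b`, `s = gen (b + 1)` -/
def DZ (b : ℕ) (ρ g g' : List ℕ) : Prop :=
  ∃ a ∈ gL b, ∃ c ∈ gL b, gen (b + 1) * (wd ρ)⁻¹ * wd g = a * wd g' * c
def lZ (b : ℕ) (ρ g : List ℕ) : List ℕ := red (Nat.succ b :: List.append ρ.reverse g)
def rZ (h g' h2 : List ℕ) : List ℕ := red (List.append h (List.append g' h2))
theorem dz0 {b ρ g h g' h2} (h1 : okW b h = true) (h3 : okW b h2 = true) (e : wd (lZ b ρ g) = wd (rZ h g' h2)) :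
    DZ b ρ g g' := by
  refine ⟨_, wd_gL h1, _, wd_gL h3, ?_⟩
  have := rel_red e
  simp only [List.append_eq, wd_cons, wd_append, wd_reverse] at this
  simpa only [mul_assoc] using this
def cZ (b : ℕ) (ρ g h g' h2 : List ℕ) : Bool := band (okW b h) (band (okW b h2) (chk (lZ b ρ g) (rZ h g' h2)))
def cZa (b : ℕ) (ρ g h g' h2 : List ℕ) : Bool := band (okW b h) (band (okW b h2) (chkA (lZ b ρ g) (rZ h g' h2)))
def cZb (b : ℕ) (ρ g h g' h2 : List ℕ) : Bool := chkA' (lZ b ρ g) (rZ h g' h2)
def cZt (b : ℕ) (ρ g h g' h2 : List ℕ) : Bool := band (okW b h) (band (okW b h2) (lZ b ρ g == rZ h g' h2))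
theorem dz1 {b ρ g h g' h2} (e : cZ b ρ g h g' h2 = true) : DZ b ρ g g' :=
  dz0 (band_spec e).1 (band_spec (band_spec e).2).1 (rel (band_spec (band_spec e).2).2)
theorem dz2 {b ρ g h g' h2} (e : cZa b ρ g h g' h2 = true) (e' : cZb b ρ g h g' h2 = true) : DZ b ρ g g' :=
  dz0 (band_spec e).1 (band_spec (band_spec e).2).1 (relA (band_spec (band_spec e).2).2 e')
theorem dzt {b ρ g h g' h2} (e : cZt b ρ g h g' h2 = true) : DZ b ρ g g' :=
  dz0 (band_spec e).1 (band_spec (band_spec e).2).1 (by rw [beq_iff_eq.1 (band_spec (band_spec e).2).2])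

/-- `g⁻¹ t g ∈ gL b` -/
def TZ (b : ℕ) (t g : List ℕ) : Prop := (wd g)⁻¹ * wd t * wd g ∈ gL b
theorem tz0 {b t g h} (h1 : okW b h = true) (e : wd (red (List.append t g)) = wd (red (List.append g h))) : TZ b t g := by
  have := rel_red e
  simp only [List.append_eq, wd_append] at this
  rw [TZ, mul_assoc, this, inv_mul_cancel_left]; exact wd_gL h1
def cT (b : ℕ) (t g h : List ℕ) : Bool := band (okW b h) (chk (red (List.append t g)) (red (List.append g h)))
def cTa (b : ℕ) (t g h : List ℕ) : Bool := band (okW b h) (chkA (red (List.append t g)) (red (List.append g h)))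
def cTb (t g h : List ℕ) : Bool := chkA' (red (List.append t g)) (red (List.append g h))
def cTt (b : ℕ) (t g h : List ℕ) : Bool := band (okW b h) (red (List.append t g) == red (List.append g h))
theorem tz1 {b t g h} (e : cT b t g h = true) : TZ b t g := tz0 (band_spec e).1 (rel (band_spec e).2)
theorem tz2 {b t g h} (e : cTa b t g h = true) (e' : cTb t g h = true) : TZ b t g :=
  tz0 (band_spec e).1 (relA (band_spec e).2 e')
theorem tzt {b t g h} (e : cTt b t g h = true) : TZ b t g := tz0 (band_spec e).1 (by rw [beq_iff_eq.1 (band_spec e).2])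

/-- a word in the generators commutes with `gen 2` -/
def cC (w : List ℕ) : Bool := band (okW 44 w) (chkC (red w))
theorem cC_spec [Finite Gg] {w : List ℕ} (h : cC w = true) : gen 2 * wd w = wd w * gen 2 := by
  obtain ⟨h1, h2⟩ := band_spec h
  rw [← wd_red]
  refine commC h2 ?_
  have hw : wd (red w) ∈ Gg := by rw [wd_red]; exact wd_gL h1
  have h2' : gen 2 ∈ Gg := gen_mem (by norm_num)
  have hm : gen 2 * ((wd (red w))⁻¹ * gen 2 * wd (red w)) ∈ Gg :=
    mul_mem h2' (mul_mem (mul_mem (inv_mem hw) h2') hw)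
  exact Gg.subtype.isOfFinOrder (isOfFinOrder_of_finite (⟨_, hm⟩ : Gg))
def cjw (g : List ℕ) (k : ℕ) : List ℕ := List.append g (k :: g.reverse)
theorem wd_cjw (g : List ℕ) (k : ℕ) : wd (cjw g k) = wd g * gen k * (wd g)⁻¹ := by
  simp only [cjw, List.append_eq, wd_append, wd_cons, wd_reverse, mul_assoc]
/-- relation for the class of `gen 2` -/
def cD (ρ g h g' : List ℕ) : Bool :=
  band (okW 43 h) (cC (List.append g'.reverse (List.append h (44 :: List.append ρ.reverse g))))
def cS (t g : List ℕ) : Bool := cC (List.append g.reverse (List.append t g))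
/-- order checks for `gen 2 * (w (gen 2) w⁻¹)` -/
def cO (k : ℕ) (w : List ℕ) : Bool :=
  cnd (Nat.ble k 2) (cC (List.append w.reverse (2 :: w)))
    (cnd (Nat.ble k 3) (cC (List.append w.reverse (2 :: cjw w 2)))
      (cC (List.append w.reverse (2 :: List.append (cjw w 2) (2 :: w)))))
theorem cO_spec [Finite Gg] {k : ℕ} {w : List ℕ} (h : cO k w = true) :
    (gen 2 * (wd w * gen 2 * (wd w)⁻¹)) ^ 4 = 1 ∨ (gen 2 * (wd w * gen 2 * (wd w)⁻¹)) ^ 3 = 1 := by
  have dd := gen_mul_self 2
  generalize hd : gen 2 = d at dd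
  generalize hx : wd w = x
  have ee : (x * d * x⁻¹) * (x * d * x⁻¹) = 1 := by
    calc _ = x * (d * d) * x⁻¹ := by group
      _ = 1 := by rw [dd]; group
  unfold cO at h
  cases h2 : Nat.ble k 2
  · cases h3 : Nat.ble k 3
    · rw [h2, h3] at h
      have := cC_spec h
      simp only [List.append_eq, wd_append, wd_cons, wd_reverse, wd_cjw, hd, hx] at this
      have e1 : x * d * x⁻¹ * (d * (x * d * x⁻¹) * d) = d * (x * d * x⁻¹) * d * (x * d * x⁻¹) := by
        calc _ = x * (d * (x⁻¹ * (d * (x * d * x⁻¹ * (d * x))))) * x⁻¹ := by group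
          _ = _ := by rw [this]; group
      generalize x * d * x⁻¹ = e at *
      left
      calc (d * e) ^ 4 = (d * e * d * e) * (d * e * d * e) := by simp only [pow_succ, pow_zero]; group
        _ = (d * e * d * e) * (e * (d * e * d)) := by rw [e1]
        _ = d * e * d * (e * e) * d * e * d := by group
        _ = d * e * (d * d) * e * d := by rw [ee]; group
        _ = d * (e * e) * d := by rw [dd]; group
        _ = 1 := by rw [ee, mul_one, dd]
    · rw [h2, h3] at h
      have := cC_spec h
      simp only [List.append_eq, wd_append, wd_cons, wd_reverse, wd_cjw, hd, hx] at this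
      have e1 : x * d * x⁻¹ * (d * (x * d * x⁻¹)) = d * (x * d * x⁻¹) * d := by
        calc _ = x * (d * (x⁻¹ * (d * (x * d * x⁻¹)))) := by group
          _ = _ := by rw [this]; group
      generalize x * d * x⁻¹ = e at *
      right
      calc (d * e) ^ 3 = (d * e * d) * (e * (d * e)) := by simp only [pow_succ, pow_zero]; group
        _ = d * e * (d * d) * e * d := by rw [e1]; group
        _ = d * (e * e) * d := by rw [dd]; group
        _ = 1 := by rw [ee, mul_one, dd]
  · rw [h2] at h
    have := cC_spec h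
    simp only [List.append_eq, wd_append, wd_cons, wd_reverse, hd, hx] at this
    have e1 : x * d * x⁻¹ * d = d * (x * d * x⁻¹) := by
      calc _ = x * (d * (x⁻¹ * (d * x))) * x⁻¹ := by group
        _ = _ := by rw [this]; group
    generalize x * d * x⁻¹ = e at *
    left
    have : (d * e) * (d * e) = 1 := by
      calc _ = d * (e * d) * e := by group
        _ = (d * d) * (e * e) := by rw [e1]; group
        _ = 1 := by rw [dd, ee, mul_one]
    calc (d * e) ^ 4 = ((d * e) * (d * e)) * ((d * e) * (d * e)) := by simp only [pow_succ, pow_zero]; group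
      _ = 1 := by rw [this, mul_one]

end
end CfsgH5.BE
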