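import Cfsg.Agent.H5.BP
import Cfsg.Agent.H5.BK1
import Cfsg.Agent.H5.BK2
import Cfsg.Agent.H5.BK3
import Cfsg.Agent.H5.BZ0
import Cfsg.Agent.H5.BZ1
import Cfsg.Agent.H5.BZ2
import Cfsg.Agent.H5.BZ3
import Cfsg.Agent.H5.BZ4
import Cfsg.Agent.H5.BZ5
import Cfsg.Agent.H5.BZ6
import Cfsg.Agent.H5.BZ7
import Cfsg.Agent.H5.BZ8
import Cfsg.Agent.H5.BZ9
import Cfsg.Agent.H5.BZ10
import Cfsg.Agent.H5.BZ11
/-! Baby Monster (helper5): the order of the group. -/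
namespace CfsgH5.BE
open Subgroup CfsgH5.BS
noncomputable section

abbrev RL := List (ℕ × List ℕ × ℕ × ℕ)
def cnt (L : RL) (j : ℕ) : ℕ := sumL (fun p => Nat.add (cnd (Nat.beq p.2.2 j) 1 0) (cnd (Nat.beq p.2.1 j) 1 0)) L
theorem cnd_beq (a b : ℕ) : cnd (Nat.beq a b) 1 0 = if a = b then 1 else 0 := by
  cases h : Nat.beq a b
  · rw [if_neg (Nat.ne_of_beq_eq_false h)]; rfl
  · rw [if_pos (Nat.eq_of_beq_eq_true h)]; rfl
theorem sum_lab {N n : ℕ} {L : RL} (hn : totL L = N) (lab : Fin N × Bool → Fin n) (h : ∀ b, (lab b : ℕ) =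
    if b.2 = true then (atL ([], 0, 0) L b.1).2.2 else (atL ([], 0, 0) L b.1).2.1) (j : Fin n) :
    (∑ b, if lab b = j then 1 else 0) = cnt L j := by
  rw [cnt, ← sum_atL ([], 0, 0), hn, ← Fin.sum_univ_eq_sum_range, Fintype.sum_prod_type]
  refine Finset.sum_congr rfl fun i _ => ?_
  rw [Fintype.sum_bool, cnd_beq, cnd_beq]
  simp only [Fin.ext_iff, h, if_true, Bool.false_eq_true, if_false, Nat.add_eq]
theorem tauL : ∀ l ∈ M0, gen 44 * l * gen 44 ∈ Ng := fun l hl => gL_mono (by norm_num) (M0_le (tau_M0 l hl))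
section
variable {α : Type} [MulAction GG α]
def TP (y : ℕ → α) (n : ℕ) (x : α) (L : RL) : Prop :=
  (∀ k ∈ Ng, ∃ j : Fin n, gen 44 • k⁻¹ • x ∈ Orb Ng (y j)) ∧ ((∀ i j : Fin n, y i ∈ Orb Ng (y j) → i = j) →
    ∀ j : Fin n, Nat.card {k : Ng // gen 44 • (k : GG)⁻¹ • x ∈ Orb Ng (y j)} = cnt L j * Nat.card M0)
theorem ub_mem (b : Bool) : ub b ∈ Mg := by
  cases b
  · exact one_mem _
  · exact gen_mem (by norm_num)
theorem tdata {n : ℕ} (y : ℕ → α) {x : α} {gs} {L : RL} {tab} (hg : okG 43 gs = true)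
    (hρ : (L.all fun p => okW 43 p.2.1) = true) (hn : totL L = 46575)
    (hf : forest tab (gs.map Prod.snd) (fun p => cw p.1 2048) L 0 = true) (hT : ∀ g ∈ gs, wd g.1 • x = x)
    (hR : ∀ p ∈ L, (p.2.2.1 < n ∧ gen 44 • (wd p.2.1)⁻¹ • x ∈ Orb Ng (y p.2.2.1)) ∧
      (p.2.2.2 < n ∧ gen 44 • (wd (p.2.1 ++ [1]))⁻¹ • x ∈ Orb Ng (y p.2.2.2))) : TP y n x L := by
  obtain ⟨t, h1, h2, h3, h4⟩ := transL hg hρ hn hf
  let r : Fin 46575 × Bool → GG := fun b => t b.1 * wd (atL ([], 0, 0) L b.1).1 * ub b.2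
  let lb : Fin 46575 × Bool → ℕ := fun b => if b.2 = true then (atL ([], 0, 0) L b.1).2.2 else (atL ([], 0, 0) L b.1).2.1
  have hl : ∀ b, lb b < n ∧ gen 44 • (r b)⁻¹ • x ∈ Orb Ng (y (lb b)) := by
    rintro ⟨j, b⟩
    obtain ⟨p, hp, e⟩ := atL_mem ([], 0, 0) L j (by rw [hn]; exact j.2)
    have tx : (t j)⁻¹ • x = x := by
      rw [inv_smul_eq_iff]
      exact (TG_ind (H := MulAction.stabilizer GG x) hT (h1 j)).symm
    simp only [r, lb, e, mul_assoc, mul_inv_rev (t j), mul_smul, tx]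
    cases b
    · simpa [ub] using (hR p hp).1
    · simpa [ub, wd_append, wd_one] using (hR p hp).2
  have hr : ∀ b, r b ∈ Ng := fun b =>
    mul_mem (mul_mem (TG_le hg (h1 b.1)) (h2 b.1)) (gL_mono (by norm_num) (ub_mem b.2))
  have hinj : ∀ b b', (r b)⁻¹ * r b' ∈ M0 → b = b' := by
    rintro ⟨j, b⟩ ⟨j', b'⟩ h
    have e : j = j' := h3 j j' (by
      have := mul_mem (mul_mem (ub_mem b) (M0_le h)) (inv_mem (ub_mem b'))
      simpa [r, mul_assoc] using this)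
    subst e
    rw [ub_inj (b := b) (b' := b') (by simpa [r, mul_assoc] using h)]
  have hsur : ∀ k ∈ Ng, ∃ b, (r b)⁻¹ * k ∈ M0 := fun k hk => by
    obtain ⟨j, hj⟩ := h4 k hk
    obtain ⟨b, hb⟩ := M_cover _ hj
    exact ⟨(j, b), by simpa [r, mul_assoc] using hb⟩
  refine ⟨fun k hk => ?_, fun hd j => ?_⟩
  · obtain ⟨b, hb⟩ := hsur k hk
    refine ⟨⟨_, (hl b).1⟩, ?_⟩
    have := Orb.smul (hl b).2 (tauL _ (inv_mem hb))
    rwa [← mul_smul, mul_assoc, gen_mul_self, mul_one, mul_smul, mul_inv_rev, inv_inv, mul_smul, smul_inv_smul] at this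
  · rw [count_lab (gen_mul_self 44) (M0_le.trans (gL_mono (by norm_num))) tauL r hr hinj hsur x (fun i : Fin n => y i) hd
      (fun b => ⟨_, (hl b).1⟩) (fun b => (hl b).2) j, sum_lab hn _ (fun _ => rfl)]
theorem closedG {n : ℕ} {y : ℕ → α} {Ls : ℕ → RL} (h : ∀ i < n, TP y n (y i) (Ls i)) (hn : 0 < n) :
    ∀ g ∈ Gg, ∃ j : Fin n, g • y 0 ∈ Orb Ng (y j) := fun g hg =>
  closed (gen_mul_self 44) (fun i : Fin n => y i) (fun i => (h i i.2).1) g (gL_succ 43 ▸ hg) ⟨0, hn⟩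
instance (x : α) : Finite (Orb Ng x) := Finite.of_surjective (fun h : Ng => (⟨(h : GG) • x, h, h.2, rfl⟩ : Orb Ng x))
  (by rintro ⟨_, h, hh, rfl⟩; exact ⟨⟨h, hh⟩, rfl⟩)
def okPar (Ls : ℕ → RL) (par o : ℕ → ℕ) (n : ℕ) : Bool := allN (fun j => bor (Nat.beq j 0) (band (band (Nat.blt (par j) j)
  (Nat.blt 0 (cnt (Ls j) (par j)))) (Nat.beq (Nat.mul (o (par j)) (cnt (Ls (par j)) j)) (Nat.mul (o j) (cnt (Ls j) (par j)))))) n
theorem orb_total {n : ℕ} {y : ℕ → α} {Ls : ℕ → RL} (h : ∀ i < n, TP y n (y i) (Ls i)) (hn : 0 < n)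
    (hy : ∀ i < n, y i ∈ Orb Gg (y 0)) (hd : ∀ i j : Fin n, y i ∈ Orb Ng (y j) → i = j) {par o : ℕ → ℕ}
    (h0 : Nat.card (Orb Ng (y 0)) = o 0) (hp : okPar Ls par o n = true) : Nat.card (Orb Gg (y 0)) = sumN o n := by
  have key : ∀ j < n, Nat.card (Orb Ng (y j)) = o j := by
    intro j
    induction j using Nat.strong_induction_on with
    | _ j ih =>
      intro hj
      have a := allN_spec hp j hj
      cases e : Nat.beq j 0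
      · rw [e] at a
        obtain ⟨a, a3⟩ := band_spec a
        obtain ⟨a1, a2⟩ := band_spec a
        rw [Nat.blt_eq] at a1 a2
        have a4 : o (par j) * cnt (Ls (par j)) j = o j * cnt (Ls j) (par j) := Nat.eq_of_beq_eq_true a3
        have d := dcount (K := Ng) (gen_mul_self 44) (y (par j)) (y j)
        rw [(h _ (a1.trans hj)).2 hd ⟨j, hj⟩, (h _ hj).2 hd ⟨_, a1.trans hj⟩, ih _ a1 (a1.trans hj), ← mul_assoc, ← mul_assoc,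
          a4] at d
        exact (Nat.eq_of_mul_eq_mul_right a2 (Nat.eq_of_mul_eq_mul_right Nat.card_pos d)).symm
      · rw [Nat.eq_of_beq_eq_true e]; exact h0
  rw [sumN_eq, ← Finset.sum_congr rfl fun j hj => key j (Finset.mem_range.1 hj),
    ← Fin.sum_univ_eq_sum_range (fun j => Nat.card (Orb Ng (y j))), ← Nat.card_sigma]
  symm
  refine Nat.card_congr (Equiv.ofBijective (fun q => ⟨q.2, ?_⟩) ⟨?_, ?_⟩)
  · obtain ⟨a, ha, e⟩ := q.2.2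
    rw [e]; exact Orb.smul (hy _ q.1.2) (gL_mono (by norm_num) ha)
  · rintro ⟨i, p, a, ha, e⟩ ⟨j, p', b, hb, e'⟩ q
    obtain rfl : p = p' := congrArg Subtype.val q
    obtain rfl : i = j := hd i j ⟨a⁻¹ * b, mul_mem (inv_mem ha) hb, by rw [mul_smul, ← e', e, inv_smul_smul]⟩
    rfl
  · rintro ⟨_, g, hg, rfl⟩
    obtain ⟨j, hj⟩ := closedG h hn g hg
    exact ⟨⟨j, _, hj⟩, rfl⟩
end

/-! the cosets of `N` -/
def xz (i : ℕ) : GG ⧸ Ng := QuotientGroup.mk (wd (gZ i))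
theorem smul_mk (g a : GG) : g • (QuotientGroup.mk a : GG ⧸ Ng) = QuotientGroup.mk (g * a) := rfl
theorem dz_orb {ρ g g'} (h : DZ 43 ρ g g') :
    gen 44 • (wd ρ)⁻¹ • (QuotientGroup.mk (wd g) : GG ⧸ Ng) ∈ Orb Ng (QuotientGroup.mk (wd g')) := by
  obtain ⟨a, ha, c, hc, e⟩ := h
  refine ⟨a, ha, ?_⟩
  rw [smul_mk, smul_mk, smul_mk, ← mul_assoc, e, QuotientGroup.eq]
  simpa [mul_assoc] using hc
theorem zdata {gs} {L : RL} {tab i} (hg : okG 43 gs = true) (hρ : (L.all fun p => okW 43 p.2.1) = true)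
    (hn : totL L = 46575) (hf : forest tab (gs.map Prod.snd) (fun p => cw p.1 2048) L 0 = true)
    (hT : AllL (fun x => TZ 43 x.1 (gZ i)) gs) (hR : AllL (fun p => (p.2.2.1 < 10 ∧ DZ 43 p.2.1 (gZ i) (gZ p.2.2.1)) ∧
      (p.2.2.2 < 10 ∧ DZ 43 (p.2.1 ++ [1]) (gZ i) (gZ p.2.2.2))) L) : TP xz 10 (xz i) L :=
  tdata xz hg hρ hn hf (fun g hg => by
    have := inv_mem (hT.mem g hg)
    rw [xz, smul_mk, QuotientGroup.eq]
    simpa [mul_assoc] using this)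
    fun p hp => ⟨⟨(hR.mem p hp).1.1, dz_orb (hR.mem p hp).1.2⟩, (hR.mem p hp).2.1, dz_orb (hR.mem p hp).2.2⟩
theorem zd0 : TP xz 10 (xz 0) zL0 := zdata zg0 (by decide +kernel) rfl zf0 ⟨zt0_0, zt0_1, zt0_2, trivial⟩
  ⟨⟨⟨by decide, zr0_0_0⟩, by decide, zr0_0_1⟩, trivial⟩
theorem zd1 : TP xz 10 (xz 1) zL1 := zdata zg1 (by decide +kernel) rfl zf1 ⟨zt1_0, zt1_1, trivial⟩
  ⟨⟨⟨by decide, zr1_0_0⟩, by decide, zr1_0_1⟩, ⟨⟨by decide, zr1_1_0⟩, by decide, zr1_1_1⟩, ⟨⟨by decide, zr1_2_0⟩, by decide, zr1_2_1⟩, ⟨⟨by decide, zr1_3_0⟩, by decide, zr1_3_1⟩, ⟨⟨by decide, zr1_4_0⟩, by decide, zr1_4_1⟩, trivial⟩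
theorem zd2 : TP xz 10 (xz 2) zL2 := zdata zg2 (by decide +kernel) rfl zf2 ⟨zt2_0, zt2_1, trivial⟩
  ⟨⟨⟨by decide, zr2_0_0⟩, by decide, zr2_0_1⟩, ⟨⟨by decide, zr2_1_0⟩, by decide, zr2_1_1⟩, ⟨⟨by decide, zr2_2_0⟩, by decide, zr2_2_1⟩, ⟨⟨by decide, zr2_3_0⟩, by decide, zr2_3_1⟩, ⟨⟨by decide, zr2_4_0⟩, by decide, zr2_4_1⟩, ⟨⟨by decide, zr2_5_0⟩, by decide, zr2_5_1⟩, trivial⟩
theorem zd3 : TP xz 10 (xz 3) zL3 := zdata zg3 (by decide +kernel) rfl zf3 ⟨zt3_0, zt3_1, trivial⟩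
  ⟨⟨⟨by decide, zr3_0_0⟩, by decide, zr3_0_1⟩, ⟨⟨by decide, zr3_1_0⟩, by decide, zr3_1_1⟩, ⟨⟨by decide, zr3_2_0⟩, by decide, zr3_2_1⟩, ⟨⟨by decide, zr3_3_0⟩, by decide, zr3_3_1⟩, trivial⟩
theorem zd4 : TP xz 10 (xz 4) zL4 := zdata zg4 (by decide +kernel) rfl zf4 ⟨zt4_0, zt4_1, trivial⟩
  ⟨⟨⟨by decide, zr4_0_0⟩, by decide, zr4_0_1⟩, ⟨⟨by decide, zr4_1_0⟩, by decide, zr4_1_1⟩, ⟨⟨by decide, zr4_2_0⟩, by decide, zr4_2_1⟩, ⟨⟨by decide, zr4_3_0⟩, by decide, zr4_3_1⟩, ⟨⟨by decide, zr4_4_0⟩, by decide, zr4_4_1⟩, ⟨⟨by decide, zr4_5_0⟩, by decide, zr4_5_1⟩, ⟨⟨by decide, zr4_6_0⟩, by decide, zr4_6_1⟩, ⟨⟨by decide, zr4_7_0⟩, by decide, zr4_7_1⟩, ⟨⟨by decide, zr4_8_0⟩, by decide, zr4_8_1⟩, trivial⟩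
theorem zd5 : TP xz 10 (xz 5) zL5 := zdata zg5 (by decide +kernel) rfl zf5 ⟨zt5_0, zt5_1, trivial⟩
  ⟨⟨⟨by decide, zr5_0_0⟩, by decide, zr5_0_1⟩, ⟨⟨by decide, zr5_1_0⟩, by decide, zr5_1_1⟩, ⟨⟨by decide, zr5_2_0⟩, by decide, zr5_2_1⟩, ⟨⟨by decide, zr5_3_0⟩, by decide, zr5_3_1⟩, ⟨⟨by decide, zr5_4_0⟩, by decide, zr5_4_1⟩, ⟨⟨by decide, zr5_5_0⟩, by decide, zr5_5_1⟩, trivial⟩
theorem zd6 : TP xz 10 (xz 6) zL6 := zdata zg6 (by decide +kernel) rfl zf6 ⟨zt6_0, zt6_1, trivial⟩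
  ⟨⟨⟨by decide, zr6_0_0⟩, by decide, zr6_0_1⟩, ⟨⟨by decide, zr6_1_0⟩, by decide, zr6_1_1⟩, ⟨⟨by decide, zr6_2_0⟩, by decide, zr6_2_1⟩, ⟨⟨by decide, zr6_3_0⟩, by decide, zr6_3_1⟩, ⟨⟨by decide, zr6_4_0⟩, by decide, zr6_4_1⟩, ⟨⟨by decide, zr6_5_0⟩, by decide, zr6_5_1⟩, ⟨⟨by decide, zr6_6_0⟩, by decide, zr6_6_1⟩, ⟨⟨by decide, zr6_7_0⟩, by decide, zr6_7_1⟩, ⟨⟨by decide, zr6_8_0⟩, by decide, zr6_8_1⟩, ⟨⟨by decide, zr6_9_0⟩, by decide, zr6_9_1⟩, ⟨⟨by decide, zr6_10_0⟩, by decide, zr6_10_1⟩, ⟨⟨by decide, zr6_11_0⟩, by decide, zr6_11_1⟩, trivial⟩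
theorem zd7 : TP xz 10 (xz 7) zL7 := zdata zg7 (by decide +kernel) rfl zf7 ⟨zt7_0, zt7_1, trivial⟩
  ⟨⟨⟨by decide, zr7_0_0⟩, by decide, zr7_0_1⟩, ⟨⟨by decide, zr7_1_0⟩, by decide, zr7_1_1⟩, ⟨⟨by decide, zr7_2_0⟩, by decide, zr7_2_1⟩, ⟨⟨by decide, zr7_3_0⟩, by decide, zr7_3_1⟩, ⟨⟨by decide, zr7_4_0⟩, by decide, zr7_4_1⟩, ⟨⟨by decide, zr7_5_0⟩, by decide, zr7_5_1⟩, ⟨⟨by decide, zr7_6_0⟩, by decide, zr7_6_1⟩, ⟨⟨by decide, zr7_7_0⟩, by decide, zr7_7_1⟩, trivial⟩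
theorem zd8 : TP xz 10 (xz 8) zL8 := zdata zg8 (by decide +kernel) rfl zf8 ⟨zt8_0, zt8_1, trivial⟩
  ⟨⟨⟨by decide, zr8_0_0⟩, by decide, zr8_0_1⟩, ⟨⟨by decide, zr8_1_0⟩, by decide, zr8_1_1⟩, ⟨⟨by decide, zr8_2_0⟩, by decide, zr8_2_1⟩, trivial⟩
theorem zd9 : TP xz 10 (xz 9) zL9 := zdata zg9 (by decide +kernel) rfl zf9 ⟨zt9_0, zt9_1, trivial⟩
  ⟨⟨⟨by decide, zr9_0_0⟩, by decide, zr9_0_1⟩, ⟨⟨by decide, zr9_1_0⟩, by decide, zr9_1_1⟩, ⟨⟨by decide, zr9_2_0⟩, by decide, zr9_2_1⟩, ⟨⟨by decide, zr9_3_0⟩, by decide, zr9_3_1⟩, ⟨⟨by decide, zr9_4_0⟩, by decide, zr9_4_1⟩, trivial⟩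
def zLs (i : ℕ) : RL := nth [] [zL0, zL1, zL2, zL3, zL4, zL5, zL6, zL7, zL8, zL9] i
theorem zall : ∀ i < 10, TP xz 10 (xz i) (zLs i) := by
  intro i hi
  interval_cases i
  · exact zd0
  · exact zd1
  · exact zd2
  · exact zd3
  · exact zd4
  · exact zd5
  · exact zd6
  · exact zd7
  · exact zd8
  · exact zd9
theorem comm45N {n : GG} (hn : n ∈ Ng) : gen 45 * n = n * gen 45 :=
  gen_ind (P := fun n => gen 45 * n = n * gen 45) (by simp) (fun k hk g hg => by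
    rw [← mul_assoc, comm45 (Nat.lt_succ_of_le hk), mul_assoc, hg, mul_assoc]) n hn
theorem tr_eq {lo n : ℕ} {J : GG} (hJ : ∀ v i, (J : EndV) v i = if lo ≤ (i : ℕ) ∧ (i : ℕ) < lo + n then - v i else v i)
    {a : GG} (ha : J * a = a * J) {u v t t'} (e : wd u = a * wd v * a⁻¹) (h : chkT lo n t u = true)
    (h' : chkT lo n t' v = true) : t = t' := by
  have a1 := trB_val h
  rw [e, trB_conj hJ ha, trB_val h'] at a1
  exact_mod_cast a1.symm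
def tAl : List ℕ := [17664, 17664, 13568, 9472, 12032, 11776, 12416, 12208, 11184, 12064]
theorem zA : ∀ i < 10, chkT 4304 23 (nth 0 tAl i) (cjw (gZ i) 0) = true := by
  intro i hi
  interval_cases i
  · exact za0
  · exact za1
  · exact za2
  · exact za3
  · exact za4
  · exact za5
  · exact za6
  · exact za7
  · exact za8
  · exact za9
theorem zdisj : ∀ i j : Fin 10, xz i ∈ Orb Ng (xz j) → i = j := by
  rintro i j ⟨a, ha, e⟩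
  rw [xz, xz, smul_mk, QuotientGroup.eq] at e
  have e' : wd (cjw (gZ i) 0) = a * wd (cjw (gZ j) 0) * a⁻¹ := by
    have := comm_z e
    rw [wd_cjw, wd_cjw]
    calc _ = wd (gZ i) * (gen 0 * ((wd (gZ i))⁻¹ * (a * wd (gZ j)))) * (wd (gZ j))⁻¹ * a⁻¹ := by group
      _ = _ := by rw [← this]; group
  have t1 := tr_eq gen45_apply (comm45N ha) e' (zA i i.2) (zA j j.2)
  have t2 : ∀ i j : Fin 10, nth 0 tAl i = nth 0 tAl j → i = j ∨ (i = 0 ∧ j = 1) ∨ (i = 1 ∧ j = 0) := by decide +kernel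
  rcases t2 i j t1 with h | ⟨rfl, rfl⟩ | ⟨rfl, rfl⟩
  · exact h
  · exact absurd (tr_eq gen0_apply (comm_z ha).symm e' zb0 zb1) (by norm_num)
  · exact absurd (tr_eq gen0_apply (comm_z ha).symm e' zb1 zb0) (by norm_num)
theorem gZ_mem (i : ℕ) : wd (gZ i) ∈ Gg :=
  wd_gL (nth_all (P := fun w => okW 44 w = true) rfl gZl (okWs_spec (by decide +kernel)) i)
theorem stab0 (g : GG) : g • xz 0 = xz 0 ↔ g ∈ Ng := by
  rw [xz, smul_mk, QuotientGroup.eq, show wd (gZ 0) = 1 from rfl]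
  simp
theorem card_G : Nat.card Gg = 4154781481226426191177580544000000 := by
  rw [card_orb Gg Ng (xz 0) (gL_mono (by norm_num)) (fun g _ => stab0 g), card_N,
    orb_total zall (by norm_num) (fun i _ => ⟨_, gZ_mem i, by rw [xz, xz, smul_mk]; exact congrArg _ (mul_one _).symm⟩) zdisj
      (par := nth 0 [0, 0, 1, 1, 1, 2, 2, 4, 4, 5])
      (o := nth 0 [1, 93150, 262310400, 7286400, 4196966400, 537211699200, 470060236800, 6685301145600, 9646899200, 4000762036224]) ?_ (by decide +kernel)]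
  · decide +kernel
  · rw [show Orb Ng (xz 0) = {xz 0} from Set.ext fun x => ⟨by rintro ⟨a, ha, rfl⟩; exact (stab0 a).2 ha,
      by rintro rfl; exact Orb.self _ _⟩]
    simp [nth]
instance : Finite Gg := Nat.finite_of_card_ne_zero (by rw [card_G]; norm_num)

end
end CfsgH5.BE
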