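import Cfsg.Agent.H5.BU
/-! Baby Monster (helper5): simplicity. -/
namespace CfsgH5.BE
open Subgroup CfsgH5.BS
noncomputable section

section
variable {K : Subgroup GG} (hn : ∀ g ∈ Gg, ∀ k ∈ K, g * k * g⁻¹ ∈ K)
include hn
theorem of_z (hz : gen 0 ∈ K) : Gg ≤ K := by
  have NG : Ng ≤ Gg := gL_mono (by norm_num)
  have tt : ∀ k ∈ K, gen 44 * k * gen 44 ∈ K := fun k hk => by
    have := hn _ (gen_mem le_rfl) k hk
    rwa [gen_inv] at this
  have hZ : Zs ≤ K := zpowers_le.2 hz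
  have ez : ∀ {x y}, EZ x y → y ∈ K → x ∈ K := fun {x y} h hy => by simpa using mul_mem hy (inv_mem (hZ h))
  obtain ⟨q1, q2⟩ := band_spec qbOk
  have h12 : X (2 ^ 11) ∈ K := by rw [X_pow (by norm_num), ← tau_z]; exact tt _ hz
  have hc : ∀ j, X (cw (nth [] qbW j) 2048) ∈ K := fun j => by
    have a := act_wd (nth_all (P := fun w => okW 43 w = true) (a := []) rfl qbW (okWs_spec q1) j)
    exact ez (a.2.2 _ (by norm_num)) (hn _ (NG a.1) _ h12)
  have hl : ∀ a m, X (linS (fun j => cw (nth [] qbW j) 2048) m a) ∈ K := fun a m => by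
    induction m with
    | zero => show X 0 ∈ K; rw [X_zero]; exact one_mem _
    | succ m ih =>
      rw [linS_succ]
      refine ez (X_mul _ _) (mul_mem ih ?_)
      split_ifs
      · exact hc m
      · rw [X_zero]; exact one_mem _
  have hQ : Qg ≤ K := (closure_le _).2 (by
    rintro _ ⟨k, hk, rfl⟩
    have hk' : k ≤ 22 := hk
    cases k with
    | zero => exact hz
    | succ k =>
      have := hl (nth 0 qbC k) 22
      rwa [Nat.eq_of_beq_eq_true (allN_spec q2 k (by omega)), Nat.pow_eq, X_pow (by omega), add_comm] at this)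
  have hP : Pg ≤ K := (closure_le _).2 (by
    rintro _ ⟨k, hk, rfl⟩
    have hk' : k ≤ 32 := hk
    by_cases h : k ≤ 22
    · exact hQ (gen_mem h)
    · have a : okW 22 (nth [] tcL k) = true := by
        have := allN_spec (show allN (fun i => okW 22 (nth [] tcL (Nat.add 23 i))) 10 = true by decide +kernel) (k - 23)
          (by omega)
        rwa [Nat.add_eq, show 23 + (k - 23) = k by omega] at this
      have := tt _ (hQ (wd_gL a))
      rw [← (tcK (by omega) (by omega)).1, ← mul_assoc, ← mul_assoc, gen_mul_self, one_mul, mul_assoc, gen_mul_self,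
        mul_one] at this
      exact this)
  have tz : ∀ {k n}, okW 44 n = true → TZ 32 [k] n → gen k ∈ K := fun {k n} h1 h2 => by
    have := hn _ (wd_gL h1) _ (hP h2)
    simpa [mul_assoc, wd_one] using this
  refine (closure_le _).2 ?_
  rintro _ ⟨k, hk, rfl⟩
  have hk' : k ≤ 44 := hk
  by_cases h : k ≤ 32
  · exact hP (gen_mem h)
  have h' : 33 ≤ k := by omega
  interval_cases k
  · exact tz rfl pw33
  · exact tz rfl pw34
  · exact tz rfl pw35
  · exact tz rfl pw36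
  · exact tz rfl pw37
  · exact tz rfl pw38
  · exact tz rfl pw39
  · exact tz rfl pw40
  · exact tz rfl pw41
  · exact tz rfl pw42
  · exact tz rfl pw43
  · have e := rel tu3
    rw [wd3, wd3] at e
    have := hn (gen 1) (gen_mem (by norm_num)) _ (tt _ (hQ (gen_mem (k := 1) (by norm_num))))
    rwa [e, gen_inv, ← mul_assoc, ← mul_assoc, gen_mul_self, one_mul, mul_assoc, gen_mul_self, mul_one] at this
theorem of_out {k : GG} (hk : k ∈ K) (hG : k ∈ Gg) (hN : k ∉ Ng) : gen 0 ∈ K := by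
  have NG : Ng ≤ Gg := gL_mono (by norm_num)
  obtain ⟨i, n, hn', e⟩ := closedG zall (by norm_num) k hG
  rw [xz, xz, smul_mk, smul_mk, QuotientGroup.eq, show wd (gZ 0) = 1 from rfl, mul_one] at e
  have loop : ∀ i < 10, i ≠ 0 → ∃ ρ, okW 43 ρ = true ∧ DZ 43 ρ (gZ i) (gZ i) := by
    intro i hi h0
    interval_cases i
    · exact absurd rfl h0
    · exact ⟨_, by decide, zr1_0_1⟩
    · exact ⟨_, by decide, zr2_0_1⟩
    · exact ⟨_, by decide, zr3_0_1⟩
    · exact ⟨_, by decide, zr4_0_1⟩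
    · exact ⟨_, by decide, zr5_0_1⟩
    · exact ⟨_, by decide, zr6_0_1⟩
    · exact ⟨_, by decide, zr7_0_1⟩
    · exact ⟨_, by decide, zr8_0_1⟩
    · exact ⟨_, by decide, zr9_0_1⟩
  obtain ⟨ρ, hρ, a, ha, c, hc, r⟩ := loop i i.2 (by
    intro h0
    rw [h0, show wd (gZ 0) = 1 from rfl, mul_one] at e
    exact hN (by simpa using mul_mem hn' (inv_mem e)))
  have hρ' := wd_gL hρ
  generalize wd (gZ i) = g at *
  generalize wd ρ = p at *
  have h44 : gen 44 ∈ Gg := gen_mem le_rfl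
  have hz : gen 0 ∈ Gg := gen_mem (by norm_num)
  -- `z⁻¹ * (g z g⁻¹) ∈ K`
  have e1 : (gen 0)⁻¹ * (g * gen 0 * g⁻¹) ∈ K := by
    have := hn _ (inv_mem (NG hn')) _ (mul_mem (hn _ (inv_mem hz) _ hk) (inv_mem hk))
    convert this using 1
    have c1 := comm_z e
    have c2 := comm_z hn'
    calc _ = (gen 0)⁻¹ * n⁻¹ * k * (k⁻¹ * (n * g) * gen 0) * g⁻¹ := by group
      _ = (n * gen 0)⁻¹ * k * gen 0 * k⁻¹ * n := by rw [c1]; group
      _ = n⁻¹ * (gen 0)⁻¹ * (gen 0 * n) * (n * gen 0)⁻¹ * k * gen 0 * k⁻¹ * n := by group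
      _ = _ := by rw [← c2]; group
  have e2 := hn _ (mul_mem h44 (inv_mem (NG hρ'))) _ e1
  have e3 := hn _ (NG ha) _ e1
  have e4 : gen 0 * gen 12 ∈ K := by
    have := mul_mem e3 (inv_mem e2)
    convert this using 1
    have c1 := comm_z hc
    have c2 := comm_z ha
    have c3 := comm_z hρ'
    have r' : gen 44 * p⁻¹ * (g * gen 0 * g⁻¹) * (gen 44 * p⁻¹)⁻¹ = a * (g * gen 0 * g⁻¹) * a⁻¹ := by
      calc _ = (gen 44 * p⁻¹ * g) * gen 0 * (gen 44 * p⁻¹ * g)⁻¹ := by group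
        _ = a * g * (c * gen 0) * c⁻¹ * g⁻¹ * a⁻¹ := by rw [r]; group
        _ = _ := by rw [c1]; group
    calc _ = (gen 0)⁻¹ * (gen 44 * gen 0 * (gen 44)⁻¹) := by rw [gen_inv, gen_inv, tau_z]
      _ = a * (gen 0 * a)⁻¹ * (gen 44 * p⁻¹ * (p * gen 0) * (gen 44)⁻¹) := by group
      _ = a * (gen 0)⁻¹ * a⁻¹ * (a * (g * gen 0 * g⁻¹) * a⁻¹) * (a * (g * gen 0 * g⁻¹) * a⁻¹)⁻¹ *
          (gen 44 * p⁻¹ * gen 0 * (gen 44 * p⁻¹)⁻¹) := by rw [← c2, c3]; group
      _ = _ := by nth_rewrite 2 [← r']; group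
  have e5 := hn (gen 1) (gen_mem (by norm_num)) _ e4
  have e6 : gen 12 ∈ K := by
    convert e5 using 1
    have c1 := comm_z (gen_mem (k := 1) (b := 43) (by norm_num))
    have c2 := comm_z (gen_mem (k := 12) (b := 43) (by norm_num))
    rw [← mul_assoc, c1, gen_inv, mul_assoc, mul_assoc, ← mul_assoc (gen 1), u_z', c2, ← mul_assoc, gen_mul_self, one_mul]
  have := hn _ h44 _ e6
  rwa [← tau_z, gen_inv, ← mul_assoc, ← mul_assoc, gen_mul_self, one_mul, mul_assoc, gen_mul_self, mul_one] at this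
end

theorem center_triv {k : GG} (hk : k ∈ Ng) (h : ∀ g ∈ Gg, g * k = k * g) : k = 1 := by
  have NG : Ng ≤ Gg := gL_mono (by norm_num)
  have a : Act k (fun a => a) := ⟨hk, lin_id, fun a _ => by
    rw [← h _ (NG (X_memN a)), mul_inv_cancel_right]; exact EZ.refl _⟩
  obtain ⟨e, he⟩ := Q_cover k (ker_N a)
  have e0 : (e : ℕ) = 0 := om_zero e.2 fun j hj => by
    have c1 := comm_Z (gen_mem (k := j + 1) (b := 43) (by omega)) (inv_mem he)
    have c2 := h _ (gen_mem (k := j + 1) (by omega))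
    calc _ = gen (j + 1) * k * ((X e)⁻¹ * k)⁻¹ := by group
      _ = k * (gen (j + 1) * ((X e)⁻¹ * k)⁻¹) := by rw [c2]; group
      _ = _ := by rw [c1]; group
  rw [e0, X_zero] at he
  rcases he.cases with h1 | h1
  · exact h1
  · exfalso
    rw [one_mul] at h1
    have c := h _ (gen_mem (k := 44) le_rfl)
    have t := tau_z
    rw [← h1, c, mul_assoc, gen_mul_self, mul_one, h1] at t
    have u := u_z'
    rw [← t, comm_z (gen_mem (by norm_num)), mul_assoc, gen_mul_self, mul_one, gen_mul_self] at u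
    exact z_ne u

theorem simpleG : IsSimpleGroup Gg := by
  have hz : gen 0 ∈ Gg := gen_mem (by norm_num)
  have : Nontrivial Gg := ⟨⟨⟨_, hz⟩, 1, fun h => z_ne (congrArg Subtype.val h)⟩⟩
  refine ⟨fun H hH => ?_⟩
  have hn : ∀ g ∈ Gg, ∀ k ∈ H.map Gg.subtype, g * k * g⁻¹ ∈ H.map Gg.subtype := by
    rintro g hg _ ⟨k, hk, rfl⟩
    exact ⟨_, hH.conj_mem k hk ⟨g, hg⟩, rfl⟩
  by_cases h : ∀ k ∈ H, (k : GG) ∈ Ng
  · left
    rw [eq_bot_iff]
    intro k hk
    have := of_z (K := centralizer (H.map Gg.subtype : Set GG)) (fun g hg x hx => ?_) ?_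
    · exact mem_bot.2 (Subtype.ext (center_triv (h k hk) fun g hg =>
        (mem_centralizer_iff.1 (this hg) k ⟨k, hk, rfl⟩).symm))
    · rw [mem_centralizer_iff] at hx ⊢
      intro y hy
      have := hx _ (hn _ (inv_mem hg) y hy)
      calc _ = g * (g⁻¹ * y * g⁻¹⁻¹ * x) * g⁻¹ := by group
        _ = _ := by rw [this]; group
    · rw [mem_centralizer_iff]
      rintro _ ⟨y, hy, rfl⟩
      exact comm_z (h y hy)
  · right
    push Not at h
    obtain ⟨k, hk, hN⟩ := h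
    have := of_z hn (of_out hn ⟨k, hk, rfl⟩ k.2 hN)
    rw [eq_top_iff]
    intro g _
    obtain ⟨g', hg', e⟩ := this g.2
    rwa [← Subtype.ext e]

end
end CfsgH5.BE
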