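import Cfsg.Agent.H5.BV
import Cfsg.Agent.H5.BK4
import Cfsg.Agent.H5.BD0
import Cfsg.Agent.H5.BD1
/-! Baby Monster (helper5): the class of 4-transpositions. -/
namespace CfsgH5.BE
open Subgroup CfsgH5.BS
noncomputable section

def CJ := GG
def cjf (g x : GG) : GG := g * x * g⁻¹
theorem cjf_one (x : GG) : cjf 1 x = x := by simp [cjf]
theorem cjf_mul (g h x : GG) : cjf (g * h) x = cjf g (cjf h x) := by simp [cjf, mul_assoc]
instance : MulAction GG CJ where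
  smul := cjf
  one_smul := cjf_one
  mul_smul := cjf_mul
def toJ (x : GG) : CJ := x
theorem smul_J (g x : GG) : g • toJ x = toJ (g * x * g⁻¹) := rfl
theorem toJ_inj {x y : GG} (h : toJ x = toJ y) : x = y := h
def dJ : CJ := toJ (gen 2)
theorem J_eq {g y : GG} (h : g • dJ = toJ y) : g * gen 2 * g⁻¹ = y := h
theorem J_eq' {g g' : GG} (h : g • dJ = g' • dJ) : g * gen 2 * g⁻¹ = g' * gen 2 * g'⁻¹ := h
def xd (i : ℕ) : CJ := wd (gD i) • dJ
theorem cC_smul {w} (h : cC w = true) : wd w • dJ = dJ := by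
  rw [dJ, smul_J, ← cC_spec h, mul_inv_cancel_right]
theorem cD_orb {ρ g h g'} (e : cD ρ g h g' = true) : gen 44 • (wd ρ)⁻¹ • wd g • dJ ∈ Orb Ng (wd g' • dJ) := by
  obtain ⟨a, b⟩ := band_spec e
  have := cC_smul b
  simp only [List.append_eq, wd_append, wd_cons, wd_reverse, mul_smul] at this
  rw [inv_smul_eq_iff, smul_eq_iff_eq_inv_smul] at this
  exact ⟨_, inv_mem (wd_gL a), this⟩
theorem cS_fix {t g} (e : cS t g = true) : wd t • wd g • dJ = wd g • dJ := by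
  have := cC_smul e
  simp only [List.append_eq, wd_append, wd_reverse, mul_smul] at this
  rwa [inv_smul_eq_iff] at this
theorem ddata {gs} {L : RL} {tab i} (hg : okG 43 gs = true) (hρ : (L.all fun p => okW 43 p.2.1) = true)
    (hn : totL L = 46575) (hf : forest tab (gs.map Prod.snd) (fun p => cw p.1 2048) L 0 = true)
    (hT : AllL (fun x => cS x.1 (gD i) = true) gs)
    (hR : AllL (fun p => (p.2.2.1 < 5 ∧ ∃ h, cD p.2.1 (gD i) h (gD p.2.2.1) = true) ∧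
      (p.2.2.2 < 5 ∧ ∃ h, cD (p.2.1 ++ [1]) (gD i) h (gD p.2.2.2) = true)) L) : TP xd 5 (xd i) L :=
  tdata xd hg hρ hn hf (fun g hg => cS_fix (hT.mem g hg)) fun p hp =>
    ⟨⟨(hR.mem p hp).1.1, cD_orb (hR.mem p hp).1.2.choose_spec⟩, (hR.mem p hp).2.1, cD_orb (hR.mem p hp).2.2.choose_spec⟩
theorem dT0 : AllL (fun x => cS x.1 (gD 0) = true) dG0 := ⟨dt0_0, dt0_1, trivial⟩
theorem dd0 : TP xd 5 (xd 0) dL0 := ddata dg0 (by decide +kernel) rfl df0 dT0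
  ⟨⟨⟨by decide, _, dr0_0_0⟩, by decide, _, dr0_0_1⟩, ⟨⟨by decide, _, dr0_1_0⟩, by decide, _, dr0_1_1⟩, ⟨⟨by decide, _, dr0_2_0⟩, by decide, _, dr0_2_1⟩, trivial⟩
theorem dT1 : AllL (fun x => cS x.1 (gD 1) = true) dG1 := ⟨dt1_0, dt1_1, trivial⟩
theorem dd1 : TP xd 5 (xd 1) dL1 := ddata dg1 (by decide +kernel) rfl df1 dT1
  ⟨⟨⟨by decide, _, dr1_0_0⟩, by decide, _, dr1_0_1⟩, ⟨⟨by decide, _, dr1_1_0⟩, by decide, _, dr1_1_1⟩, ⟨⟨by decide, _, dr1_2_0⟩, by decide, _, dr1_2_1⟩, ⟨⟨by decide, _, dr1_3_0⟩, by decide, _, dr1_3_1⟩, trivial⟩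
theorem dT2 : AllL (fun x => cS x.1 (gD 2) = true) dG2 := ⟨dt2_0, dt2_1, trivial⟩
theorem dd2 : TP xd 5 (xd 2) dL2 := ddata dg2 (by decide +kernel) rfl df2 dT2
  ⟨⟨⟨by decide, _, dr2_0_0⟩, by decide, _, dr2_0_1⟩, ⟨⟨by decide, _, dr2_1_0⟩, by decide, _, dr2_1_1⟩, ⟨⟨by decide, _, dr2_2_0⟩, by decide, _, dr2_2_1⟩, ⟨⟨by decide, _, dr2_3_0⟩, by decide, _, dr2_3_1⟩, ⟨⟨by decide, _, dr2_4_0⟩, by decide, _, dr2_4_1⟩, trivial⟩
theorem dT3 : AllL (fun x => cS x.1 (gD 3) = true) dG3 := ⟨dt3_0, dt3_1, trivial⟩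
theorem dd3 : TP xd 5 (xd 3) dL3 := ddata dg3 (by decide +kernel) rfl df3 dT3
  ⟨⟨⟨by decide, _, dr3_0_0⟩, by decide, _, dr3_0_1⟩, ⟨⟨by decide, _, dr3_1_0⟩, by decide, _, dr3_1_1⟩, ⟨⟨by decide, _, dr3_2_0⟩, by decide, _, dr3_2_1⟩, ⟨⟨by decide, _, dr3_3_0⟩, by decide, _, dr3_3_1⟩, trivial⟩
theorem dT4 : AllL (fun x => cS x.1 (gD 4) = true) dG4 := ⟨dt4_0, dt4_1, trivial⟩
theorem dd4 : TP xd 5 (xd 4) dL4 := ddata dg4 (by decide +kernel) rfl df4 dT4
  ⟨⟨⟨by decide, _, dr4_0_0⟩, by decide, _, dr4_0_1⟩, ⟨⟨by decide, _, dr4_1_0⟩, by decide, _, dr4_1_1⟩, ⟨⟨by decide, _, dr4_2_0⟩, by decide, _, dr4_2_1⟩, trivial⟩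
def dLs (i : ℕ) : RL := nth [] [dL0, dL1, dL2, dL3, dL4] i
theorem dall : ∀ i < 5, TP xd 5 (xd i) (dLs i) := by
  intro i hi
  interval_cases i
  · exact dd0
  · exact dd1
  · exact dd2
  · exact dd3
  · exact dd4
def tDl : List ℕ := [17664, 9472, 12032, 10880, 11184]
theorem dA : ∀ i < 5, chkT 4304 23 (nth 0 tDl i) (cjw (gD i) 2) = true := by
  intro i hi
  interval_cases i
  · exact da0
  · exact da1
  · exact da2
  · exact da3
  · exact da4
theorem ddisj : ∀ i j : Fin 5, xd i ∈ Orb Ng (xd j) → i = j := by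
  rintro i j ⟨a, ha, e⟩
  rw [xd, xd, dJ, smul_J, smul_J, smul_J, ← wd_cjw, ← wd_cjw] at e
  have t2 : ∀ i j : Fin 5, nth 0 tDl i = nth 0 tDl j → i = j := by decide +kernel
  exact t2 i j (tr_eq gen45_apply (comm45N ha) (toJ_inj e) (dA i i.2) (dA j j.2))
def qb (b : Bool) : GG := Bool.rec 1 (gen 18) b
theorem qb_mem (b : Bool) : qb b ∈ Qg := by
  cases b
  · exact one_mem _
  · exact gen_mem (by norm_num)
theorem q_d : gen 18 • dJ = toJ (gen 2 * gen 0) := by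
  have := cjQ (k := 18) (by norm_num) (i := 1) (by norm_num)
  rw [show (eps 18).testBit 1 = true by decide +kernel] at this
  rw [dJ, smul_J, gen_inv]; exact congrArg toJ this
theorem X_two : X 2 = gen 2 := X_pow (i := 1) (by norm_num)
theorem p0_iff {m : GG} (hm : m ∈ Ng) : m • pm 0 2 = pm 0 2 ↔ EZ (gen 2) (m * gen 2 * m⁻¹) := by
  obtain ⟨F, hF⟩ := exists_act hm
  have a := hF.2.2 2 (by norm_num)
  have l := hF.2.1.1 2 (by norm_num)
  rw [smul_p0 hF (by norm_num)]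
  constructor
  · intro h
    rwa [p0_inj l (by norm_num) h, X_two] at a
  · intro h
    rw [X_two] at a
    rw [X_inj l (by norm_num : 2 < 2 ^ 22) (by rw [X_two]; exact a.trans h.symm)]
theorem EZ_of {x y : GG} (h : x = y) : EZ x y := h ▸ EZ.refl x
theorem dtrans {gs} {L : RL} {tab} (hg : okG 43 gs = true) (hρ : (L.all fun p => okW 43 p.2.1) = true)
    (hn : totL L = 2300) (hf : forest tab (gs.map Prod.snd) (fun p => cw p.1 2) L 0 = true) :
    ∃ t : Fin 2300 → GG, (∀ j, t j ∈ TG gs) ∧ (∀ j : Fin 2300, wd (atL ([], 0, 0) L j).1 ∈ Ng) ∧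
      (∀ j b j' b', (t j * wd (atL ([], 0, 0) L j).1 * qb b) • dJ = (t j' * wd (atL ([], 0, 0) L j').1 * qb b') • dJ →
        j = j' ∧ b = b') ∧ ∀ n ∈ Ng, ∃ j b, n • dJ = (t j * wd (atL ([], 0, 0) L j).1 * qb b) • dJ := by
  obtain ⟨t, h1, h2, h3, h4⟩ := forest_reps (H := HD) le_rfl HD_sl (by norm_num) HD_orb hg ([], 0, 0) Prod.fst hρ hn hf
  have hr := fun j => mul_mem (TG_le hg (h1 j)) (h2 j)
  have QN : Qg ≤ Ng := gL_mono (by norm_num)
  refine ⟨t, h1, h2, fun j b j' b' h => ?_, fun n hn => ?_⟩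
  · have e : j = j' := h3 j j' (by
      rw [← inv_smul_eq_iff, ← mul_smul] at h
      have := (p0_iff (mul_mem (inv_mem (mul_mem (hr j') (QN (qb_mem b')))) (mul_mem (hr j) (QN (qb_mem b))))).2 (EZ_of (J_eq h).symm)
      rwa [mul_smul, inv_smul_eq_iff, mul_smul _ (qb b), mul_smul _ (qb b'), smul_p0 (act_Q (qb_mem b)) (by norm_num),
        smul_p0 (act_Q (qb_mem b')) (by norm_num)] at this)
    subst e
    refine ⟨rfl, ?_⟩
    rw [mul_smul _ (qb b), mul_smul _ (qb b'), smul_left_cancel_iff] at h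
    have ne : gen 18 • dJ ≠ dJ := fun h => z_ne (by rw [q_d] at h; simpa using toJ_inj h)
    cases b <;> cases b'
    · rfl
    · exact absurd (by simpa [qb] using h.symm) ne
    · exact absurd (by simpa [qb] using h) ne
    · rfl
  · obtain ⟨j, hj⟩ := h4 n hn
    rw [← inv_smul_eq_iff, ← mul_smul] at hj
    rcases ((p0_iff (mul_mem (inv_mem (hr j)) hn)).1 hj).cases with e | e
    · refine ⟨j, false, ?_⟩
      rw [mul_smul _ (qb _), ← inv_smul_eq_iff, ← mul_smul]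
      simp only [qb, one_smul]
      exact congrArg toJ e
    · refine ⟨j, true, ?_⟩
      rw [mul_smul _ (qb _), ← inv_smul_eq_iff, ← mul_smul]
      simp only [qb, q_d]
      exact congrArg toJ e
theorem xd0 : xd 0 = dJ := one_smul GG _
theorem card_d0 : Nat.card (Orb Ng dJ) = 4600 := by
  obtain ⟨t, h1, h2, h3, h4⟩ := dtrans (L := dO0) dg0 (by decide +kernel) rfl de0
  rw [← Nat.card_congr (Equiv.ofBijective (fun q : Fin 2300 × Bool => (⟨_, _, mul_mem (mul_mem (TG_le dg0 (h1 q.1)) (h2 q.1))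
    (gL_mono (by norm_num) (qb_mem q.2)), rfl⟩ : Orb Ng dJ)) ⟨fun q q' e =>
      Prod.ext (h3 _ _ _ _ (congrArg Subtype.val e)).1 (h3 _ _ _ _ (congrArg Subtype.val e)).2, ?_⟩), Nat.card_prod, Nat.card_fin]
  · simp
  · rintro ⟨_, n, hn, rfl⟩
    obtain ⟨j, b, e⟩ := h4 n hn
    exact ⟨(j, b), Subtype.ext e.symm⟩
theorem gD_mem (i : ℕ) : wd (gD i) ∈ Gg :=
  wd_gL (nth_all (P := fun w => okW 44 w = true) rfl gDl (okWs_spec (by decide +kernel)) i)
theorem card_D : Nat.card (Orb Gg dJ) = 13571955000 := by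
  rw [← xd0, orb_total dall (by norm_num) (fun i _ => ⟨_, gD_mem i, by rw [xd0]; rfl⟩) ddisj
    (par := nth 0 [0, 0, 0, 1, 2]) (o := nth 0 [4600, 3643200, 190771200, 3730636800, 9646899200])
    (by rw [xd0]; exact card_d0) (by decide +kernel)]
  decide +kernel

def P4 (a b : GG) : Prop := (a * b) ^ 4 = 1 ∨ (a * b) ^ 3 = 1
theorem P4.conj {a b : GG} (h : P4 a b) (g : GG) : P4 (g * a * g⁻¹) (g * b * g⁻¹) := by
  unfold P4 at *
  rw [show g * a * g⁻¹ * (g * b * g⁻¹) = g * (a * b) * g⁻¹ by group, conj_pow, conj_pow]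
  rcases h with h | h <;> simp [h]
theorem odata {gs} {L : RL} {tab i} (hg : okG 43 gs = true) (hρ : (L.all fun p => okW 43 p.2.1) = true)
    (hn : totL L = 2300) (hf : forest tab (gs.map Prod.snd) (fun p => cw p.1 2) L 0 = true)
    (hT : AllL (fun x => cS x.1 (gD i) = true) gs)
    (hR : AllL (fun p => cO p.2.2.1 (List.append (List.reverse p.2.1) (gD i)) = true ∧
      cO p.2.2.2 (List.append (List.reverse (p.2.1 ++ [18])) (gD i)) = true) L) :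
    ∀ n ∈ Ng, P4 (gen 2) (n * wd (gD i) * gen 2 * (n * wd (gD i))⁻¹) := by
  intro n hn'
  obtain ⟨t, h1, -, -, h4⟩ := dtrans hg hρ hn hf
  obtain ⟨j, b, e⟩ := h4 _ (inv_mem hn')
  obtain ⟨p, hp, e'⟩ := atL_mem ([], 0, 0) L j (by rw [hn]; exact j.2)
  have f : t j • xd i = xd i := TG_ind (H := MulAction.stabilizer GG (xd i)) (fun g hg => cS_fix (hT.mem g hg)) (h1 j)
  have key : P4 (gen 2) ((wd p.2.1 * qb b)⁻¹ * wd (gD i) * gen 2 * ((wd p.2.1 * qb b)⁻¹ * wd (gD i))⁻¹) := by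
    cases b
    · have := cO_spec (hR.mem p hp).1
      simp only [List.append_eq, wd_append, wd_reverse] at this
      simpa only [P4, qb, mul_one] using this
    · have := cO_spec (hR.mem p hp).2
      simp only [List.append_eq, wd_append, wd_reverse, wd_one] at this
      exact this
  rw [e', inv_smul_eq_iff, ← mul_smul] at e
  have e1 := J_eq e.symm
  have e2 : t j * (wd (gD i) * gen 2 * (wd (gD i))⁻¹) * (t j)⁻¹ = wd (gD i) * gen 2 * (wd (gD i))⁻¹ := f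
  have := key.conj (n * (t j * wd p.2.1 * qb b))
  rw [e1] at this
  convert this using 1
  calc _ = n * (wd (gD i) * gen 2 * (wd (gD i))⁻¹) * n⁻¹ := by group
    _ = n * (t j * (wd (gD i) * gen 2 * (wd (gD i))⁻¹) * (t j)⁻¹) * n⁻¹ := by rw [e2]
    _ = _ := by group
theorem oall : ∀ i < 5, ∀ n ∈ Ng, P4 (gen 2) (n * wd (gD i) * gen 2 * (n * wd (gD i))⁻¹) := by
  intro i hi
  interval_cases i
  · exact odata (L := dO0) dg0 (by decide +kernel) rfl de0 dT0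
      ⟨⟨do0_0_0, do0_0_1⟩, ⟨do0_1_0, do0_1_1⟩, ⟨do0_2_0, do0_2_1⟩, trivial⟩
  · exact odata (L := dO1) dg1 (by decide +kernel) rfl de1 dT1
      ⟨⟨do1_0_0, do1_0_1⟩, ⟨do1_1_0, do1_1_1⟩, ⟨do1_2_0, do1_2_1⟩, trivial⟩
  · exact odata (L := dO2) dg2 (by decide +kernel) rfl de2 dT2
      ⟨⟨do2_0_0, do2_0_1⟩, ⟨do2_1_0, do2_1_1⟩, ⟨do2_2_0, do2_2_1⟩, trivial⟩
  · exact odata (L := dO3) dg3 (by decide +kernel) rfl de3 dT3
      ⟨⟨do3_0_0, do3_0_1⟩, ⟨do3_1_0, do3_1_1⟩, ⟨do3_2_0, do3_2_1⟩, trivial⟩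
  · exact odata (L := dO4) dg4 (by decide +kernel) rfl de4 dT4
      ⟨⟨do4_0_0, do4_0_1⟩, ⟨do4_1_0, do4_1_1⟩, ⟨do4_2_0, do4_2_1⟩, trivial⟩
theorem p4_all {a b : GG} (ha : a ∈ Gg) (hb : b ∈ Gg) : P4 (a * gen 2 * a⁻¹) (b * gen 2 * b⁻¹) := by
  obtain ⟨i, n, hn, e⟩ := closedG dall (by norm_num) _ (mul_mem (inv_mem ha) hb)
  rw [xd0, xd, ← mul_smul] at e
  have := (oall i i.2 n hn).conj a
  rw [← J_eq' e] at this
  convert this using 1
  group

def dG : Gg := ⟨gen 2, gen_mem (by norm_num)⟩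
theorem d_ne : gen 2 ≠ 1 := fun h => by
  have := X_inj (a := 2) (b := 0) (by norm_num) (by norm_num) (by rw [X_two, X_zero, h]; exact EZ.refl _)
  omega
theorem mem_D {x : Gg} (h : x ∈ conjugatesOf dG) : ∃ g : Gg, x = g * dG * g⁻¹ := by
  obtain ⟨g, hg⟩ := isConj_iff.1 h
  exact ⟨g, hg.symm⟩
theorem card_D' : Nat.card (conjugatesOf dG) = 13571955000 := by
  rw [← card_D]
  refine Nat.card_congr (Equiv.ofBijective (fun x => ⟨toJ x.1.1, ?_⟩) ⟨fun x y e => ?_, ?_⟩)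
  · obtain ⟨g, hg⟩ := mem_D x.2
    exact ⟨g, g.2, by rw [hg]; rfl⟩
  · have e' : toJ x.1.1 = toJ y.1.1 := congrArg (fun p : Orb Gg dJ => p.1) e
    exact Subtype.ext (Subtype.ext (toJ_inj e'))
  · rintro ⟨_, g, hg, rfl⟩
    exact ⟨⟨_, isConj_iff.2 ⟨⟨g, hg⟩, rfl⟩⟩, rfl⟩
theorem ord_D : ∀ x ∈ conjugatesOf dG, orderOf x = 2 := fun x hx => by
  obtain ⟨g, rfl⟩ := mem_D hx
  refine orderOf_eq_prime ?_ fun h => d_ne ?_
  · rw [conj_pow, show dG ^ 2 = 1 from Subtype.ext (by rw [pow_two]; exact gen_mul_self 2)]; simp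
  · rw [mul_inv_eq_one, mul_eq_left] at h
    exact congrArg Subtype.val h
theorem ord4_D : ∀ x ∈ conjugatesOf dG, ∀ y ∈ conjugatesOf dG, orderOf (x * y) ≤ 4 := fun x hx y hy => by
  obtain ⟨g, rfl⟩ := mem_D hx
  obtain ⟨g', rfl⟩ := mem_D hy
  rcases p4_all g.2 g'.2 with h | h
  · exact orderOf_le_of_pow_eq_one (by norm_num) (Subtype.ext h)
  · exact (orderOf_le_of_pow_eq_one (by norm_num) (Subtype.ext h)).trans (by norm_num)
theorem cent_D : ∀ x ∈ conjugatesOf dG, Nat.card (centralizer ({x} : Set Gg)) = 306129918735099415756800 := fun x hx => by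
  obtain ⟨g, hg⟩ := mem_D hx
  have e : Orb Gg (toJ x) = Orb Gg dJ := Set.ext fun y => by
    have : toJ x = (g : GG) • dJ := by rw [hg]; rfl
    rw [this]
    constructor
    · rintro ⟨a, ha, rfl⟩; exact Orb.smul (Orb.smul (Orb.self _ _) g.2) ha
    · rintro ⟨a, ha, rfl⟩; exact ⟨a * (g : GG)⁻¹, mul_mem ha (inv_mem g.2), by rw [mul_smul, inv_smul_smul]⟩
  have := card_orb Gg ((centralizer ({x} : Set Gg)).map Gg.subtype) (toJ x) (map_subtype_le _) fun a ha => by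
    rw [smul_J]
    constructor
    · intro h
      refine ⟨⟨a, ha⟩, mem_centralizer_singleton_iff.2 (Subtype.ext ?_), rfl⟩
      exact mul_inv_eq_iff_eq_mul.1 (toJ_inj h)
    · rintro ⟨b, hb, rfl⟩
      exact congrArg toJ (mul_inv_eq_iff_eq_mul.2 (congrArg Subtype.val (mem_centralizer_singleton_iff.1 hb)))
  rw [e, card_D, card_G, card_map_of_injective Gg.subtype_injective] at this
  omega

end
end CfsgH5.BE
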