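import Cfsg.Agent.H5.BR
/-! Baby Monster (helper5): double coset representatives (generated). -/
set_option Elab.async false
set_option linter.all false
namespace CfsgH5.BE
noncomputable section
noncomputable def gZl : List (List ℕ) := [[], [44], [44, 43, 33, 43, 44], [44, 43, 35, 43, 44], [44, 43, 33, 43, 37, 43, 44], [44, 43, 33, 43, 35, 44, 43, 33, 43, 44], [44, 43, 33, 43, 41, 44, 43, 33, 43, 44], [44, 43, 33, 43, 37, 43, 44, 43, 33, 43, 37, 43, 44], [44, 43, 33, 43, 37, 43, 37, 44, 43, 33, 43, 37, 43, 44], [44, 43, 33, 43, 35, 44, 43, 33, 43, 35, 44, 43, 33, 43, 44]]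
noncomputable def gZ (i : ℕ) : List ℕ := nth [] gZl i
noncomputable def gDl : List (List ℕ) := [[], [44, 43, 33], [44, 43, 33, 43, 33], [44, 43, 33, 43, 33, 44, 43, 33], [44, 43, 33, 43, 37, 43, 44, 43, 33, 43, 33]]
noncomputable def gD (i : ℕ) : List ℕ := nth [] gDl i
end
end CfsgH5.BE
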