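/-
A binomial coefficient `(k + m).choose m` with `2 ≤ m ≤ k` has a prime factor at most `k`, except
for `7.choose 3`.
-/
import Mathlib

set_option autoImplicit false

namespace CfsgH5

open Finset Nat

theorem asc_split (a s : ℕ) :
    a.ascFactorial (2 * s) = (∏ i ∈ range s, (a + 2 * i)) * ∏ i ∈ range s, (a + 1 + 2 * i) := by
  induction s with
  | zero => simp
  | succ s ih =>
    rw [show 2 * (s + 1) = 2 * s + 1 + 1 by ring, ascFactorial_succ, ascFactorial_succ, ih,
      prod_range_succ, prod_range_succ]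
    ring

theorem prod_even (l s : ℕ) :
    ∏ i ∈ range s, (2 * (l + 1) + 2 * i) = 2 ^ s * (s ! * (l + s).choose s) := by
  rw [← ascFactorial_eq_factorial_mul_choose]
  induction s with
  | zero => simp
  | succ s ih => rw [prod_range_succ, ih, ascFactorial_succ]; ring

theorem odd_dvd_prod {u t : ℕ} (a : ℕ) (hu : Odd u) (h : u ∣ t !) :
    u ∣ ∏ i ∈ range t, (a + 2 * i) := by
  obtain ⟨w, rfl⟩ := hu
  have h1 : ∏ i ∈ range t, (a + 2 * i) ≡ ∏ i ∈ range t, 2 * (a * (w + 1) + i) [MOD 2 * w + 1] :=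
    Nat.ModEq.prod fun i _ => ((Nat.modEq_iff_dvd' (by nlinarith)).2 ⟨a, by
      rw [Nat.sub_eq_iff_eq_add (by nlinarith)]; ring⟩)
  rw [(h1.dvd_iff dvd_rfl), prod_mul_distrib, ← Nat.ascFactorial_eq_prod_range]
  exact (h.trans (factorial_dvd_ascFactorial _ _)).mul_left _

theorem binom_core {k m C a l s t : ℕ} (hC : ∀ p, p.Prime → p ≤ k → ¬ p ∣ C) (h2 : 2 ≤ k)
    (h : m ! * C = (∏ i ∈ range t, (a + 2 * i)) * (2 ^ s * (s ! * (l + s).choose s))) (ha : 0 < a)
    (h3 : l + s ≤ k) (h4 : t ≤ k) (h5 : t ≠ 0) :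
    2 ^ (s + 1) * (t ! * (s ! * (l + s).choose s)) ≤ 2 ^ t * m ! := by
  obtain ⟨j, u, hu, e⟩ := exists_eq_two_pow_mul_odd (factorial_ne_zero t)
  have hj : j < t := by
    have h6 := emultiplicity_two_factorial_lt h5
    have h7 : (j : ℕ∞) ≤ emultiplicity 2 t ! := le_emultiplicity_of_pow_dvd ⟨u, e⟩
    exact_mod_cast h7.trans_lt h6
  have hE : C.Coprime (2 ^ s * (s ! * (l + s).choose s)) := coprime_of_dvd fun p hp h6 h7 => by
    refine hC p hp ?_ h6
    rcases (hp.dvd_mul).1 h7 with h8 | h8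
    · exact (Nat.le_of_dvd two_pos (hp.dvd_of_dvd_pow h8)).trans h2
    · refine (hp.dvd_factorial.1 (h8.trans ⟨l !, ?_⟩)).trans h3
      rw [← add_choose_mul_factorial_mul_factorial]; ring
  have hU : C.Coprime u := coprime_of_dvd fun p hp h6 h7 =>
    hC p hp ((hp.dvd_factorial.1 (h7.trans ⟨2 ^ j, by rw [e, mul_comm]⟩)).trans h4) h6
  have h6 := Nat.le_of_dvd (prod_pos fun i _ => by omega) (hU.mul_dvd_of_dvd_of_dvd
    (hE.dvd_of_dvd_mul_right ⟨m !, by rw [← h, mul_comm]⟩)
    (odd_dvd_prod a hu ⟨2 ^ j, by rw [e, mul_comm]⟩))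
  have hC0 : 0 < C := Nat.pos_of_ne_zero fun h0 => hC 2 prime_two h2 (h0 ▸ dvd_zero 2)
  have h7 : u * (2 ^ s * (s ! * (l + s).choose s)) ≤ m ! := by
    refine Nat.le_of_mul_le_mul_right ?_ hC0
    rw [h, mul_comm _ C, ← mul_assoc]
    exact Nat.mul_le_mul_right _ h6
  calc _ = 2 ^ (j + 1) * (u * (2 ^ s * (s ! * (l + s).choose s))) := by rw [e]; ring
    _ ≤ _ := Nat.mul_le_mul (Nat.pow_le_pow_right two_pos hj) h7

theorem no_carry {k m p : ℕ} (hp : p.Prime) (h : ¬ p ∣ (k + m).choose m) {i : ℕ} (hi : i ≠ 0) :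
    m % p ^ i + k % p ^ i < p ^ i := by
  by_contra hn
  have h1 := factorization_choose' (n := k) (k := m) hp
    (show _ < log p (k + m) + i + 1 by omega)
  rw [factorization_eq_zero_of_not_dvd h, eq_comm, Finset.card_eq_zero, filter_eq_empty_iff] at h1
  exact h1 (mem_Ico.2 ⟨by omega, by omega⟩) (not_lt.1 hn)

theorem binom_small_prime {k m : ℕ} (h2 : 2 ≤ m) (hk : m ≤ k)
    (hC : ∀ p, p.Prime → p ≤ k → ¬ p ∣ (k + m).choose m) : k = 4 ∧ m = 3 := by
  have h0 := (ascFactorial_eq_factorial_mul_choose k m).symm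
  obtain ⟨s, rfl | rfl⟩ := even_or_odd' m
  · exfalso
    have h1 : 2 ^ (s + 1) * (s ! * (s ! * (k / 2 + s).choose s)) ≤ 2 ^ s * (2 * s)! := by
      rw [asc_split] at h0
      obtain ⟨l, rfl | rfl⟩ := even_or_odd' k
      · rw [show 2 * l / 2 = l by omega]
        exact binom_core hC (by omega) (by rw [h0, ← prod_even]; rfl) (by omega) (by omega) (by omega)
          (by omega)
      · rw [show (2 * l + 1) / 2 = l by omega]
        exact binom_core hC (by omega) (by rw [h0, ← prod_even, mul_comm]; rfl) (by omega) (by omega)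
          (by omega) (by omega)
    have h3 : (s + s).choose s ≤ (k / 2 + s).choose s := choose_le_choose s (by omega)
    have h4 : 0 < 2 ^ s * (s ! * (s ! * (s + s).choose s)) := by
      have := choose_pos (Nat.le_add_left s s); positivity
    rw [two_mul, ← add_choose_mul_factorial_mul_factorial] at h1
    have h5 : 2 ^ (s + 1) * (s ! * (s ! * (s + s).choose s)) ≤
        2 ^ (s + 1) * (s ! * (s ! * (k / 2 + s).choose s)) := by gcongr
    have h6 := h5.trans h1
    rw [pow_succ] at h6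
    nlinarith
  · have h1 := no_carry prime_two (hC 2 prime_two (by omega)) one_ne_zero
    obtain ⟨l, rfl⟩ : ∃ l, k = 2 * l := ⟨k / 2, by omega⟩
    rw [ascFactorial_succ, asc_split, ← mul_assoc, mul_comm (_ + 2 * s), ← prod_range_succ] at h0
    have h3 := binom_core hC (by omega) (by rw [h0, ← prod_even]; rfl) (by omega)
      (show l + s ≤ _ by omega) (by omega) (by omega)
    rw [show 2 * s + 1 = s + 1 + s by ring, ← add_choose_mul_factorial_mul_factorial (s + 1) s] at h3
    have h4 : (l + s).choose s ≤ (s + 1 + s).choose s := by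
      have : 0 < 2 ^ (s + 1) * ((s + 1)! * s !) := by positivity
      refine Nat.le_of_mul_le_mul_left (le_of_eq_of_le ?_ (h3.trans_eq ?_)) this <;> ring
    obtain rfl : l = s + 1 := by
      by_contra hn
      have h5 : (s + 1 + s + 1).choose s ≤ (l + s).choose s := choose_le_choose s (by omega)
      obtain ⟨r, rfl⟩ : ∃ r, s = r + 1 := ⟨s - 1, by omega⟩
      rw [choose_succ_succ'] at h5
      have := choose_pos (show r ≤ r + 1 + 1 + (r + 1) by omega)
      omega
    by_contra hs
    obtain ⟨j, hj, h5⟩ : ∃ j, j ≤ 2 ∧ 3 ∣ 4 * s + 3 - 2 * j := by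
      obtain h | h | h : s % 3 = 0 ∨ s % 3 = 1 ∨ s % 3 = 2 := by omega
      exacts [⟨0, by omega, by omega⟩, ⟨2, by omega, by omega⟩, ⟨1, by omega, by omega⟩]
    have h6 : 4 * s + 3 - 2 * j ∣ 15 := (dvd_iff_prime_pow_dvd_dvd _ _).2 fun p i hp hi => by
      rcases eq_or_ne i 0 with rfl | hi0
      · simp
      have h7 : p ≤ 2 * (s + 1) := by
        obtain ⟨y, hy⟩ := h5
        have h8 : p ∣ 3 * y := hy ▸ (dvd_pow_self p hi0).trans hi
        rcases hp.dvd_mul.1 h8 with h | h
        · have := Nat.le_of_dvd (by norm_num) h; omega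
        · have := Nat.le_of_dvd (by omega) h; omega
      have h8 := no_carry hp (hC p hp h7) hi0
      have h9 : 0 < p ^ i := pow_pos hp.pos i
      generalize p ^ i = q at *
      have k1 : q % 2 = 1 := by
        by_contra hn
        have := (Nat.dvd_of_mod_eq_zero (show q % 2 = 0 by omega)).trans hi
        omega
      have k2 : (4 * s + 3) % q = (2 * s + 1) % q + 2 * (s + 1) % q := by
        rw [show 4 * s + 3 = 2 * s + 1 + 2 * (s + 1) by ring, Nat.add_mod_of_add_mod_lt h8]
      have k3 : (4 * s + 3) % q = 2 * j % q := by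
        obtain ⟨y, hy⟩ := hi
        rw [show 4 * s + 3 = 2 * j + q * y by omega, Nat.add_mul_mod_self_left]
      have k4 : 2 * (s + 1) % q = ((2 * s + 1) % q + 1) % q := by
        rw [Nat.mod_add_mod]; rfl
      have k5 : q ≤ 5 := by
        by_contra hn
        rw [Nat.mod_eq_of_lt (show 2 * j < q by omega)] at k3
        rcases Nat.lt_or_ge ((2 * s + 1) % q + 1) q with h | h
        · rw [Nat.mod_eq_of_lt h] at k4; omega
        · omega
      interval_cases q <;> simp at k1 ⊢
    have h7 := Nat.le_of_dvd (by norm_num) h6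
    obtain rfl | rfl : s = 3 ∨ s = 4 := by
      have : s ≤ 4 := by omega
      interval_cases s <;> interval_cases j <;> omega
    · exact hC 3 prime_three (by norm_num) (by decide +kernel)
    · exact hC 2 prime_two (by norm_num) (by decide +kernel)

end CfsgH5
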