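/-
Orders of stabilisers of Leech lattice vectors, and their actions on tables of vectors.
-/
import Cfsg.Agent.H5.Low
import Cfsg.Agent.H6.Co3

set_option autoImplicit false

namespace CfsgH5

open Cfsg MulAction CfsgH6
open scoped Pointwise

noncomputable section

theorem card_step {G X : Type*} [Group G] [MulAction G X] (K : Subgroup G) {y : X} {Y : Set X}
    (h1 : ∀ x ∈ Y, ∃ g ∈ K, g • x = y) (h2 : ∀ g ∈ K, g • y ∈ Y) :
    Y.ncard * Nat.card (K ⊓ stabilizer G y : Subgroup G) = Nat.card K := by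
  have e : orbit K y = Y := by
    ext x
    constructor
    · rintro ⟨g, rfl⟩; exact h2 g g.2
    · intro hx
      obtain ⟨g, hg, rfl⟩ := h1 x hx
      exact ⟨⟨g⁻¹, K.inv_mem hg⟩, inv_smul_smul g x⟩
  rw [← ncard_orbit_mul_card_stabilizer (G := K) y, e]
  congr 1
  exact Nat.card_congr ⟨fun g => ⟨⟨g.1, g.2.1⟩, g.2.2⟩, fun g => ⟨g.1.1, g.1.2, g.2⟩, fun _ => rfl,
    fun _ => rfl⟩

namespace Lee

theorem Fix_cons (b : ℕ) (bs : List ℕ) :
    CfsgH6.Fix (b :: bs) = CfsgH6.Fix bs ⊓ stabilizer Co0 (vec b) := by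
  ext g; simp [CfsgH6.mem_Fix, and_comm]

theorem mem_Fix1 {a : ℕ} {g : Co0} : g ∈ CfsgH6.Fix [a] ↔ g • vec a = vec a := by
  simp [CfsgH6.mem_Fix]

theorem mem_Fix2 {a b : ℕ} {g : Co0} :
    g ∈ CfsgH6.Fix [b, a] ↔ g • vec a = vec a ∧ g • vec b = vec b := by
  simp [CfsgH6.mem_Fix, and_comm]

theorem mem_Fix3 {a b c : ℕ} {g : Co0} :
    g ∈ CfsgH6.Fix [c, b, a] ↔ g • vec a = vec a ∧ g • vec b = vec b ∧ g • vec c = vec c := by
  simp only [CfsgH6.mem_Fix, List.mem_cons, List.not_mem_nil, or_false, forall_eq_or_imp, forall_eq]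
  tauto

theorem fix_of_mono {g : Co0} {σ : Equiv.Perm GolayPt} {c : Finset GolayPt} (h : Mono g σ c)
    {i : GolayPt} (hi : g • e8 i = e8 i) : σ i = i ∧ i ∉ c := by
  have := h (e8 i)
  rw [hi, coe_e8, signedPerm_single] at this
  have h1 := congrFun this i
  by_cases e : σ i = i
  · refine ⟨e, fun hc => ?_⟩
    simp [e, hc] at h1
  · simp [Ne.symm e] at h1

theorem v0_sub_w0 : v0 - vec w0c = e8 (some 0) := by
  apply Subtype.ext
  rw [AddSubgroup.coe_sub, coe_vec (by decide +kernel), coe_vec (by decide +kernel), coe_e8]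
  decide +kernel

theorem card_S0 : Finite (CfsgH6.Fix [w0c, v0c]) ∧ Nat.card (CfsgH6.Fix [w0c, v0c]) ≤ 454164480 := by
  let T : Set (Finset GolayPt) := {c | c ∈ Sup ∧ pt 23 ∉ c ∧ pt 0 ∉ c}
  have : ∀ g : CfsgH6.Fix [w0c, v0c], ∃ p : CfsgH5.Fix [23, 0] [] × T, Mono g p.1.1 p.2 := by
    rintro ⟨g, hg⟩
    obtain ⟨h1, h2⟩ := mem_Fix2.1 hg
    obtain ⟨σ, hσ, c, hc, hm⟩ := mono_of_NN (mem_NN_of_fix h1 h2)
    have k1 := fix_of_mono hm (i := none) (by rw [← v0_add_w0, co_add, h1, h2])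
    have k2 := fix_of_mono hm (i := some 0) (by rw [← v0_sub_w0, co_sub, h1, h2])
    refine ⟨(⟨⟨σ, hσ⟩, ?_, by simp⟩, ⟨c, hc, k1.2, k2.2⟩), hm⟩
    simp only [List.mem_cons, List.not_mem_nil, or_false, forall_eq_or_imp, forall_eq]
    exact ⟨k1.1, k2.1⟩
  choose F hF using this
  have hinj : Function.Injective F := fun g h e =>
    Subtype.ext (co_ext fun v => Subtype.ext (by rw [hF g, hF h, e]))
  refine ⟨Finite.of_injective F hinj, (Nat.card_le_card_of_injective F hinj).trans ?_⟩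
  rw [Nat.card_prod, card_Fix2, Nat.card_coe_set_eq,
    ncard_Sup' T (fun m => band (bnot (tb m 23)) (bnot (tb m 0))) fun s => ?_]
  · decide +kernel
  · simp only [T, Set.mem_ofPred_eq, band_eq, bnot_eq, tb_eq, Bool.and_eq_true, Bool.not_eq_true',
      ← Bool.not_eq_true, E24.testBit_mask]
    simp

theorem step_v0 {c : ℕ} {d : ℤ} (t : ℕ) (ht : d = 4 * t - 32) (hc : inL c = true)
    (h1 : sqNorm (dec c) = 32) (h2 : dotInt (dec v0c) (dec c) = d)
    (h : ∀ {v w : LL}, sqNorm (v : V) = 32 → sqNorm (w : V) = 32 → dotInt (v : V) w = d →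
      ∃ g : Co0, g • v = v0 ∧ g • w = vec c) :
    DW totA t * Nat.card (CfsgH6.Fix [c, v0c]) = Nat.card (CfsgH6.Fix [v0c]) := by
  rw [Fix_cons c, ← ncard_v0, ← ht]
  refine card_step _ (fun x hx => ?_) fun g hg => ⟨?_, ?_⟩
  · obtain ⟨g, k1, k2⟩ := h norm_v0 hx.1 hx.2
    exact ⟨g, mem_Fix1.2 k1, k2⟩
  · rw [co_norm, coe_vec hc, h1]
  · rw [co_dot_fix (mem_Fix1.1 hg), coe_vec hc, coe_vec (by decide +kernel), h2]

theorem step_Y3 {a b c z n : ℕ} {p q r : ℤ} {L : List ℕ}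
    (h : (Y3 (vec a) (vec b) (vec c) p q r).ncard = n ∧ ∀ x ∈ Y3 (vec a) (vec b) (vec c) p q r,
      ∃ g : Co0, g • vec a = vec a ∧ g • vec b = vec b ∧ g • vec c = vec c ∧ g • x = vec z)
    (hn : n ≠ 0)
    (hL : ∀ g : Co0, g ∈ CfsgH6.Fix L ↔ g • vec a = vec a ∧ g • vec b = vec b ∧ g • vec c = vec c) :
    n * Nat.card (CfsgH6.Fix (z :: L)) = Nat.card (CfsgH6.Fix L) := by
  have key : ∀ g : Co0, g • vec a = vec a → g • vec b = vec b → g • vec c = vec c →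
      ∀ x ∈ Y3 (vec a) (vec b) (vec c) p q r, g • x ∈ Y3 (vec a) (vec b) (vec c) p q r := by
    intro g h1 h2 h3 x hx
    have := (smul_mem_Y3 g).2 hx
    rwa [h1, h2, h3] at this
  obtain ⟨x, hx⟩ := Set.nonempty_of_ncard_ne_zero (h.1.trans_ne hn)
  obtain ⟨g, k1, k2, k3, k4⟩ := h.2 x hx
  rw [Fix_cons z, ← h.1]
  refine card_step _ (fun x hx => ?_) fun g' hg => ?_
  · obtain ⟨g, k1, k2, k3, k4⟩ := h.2 x hx
    exact ⟨g, (hL g).2 ⟨k1, k2, k3⟩, k4⟩
  · obtain ⟨l1, l2, l3⟩ := (hL g').1 hg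
    exact key g' l1 l2 l3 _ (k4 ▸ key g k1 k2 k3 x hx)

theorem u0_eq : u0 = v0 + vec w8c := by
  apply Subtype.ext
  rw [AddSubgroup.coe_add, coe_vec (by decide +kernel), coe_vec (by decide +kernel),
    coe_vec (by decide +kernel)]
  decide +kernel

theorem Fix_uv : CfsgH6.Fix [v0c, u0c] = CfsgH6.Fix [w8c, v0c] := by
  ext g
  rw [mem_Fix2, mem_Fix2]
  show g • u0 = u0 ∧ _ ↔ _
  rw [u0_eq, co_add, and_comm]
  exact and_congr_right fun h => by rw [show g • v0 = v0 from h, add_right_inj]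

theorem step0 : 93150 * Nat.card (CfsgH6.Fix [w0c, v0c]) = Nat.card (CfsgH6.Fix [v0c]) :=
  (show DW totA 8 = 93150 by decide +kernel) ▸
    step_v0 8 rfl (by decide +kernel) (by decide +kernel) (by decide +kernel) pair0

theorem step16 : 4600 * Nat.card (CfsgH6.Fix [t16c, v0c]) = Nat.card (CfsgH6.Fix [v0c]) :=
  (show DW totA 4 = 4600 by decide +kernel) ▸
    step_v0 4 rfl (by decide +kernel) (by decide +kernel) (by decide +kernel) pair16

theorem step8 : 47104 * Nat.card (CfsgH6.Fix [w8c, v0c]) = Nat.card (CfsgH6.Fix [v0c]) :=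
  (show DW totA 6 = 47104 by decide +kernel) ▸
    step_v0 6 rfl (by decide +kernel) (by decide +kernel) (by decide +kernel) pair8

theorem step552 : 552 * Nat.card (CfsgH6.Fix [v0c, u0c]) = Nat.card (CfsgH6.Fix [u0c]) :=
  step_Y3 (z := v0c) (L := [u0c]) cfgC1_0 (by norm_num) fun g => by rw [mem_Fix1]; tauto

theorem step275 : 275 * Nat.card (CfsgH6.Fix [x0c, v0c, u0c]) = Nat.card (CfsgH6.Fix [v0c, u0c]) :=
  step_Y3 (z := x0c) (L := [v0c, u0c]) cfgC2_0 (by norm_num) fun g => by rw [mem_Fix2]; tauto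

theorem step11178 : 11178 * Nat.card (CfsgH6.Fix [t0c, u0c]) = Nat.card (CfsgH6.Fix [u0c]) :=
  step_Y3 (z := t0c) (L := [u0c]) cfgC4_0 (by norm_num) fun g => by rw [mem_Fix1]; tauto

theorem step352 : 352 * Nat.card (CfsgH6.Fix [x2c, t0c, u0c]) = Nat.card (CfsgH6.Fix [t0c, u0c]) :=
  step_Y3 (z := x2c) (L := [t0c, u0c]) cfgC6_1 (by norm_num) fun g => by rw [mem_Fix2]; tauto

theorem card_arith {a b c d e f g h : ℕ} (h0 : 0 < a) (h1 : a ≤ 454164480) (h2 : 93150 * a = b)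
    (h3 : 4600 * c = b) (h4 : 47104 * d = b) (h5 : 552 * d = e) (h6 : 275 * f = d)
    (h7 : 11178 * g = e) (h8 : 352 * h = g) :
    (0 < c ∧ c ≤ 9196830720) ∧ (0 < f ∧ f ≤ 3265920) ∧ 0 < h ∧ h ≤ 126000 := by
  have key : ∀ {k x y B : ℕ}, k * x = y → 0 < y → y ≤ k * B → 0 < x ∧ x ≤ B := fun {k x y B} h h1 h2 =>
    ⟨Nat.pos_of_mul_pos_left (h ▸ h1), Nat.le_of_mul_le_mul_left (h ▸ h2)
      (Nat.pos_of_mul_pos_right (h ▸ h1))⟩
  have b1 : 0 < b := h2 ▸ Nat.mul_pos (by norm_num) h0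
  have b2 : b ≤ 93150 * 454164480 := h2 ▸ Nat.mul_le_mul_left _ h1
  have d1 := key (B := 898128000) h4 b1 (b2.trans (by norm_num))
  have e1 : 0 < e := h5 ▸ Nat.mul_pos (by norm_num) d1.1
  have e2 : e ≤ 552 * 898128000 := h5 ▸ Nat.mul_le_mul_left _ d1.2
  have g1 := key (B := 44352000) h7 e1 (e2.trans (by norm_num))
  exact ⟨key h3 b1 (b2.trans (by norm_num)), key h6 d1.1 (d1.2.trans (by norm_num)),
    key h8 g1.1 (g1.2.trans (by norm_num))⟩

theorem card_fix : (0 < Nat.card (CfsgH6.Fix [t16c, v0c]) ∧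
      Nat.card (CfsgH6.Fix [t16c, v0c]) ≤ 9196830720) ∧
    (0 < Nat.card (CfsgH6.Fix [x0c, v0c, u0c]) ∧ Nat.card (CfsgH6.Fix [x0c, v0c, u0c]) ≤ 3265920) ∧
    0 < Nat.card (CfsgH6.Fix [x2c, t0c, u0c]) ∧ Nat.card (CfsgH6.Fix [x2c, t0c, u0c]) ≤ 126000 :=
  card_arith (@Nat.card_pos _ _ card_S0.1) card_S0.2 step0 step16
    ((congrArg (fun K : Subgroup Co0 => 47104 * Nat.card K) Fix_uv).trans step8) step552 step275
    step11178 step352

variable {H : Subgroup Co0} {N w m a π : ℕ} {tab : ℕ → ℕ}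

theorem vec_inj {i j : ℕ} (hi : okV i = true) (hj : okV j = true) (h : vec i = vec j) : i = j := by
  rw [← enc_vec (okV_inL hi), h, enc_vec (okV_inL hj)]

theorem acts_vec [NeZero N] (hw : N ≤ 2 ^ w) (hm : m = 2 ^ w - 1) (ha : In H a)
    (h1 : allLt N (fun i => force (tab i) okV) = true) (h2 : isPerm w m N π = true)
    (h3 : allLt N (fun i => Nat.beq (force (tab i) (act a)) (force (ap w m π i) tab)) = true) :
    ∃ g : H, Acts (fun i => vec (tab i)) N w m g π := by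
  obtain ⟨g, hg, hr⟩ := ha
  simp only [allLt_iff, force_eq, beq_true_iff] at h1 h3
  exact ⟨⟨g, hg⟩, h2, fun i hi =>
    hr.vec_eq (h1 i hi) (h1 _ ((isPerm_spec hw hm h2).2.1 i hi)) (h3 i hi)⟩

theorem vec_ne [NeZero N] (h1 : allLt N (fun i => force (tab i) okV) = true)
    (h : allLt N (fun j => bor (Nat.beq j 0) (bnot (Nat.beq (tab 0) (tab j)))) = true) :
    ∀ j, j < N → vec (tab 0) = vec (tab j) → j = 0 := by
  simp only [allLt_iff, force_eq, bor_eq, bnot_eq, Bool.or_eq_true, beq_true_iff,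
    Bool.not_eq_true'] at h1 h
  refine fun j hj e => (h j hj).resolve_right fun h2 => ?_
  rw [vec_inj (h1 0 (NeZero.pos N)) (h1 j hj) e, (beq_true_iff _ _).2 rfl] at h2
  cases h2

variable {tab' : ℕ → ℕ}

theorem acts_pair [NeZero N] (hw : N ≤ 2 ^ w) (hm : m = 2 ^ w - 1) (ha : In H a)
    (h1 : allLt N (fun i => band (force (tab i) okV) (force (tab' i) okV)) = true)
    (h2 : isPerm w m N π = true)
    (h3 : allLt N (fun i => force (force (tab i) (act a)) fun x => force (force (tab' i) (act a)) fun y =>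
      force (ap w m π i) fun j => bor (band (Nat.beq x (tab j)) (Nat.beq y (tab' j)))
        (band (Nat.beq x (tab' j)) (Nat.beq y (tab j)))) = true) :
    ∃ g : H, Acts (fun i => ({vec (tab i), vec (tab' i)} : Set LL)) N w m g π := by
  obtain ⟨g, hg, hr⟩ := ha
  simp only [allLt_iff, force_eq, band_eq, bor_eq, Bool.and_eq_true, Bool.or_eq_true,
    beq_true_iff] at h1 h3
  refine ⟨⟨g, hg⟩, h2, fun i hi => ?_⟩
  have hj := h1 _ ((isPerm_spec hw hm h2).2.1 i hi)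
  rw [Set.smul_set_insert, Set.smul_set_singleton]
  show ({g • vec (tab i), g • vec (tab' i)} : Set LL) = {vec (tab _), vec (tab' _)}
  rcases h3 i hi with h | h
  · rw [hr.vec_eq (h1 i hi).1 hj.1 h.1, hr.vec_eq (h1 i hi).2 hj.2 h.2]
  · rw [hr.vec_eq (h1 i hi).1 hj.2 h.1, hr.vec_eq (h1 i hi).2 hj.1 h.2, Set.pair_comm]

theorem pair_ne [NeZero N]
    (h1 : allLt N (fun i => band (force (tab i) okV) (force (tab' i) okV)) = true)
    (h : allLt N (fun j => bor (Nat.beq j 0)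
      (bnot (bor (Nat.beq (tab 0) (tab j)) (Nat.beq (tab 0) (tab' j))))) = true) :
    ∀ j, j < N → ({vec (tab 0), vec (tab' 0)} : Set LL) = {vec (tab j), vec (tab' j)} → j = 0 := by
  simp only [allLt_iff, force_eq, bor_eq, band_eq, bnot_eq, Bool.or_eq_true, Bool.and_eq_true,
    beq_true_iff, Bool.not_eq_true', Bool.or_eq_false_iff] at h1 h
  refine fun j hj e => (h j hj).resolve_right fun h2 => ?_
  have h0 := (h1 0 (NeZero.pos N)).1
  rcases (e ▸ Set.mem_insert _ _ : vec (tab 0) ∈ ({vec (tab j), vec (tab' j)} : Set LL)) with e | e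
  · rw [vec_inj h0 (h1 j hj).1 e, (beq_true_iff _ _).2 rfl] at h2
    cases h2.1
  · rw [vec_inj h0 (h1 j hj).2 e, (beq_true_iff (tab' j) _).2 rfl] at h2
    cases h2.2

theorem conj_fix {g x : Co0} {v v' : LL} (h : g • v = v') : (g * x * g⁻¹) • v' = v' ↔ x • v = v := by
  rw [← h]; exact conj_mem_stabilizer g x v

end Lee

end

end CfsgH5
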