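/-
Double coset representatives in the group of the code.
-/
import Cfsg.Agent.H5.Word

set_option autoImplicit false
set_option linter.unusedSimpArgs false
set_option linter.unusedSectionVars false
set_option linter.unusedVariables false

namespace CfsgH5

open scoped Pointwise
open Cfsg MulAction

noncomputable section

theorem smul_fam_map (g : M24) {l : List ℕ} (hl : ∀ m ∈ l, m < 16777216) :
    g • fam l = fam (l.map (act24 (CM.code g))) := by
  ext s
  simp only [Finset.mem_smul_finset, mem_fam', List.mem_map]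
  constructor
  · rintro ⟨_, ⟨m, hm, rfl⟩, rfl⟩
    exact ⟨_, ⟨m, hm, rfl⟩, (smul_ts_eq (hl m hm) rfl).symm⟩
  · rintro ⟨_, ⟨m, hm, rfl⟩, rfl⟩
    exact ⟨_, ⟨m, hm, rfl⟩, smul_ts_eq (hl m hm) rfl⟩

/-- left coset representatives from a table -/
theorem fam_coset_rep {U K : Subgroup M24} (hUK : U ≤ K) {l : List ℕ} (hl : famOK l = true)
    (hU : U ≤ stabilizer M24 (fam l)) {N : ℕ} {v : ℕ → ℕ} {tst : ℕ → Bool}
    (ht : ∀ p, tst p = true → CM.In K p)
    (h : band (allLt N fun j => force (v j) tst) (tabOK N fun j => l.map (act24 (v j))) = true)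
    (hc : Nat.card K ≤ Nat.card U * N) :
    ∀ k ∈ K, ∃ j, j < N ∧ ∃ u ∈ U, CM.code (k * u) = v j := by
  rw [band_eq, Bool.and_eq_true, allLt_iff] at h
  have h0 := ((famOK_iff l).1 hl).1
  have hv : ∀ j, j < N → ∃ x ∈ K, CM.code x = v j := fun j hj => ht _ (by simpa using h.1 j hj)
  obtain ⟨h1, h2⟩ := exists_coset_rep hUK (fam l) hU (N := N) (fun j => fam (l.map (act24 (v j))))
    (fun j hj => by
      obtain ⟨x, hx, e⟩ := hv j hj
      exact ⟨x, hx, by rw [smul_fam_map x h0, e]⟩) (fun i j hi hj e => tab_inj h.2 hi hj e) hc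
  intro k hk
  obtain ⟨j, hj, e⟩ := h2 k hk
  obtain ⟨x, hx, e'⟩ := hv j hj
  refine ⟨j, hj, k⁻¹ * x, h1 ▸ ⟨K.mul_mem (K.inv_mem hk) hx, ?_⟩, by rw [mul_inv_cancel_left, e']⟩
  show (k⁻¹ * x) • fam l = fam l
  rw [mul_smul, smul_fam_map x h0, e', ← e, inv_smul_smul]

/-- checks for orbit representatives on code words -/
def repChk (dom : ℕ → Bool) (iv R t : ℕ → ℕ) (tst : ℕ → Bool) (N m0 : ℕ) : Bool :=
  band (allLt 4096 fun k => force (cw k) fun c => bimp (dom c) (Nat.blt (iv c) N))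
    (allLt N fun i => band (Nat.blt (R i) 4096) (force (cw (R i)) fun c => band (dom c)
      (band (Nat.beq (iv c) i) (force (t i) fun p => band (tst p) (Nat.beq (act24 p m0) c)))))

/-- double coset representatives -/
theorem dc_main {U K : Subgroup M24} (hUK : U ≤ K) {S : List ℕ} (hS : ∀ s ∈ S, CM.In U s)
    {dom : ℕ → Bool} {iv R gen dep t : ℕ → ℕ} {tst : ℕ → Bool} (ht : ∀ p, tst p = true → CM.In K p)
    {N m0 : ℕ} (hm0 : ts m0 ∈ Sup) (hm : m0 < 16777216) (hd : ∀ g ∈ K, dom (mk (g • ts m0)) = true)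
    (h : forest 4096 (rtC dom iv R) (nxC S gen) dep (fun _ _ => true) = true)
    (h' : repChk dom iv R t tst N m0 = true) {M : ℕ} {v : ℕ → ℕ}
    (hv : ∀ k ∈ K ⊓ stabilizer M24 (ts m0), ∃ j, j < M ∧ ∃ u ∈ U, CM.code (k * u) = v j) :
    ∀ g ∈ K, ∃ u ∈ U, ∃ u' ∈ U, ∃ i, i < N ∧ ∃ j, j < M ∧
      CM.code (u * g * u') = mul24 (t i) (v j) := by
  intro g hg
  simp only [repChk, band_eq, Bool.and_eq_true, allLt_iff, force_eq, bimp_eq, Bool.or_eq_true,
    Bool.not_eq_true', blt_true_iff, beq_true_iff] at h'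
  have hX := (smul_mem_Sup_iff g).2 hm0
  have hi : iv (mk (g • ts m0)) < N := by
    obtain ⟨k, hk, e⟩ := (mem_Sup_iff _).1 hX
    have := h'.1 k hk
    rw [← mk_ts (cw_lt hk), e, hd g hg] at this
    simpa using this
  obtain ⟨h1, h2, h3, h4, h5⟩ := h'.2 _ hi
  obtain ⟨u, hu, e⟩ := Sup_orbits hS h hX (ts_cw_mem h1) (hd g hg) (by rwa [mk_ts (cw_lt h1)])
    (by rw [mk_ts (cw_lt h1), h3])
  obtain ⟨x, hx, ex⟩ := ht _ h4
  have e2 : x • ts m0 = ts (cw (R (iv (mk (g • ts m0))))) := smul_ts_eq hm (ex ▸ h5)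
  obtain ⟨j, hj, u', hu', e'⟩ := hv (x⁻¹ * u * g)
    ⟨K.mul_mem (K.mul_mem (K.inv_mem hx) (hUK hu)) hg, by
      show (x⁻¹ * u * g) • ts m0 = ts m0
      rw [mul_smul, mul_smul, e, ← e2, inv_smul_smul]⟩
  refine ⟨u, hu, u', hu', _, hi, j, hj, ?_⟩
  rw [← ex, ← e', show u * g * u' = x * (x⁻¹ * u * g * u') by group, CM.code_mul]
  rfl

/-- a certificate that 11 or 23 divides the order: point, choice of the prime, word -/
def cert1123 (R : List ℕ) (p e : ℕ) : Bool :=
  force (evalW ops24 (p :: R) p (Nat.shiftRight e 6)) fun x =>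
    perChk ops24 (bif' (tb e 5) 23 11) x (Nat.land e 31)

theorem cert1123_sound {H : Subgroup M24} {R : List ℕ} (hR : ∀ r ∈ R, CM.In H r) {p e : ℕ}
    (hp : CM.In H p) (h : cert1123 R p e = true) : 11 ∣ Nat.card H ∨ 23 ∣ Nat.card H := by
  rw [cert1123, force_eq] at h
  have hx := hp.evalW (R := p :: R) (fun r hr => (List.mem_cons.1 hr).elim (fun e => e ▸ hp) (hR r))
    (Nat.shiftRight e 6)
  cases hb : tb e 5 <;> rw [hb] at h
  · exact Or.inl (hx.dvd_card (by norm_num) h)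
  · exact Or.inr (hx.dvd_card (by norm_num) h)

theorem mem_stab_of_famMap {g : M24} {l : List ℕ} (hl : famOK l = true)
    (h : famMap (CM.code g) l l = true) : g ∈ stabilizer M24 (fam l) := smul_fam hl hl h

theorem mem_of_mul_mem {G : Type*} [Group G] {A : Subgroup G} {u g u' : G} (hu : u ∈ A) (hu' : u' ∈ A)
    (h : u * g * u' ∈ A) : g ∈ A :=
  (A.mul_mem_cancel_left hu).1 ((A.mul_mem_cancel_right hu').1 h)

end

end CfsgH5
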