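/-
Upper bounds for automorphism groups of graphs given by adjacency masks.
-/
import Cfsg.Agent.H5.Low

set_option autoImplicit false

namespace CfsgH5

open MulAction

noncomputable section

/-- the automorphisms of a relation given by bit masks that fix the points of `F` -/
def autG (N : ℕ) (adj : ℕ → ℕ) (F : ℕ) : Subgroup (Equiv.Perm (Fin N)) where
  carrier := {σ | (∀ a b : Fin N, (adj (σ a)).testBit (σ b) = (adj a).testBit b) ∧
    ∀ a : Fin N, F.testBit a = true → σ a = a}
  one_mem' := ⟨fun _ _ => rfl, fun _ _ => rfl⟩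
  mul_mem' := fun {σ τ} h k => ⟨fun a b => (h.1 _ _).trans (k.1 a b), fun a ha => by
    rw [Equiv.Perm.mul_apply, k.2 a ha, h.2 a ha]⟩
  inv_mem' := fun {σ} h => ⟨fun a b => by simpa using (h.1 (σ⁻¹ a) (σ⁻¹ b)).symm, fun a ha => by
    rw [Equiv.Perm.inv_eq_iff_eq, h.2 a ha]⟩

/-- the bound given by an ordering of the vertices -/
def upB (N : ℕ) (adj : ℕ → ℕ) (L : List ℕ) : ℕ → ℕ :=
  List.rec (motive := fun _ => ℕ → ℕ) (fun _ => 1)
    (fun b _ ih F => Nat.mul (force (Nat.land (adj b) F) fun p => countLt N fun u =>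
      bor (Nat.beq u b) (band (bnot (tb F u)) (Nat.beq (Nat.land (adj u) F) p)))
      (force (Nat.lor F (Nat.shiftLeft 1 b)) ih)) L

theorem card_autG_le {N : ℕ} [NeZero N] (adj : ℕ → ℕ) (L : List ℕ) (hL : ∀ b ∈ L, b < N) (F : ℕ)
    (hF : ∀ j, F.testBit j = true → j < N) (h : ∀ i, i < N → F.testBit i = true ∨ i ∈ L) :
    Nat.card (autG N adj F) ≤ upB N adj L F := by
  induction L generalizing F with
  | nil =>
    have : autG N adj F = ⊥ := (Subgroup.eq_bot_iff_forall _).2 fun σ hσ =>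
      Equiv.ext fun a => hσ.2 a ((h a a.2).resolve_right (by simp))
    rw [this, Subgroup.card_bot]; exact le_rfl
  | cons b L ih =>
    have hb := hL b List.mem_cons_self
    have e : ∀ j, (Nat.lor F (Nat.shiftLeft 1 b)).testBit j = true ↔ F.testBit j = true ∨ j = b := by
      intro j
      show (F ||| 1 <<< b).testBit j = true ↔ _
      rw [Nat.testBit_or, Nat.one_shiftLeft, Nat.testBit_two_pow, Bool.or_eq_true, decide_eq_true_eq,
        eq_comm (a := b)]
    have h1 := ih (fun c hc => hL c (List.mem_cons_of_mem _ hc)) _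
      (fun j hj => ((e j).1 hj).elim (hF j) fun h => h ▸ hb) fun i hi => by
        rw [e]; have := h i hi; simp only [List.mem_cons] at this; tauto
    rw [← ncard_orbit_mul_card_stabilizer (G := autG N adj F) (⟨b, hb⟩ : Fin N)]
    refine Nat.mul_le_mul ?_ (le_trans ?_ (h1.trans_eq (force_eq _ _).symm))
    · rw [force_eq]
      refine le_of_le_of_eq (Set.ncard_le_ncard ?_ (Set.toFinite _))
        (((Enc.fin N).codes N (2 ^ N - 1) Nat.lt_two_pow_self.le rfl).ncard_eq_countLt _)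
      rintro _ ⟨σ, rfl⟩
      show bor (Nat.beq (σ.1 ⟨b, hb⟩) b) (band (bnot (tb F (σ.1 ⟨b, hb⟩)))
        (Nat.beq (Nat.land (adj (σ.1 ⟨b, hb⟩)) F) (Nat.land (adj b) F))) = true
      simp only [bor_eq, band_eq, bnot_eq, tb_eq, Bool.or_eq_true, Bool.and_eq_true, beq_true_iff,
        Bool.not_eq_true']
      by_cases hu : F.testBit (σ.1 ⟨b, hb⟩) = true
      · exact Or.inl (congrArg Fin.val (σ.1.injective (σ.2.2 _ hu)))
      · refine Or.inr ⟨by simpa using hu, Nat.eq_of_testBit_eq fun j => ?_⟩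
        show (_ &&& F).testBit j = (_ &&& F).testBit j
        rw [Nat.testBit_and, Nat.testBit_and]
        by_cases hj : F.testBit j = true
        · have := σ.2.1 ⟨b, hb⟩ ⟨j, hF j hj⟩
          rw [σ.2.2 ⟨j, hF j hj⟩ hj] at this
          rw [this]
        · simp [hj]
    · refine Nat.card_le_card_of_injective (fun σ => ⟨σ.1.1, σ.1.2.1, fun a ha => ?_⟩)
        fun σ τ h => Subtype.ext (Subtype.ext (Subtype.mk.inj h))
      rcases (e a).1 ha with h | h
      · exact σ.1.2.2 a h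
      · rw [show a = ⟨b, hb⟩ from Fin.ext h]; exact σ.2

/-- the code `p` preserves the relation -/
def presG (N w m : ℕ) (adj : ℕ → ℕ) (p : ℕ) : Bool :=
  allLt N fun a => force (adj a) fun x => force (force (ap w m p a) adj) fun y =>
    allLt N fun b => Nat.beq (bit y (ap w m p b)) (bit x b)

theorem grp_le_autG {N w m : ℕ} [NeZero N] (hw : N ≤ 2 ^ w) (hm : m = 2 ^ w - 1) (adj : ℕ → ℕ)
    {S : List ℕ} (hS : ∀ s ∈ S, (PC N w m hw hm).In ⊤ s) (h : allL S (presG N w m adj) = true) :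
    (PC N w m hw hm).grp S ≤ autG N adj 0 := by
  refine (PC N w m hw hm).grp_le fun s hs => ?_
  obtain ⟨σ, -, rfl⟩ := hS s hs
  refine ⟨σ, ⟨fun a b => ?_, by simp⟩, rfl⟩
  have := (allL_iff _ _).1 h _ hs
  simp only [presG, allLt_iff, force_eq, beq_true_iff, bit_eq] at this
  have e : ∀ a : Fin N, ap w m ((PC N w m hw hm).code σ) a = σ a := fun a =>
    ((PC N w m hw hm).enc_smul σ a).symm
  have := this a a.2 b b.2
  rw [e, e] at this
  by_cases h1 : (adj (σ a)).testBit (σ b) = true <;> by_cases h2 : (adj a).testBit b = true <;>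
    simp_all

theorem card_aut_eq {V : Type*} (Γ : SimpleGraph V) {N : ℕ} (e : Fin N ≃ V) (adj : ℕ → ℕ)
    (h : ∀ a b : Fin N, Γ.Adj (e a) (e b) ↔ (adj a).testBit b = true) :
    Nat.card (Γ ≃g Γ) = Nat.card (autG N adj 0) := by
  refine Nat.card_congr ⟨fun φ => ⟨(e.trans φ.toEquiv).trans e.symm, fun a b => ?_, by simp⟩,
    fun σ => ⟨(e.symm.trans σ.1).trans e, fun {a b} => ?_⟩, fun φ => ?_, fun σ => ?_⟩
  · rw [Bool.eq_iff_iff, ← h, ← h]; simp [φ.map_rel_iff]
  · obtain ⟨a, rfl⟩ := e.surjective a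
    obtain ⟨b, rfl⟩ := e.surjective b
    simp only [Equiv.trans_apply, Equiv.symm_apply_apply]
    rw [h, h, σ.2.1]
  · ext; simp
  · ext; simp

end

end CfsgH5
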