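/-
General facts on Hall subgroups.
-/
import Mathlib
import Cfsg.Prelude.Def_HallClasses

set_option autoImplicit false
set_option linter.unusedSectionVars false

namespace CfsgH5

open Cfsg

variable {G : Type*} [Group G] [Finite G] {π : Set ℕ}

theorem exists_conj_mem {p : ℕ} (hp : p.Prime) {M Q : Subgroup G} (hM : ¬ p ∣ M.index)
    (hQ : IsPGroup p Q) : ∃ g : G, ∀ x ∈ Q, g⁻¹ * x * g ∈ M := by
  have := Fact.mk hp
  obtain ⟨c, hc⟩ := hQ.nonempty_fixed_point_of_prime_not_dvd_card (G ⧸ M) hM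
  obtain ⟨g, rfl⟩ := QuotientGroup.mk_surjective c
  refine ⟨g, fun x hx => ?_⟩
  have : ((x * g : G) : G ⧸ M) = g := hc ⟨x, hx⟩
  simpa [mul_assoc] using QuotientGroup.eq.1 this.symm

theorem hall_eq_of_le {H W : Subgroup G} (hH : IsPiHall π H) (hW : IsPiSubgroup π W) (h : H ≤ W) :
    H = W :=
  h.antisymm (Subgroup.relIndex_eq_one.1 (Nat.eq_one_iff_not_exists_prime_dvd.2 fun p hp h1 =>
    hH.2 p hp (hW p hp (h1.trans (Subgroup.relIndex_dvd_card H W)))
      (h1.trans (Subgroup.relIndex_dvd_index_of_le h))))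

theorem hall_maximal {H : Subgroup G} (hH : IsPiHall π H) : Maximal (IsPiSubgroup π) H :=
  ⟨hH.1, fun _ hW h => (hall_eq_of_le hH hW h).ge⟩

theorem pi_subgroupOf {H : Subgroup G} (hH : IsPiSubgroup π H) (N : Subgroup G) :
    IsPiSubgroup π (H.subgroupOf N) := fun p hp h => by
  rw [← Subgroup.inf_subgroupOf_right,
    Nat.card_congr (Subgroup.subgroupOfEquivOfLe inf_le_right).toEquiv] at h
  exact hH p hp (h.trans (Subgroup.card_dvd_of_le inf_le_left))

theorem hall_subgroupOf {H : Subgroup G} (hH : IsPiHall π H) (N : Subgroup G) [N.Normal] :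
    IsPiHall π (H.subgroupOf N) := by
  refine ⟨pi_subgroupOf hH.1 N, fun p hp h1 h2 => hH.2 p hp h1 (h2.trans ?_)⟩
  have e1 := Subgroup.relIndex_mul_relIndex (H ⊓ N) H (H ⊔ N) inf_le_left le_sup_left
  have e2 := Subgroup.relIndex_mul_relIndex (H ⊓ N) N (H ⊔ N) inf_le_right le_sup_right
  rw [Subgroup.inf_relIndex_left, ← e2, Subgroup.inf_relIndex_right, Subgroup.relIndex_sup_right,
    mul_comm] at e1
  have e3 : H.relIndex (H ⊔ N) = H.relIndex N :=
    Nat.eq_of_mul_eq_mul_right (Nat.pos_of_ne_zero Subgroup.index_ne_zero_of_finite) e1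
  exact e3.symm.dvd.trans (Subgroup.relIndex_dvd_index_of_le le_sup_left)

theorem pi_of_pGroup {p : ℕ} (hp : p.Prime) (h : p ∈ π) {P : Subgroup G} (hP : IsPGroup p P) :
    IsPiSubgroup π P := fun q hq h1 => by
  have := Fact.mk hp
  obtain ⟨k, hk⟩ := IsPGroup.iff_card.1 hP
  rwa [(Nat.prime_dvd_prime_iff_eq hq hp).1 (hq.dvd_of_dvd_pow (hk ▸ h1))]

theorem hall_of_D (hD : IsDPiGroup π G) {M : Subgroup G} (hM : Maximal (IsPiSubgroup π) M) :
    IsPiHall π M := by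
  refine ⟨hM.1, fun p hp h1 h2 => ?_⟩
  have := Fact.mk hp
  obtain ⟨P⟩ : Nonempty (Sylow p G) := inferInstance
  obtain ⟨N, h3, h4⟩ := Finite.exists_le_maximal (pi_of_pGroup hp h1 P.2)
  obtain ⟨g, rfl⟩ := hD N M h4 hM
  rw [Subgroup.index_map_of_bijective (MulAut.conj g).bijective] at h2
  exact P.not_dvd_index (h2.trans (Subgroup.index_dvd_of_le h3))

theorem exists_hall_of_D (hD : IsDPiGroup π G) {K : Subgroup G} (hK : IsPiSubgroup π K) :
    ∃ M, K ≤ M ∧ IsPiHall π M :=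
  let ⟨M, h1, h2⟩ := Finite.exists_le_maximal hK
  ⟨M, h1, hall_of_D hD h2⟩

theorem C_of_D (hD : IsDPiGroup π G) : IsCPiGroup π G :=
  ⟨(exists_hall_of_D hD (K := ⊥) fun p hp h => absurd (by simpa using h) hp.ne_one).imp fun _ h => h.2,
    fun H K hH hK => hD H K (hall_maximal hH) (hall_maximal hK)⟩

theorem D_of_triv (h : (∀ r s : ℕ, r.Prime → s.Prime → r ∈ π → s ∈ π → r ∣ Nat.card G →
    s ∣ Nat.card G → r = s) ∨ ∀ r : ℕ, r.Prime → r ∣ Nat.card G → r ∈ π) : IsDPiGroup π G := by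
  intro H K hH hK
  rcases h with h | h
  · by_cases h1 : ∃ p : ℕ, p.Prime ∧ p ∈ π ∧ p ∣ Nat.card G
    · obtain ⟨p, hp, h1, h2⟩ := h1
      have := Fact.mk hp
      have key : ∀ H : Subgroup G, Maximal (IsPiSubgroup π) H → ∃ P : Sylow p G, H = P := by
        intro H hH
        obtain ⟨P, hP⟩ := (IsPGroup.of_card (G := H) (Nat.eq_prime_pow_of_unique_prime_dvd
          Nat.card_pos.ne' fun {q} hq h3 => h q p hq hp (hH.1 q hq h3) h1
            (h3.trans (Subgroup.card_subgroup_dvd_card H)) h2)).exists_le_sylow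
        exact ⟨P, hP.antisymm (hH.2 (pi_of_pGroup hp h1 P.2) hP)⟩
      obtain ⟨P, rfl⟩ := key H hH
      obtain ⟨Q, rfl⟩ := key K hK
      obtain ⟨g, rfl⟩ := MulAction.exists_smul_eq G P Q
      exact ⟨g, rfl⟩
    · have key : ∀ H : Subgroup G, IsPiSubgroup π H → H = ⊥ := fun H hH =>
        Subgroup.card_eq_one.1 (Nat.eq_one_iff_not_exists_prime_dvd.2 fun p hp h2 =>
          h1 ⟨p, hp, hH p hp h2, h2.trans (Subgroup.card_subgroup_dvd_card H)⟩)
      exact ⟨1, by rw [key H hH.1, key K hK.1, Subgroup.map_bot]⟩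
  · have h1 : IsPiSubgroup π (⊤ : Subgroup G) := fun p hp h1 => h p hp (by simpa using h1)
    rw [eq_top_iff.2 (hH.2 h1 le_top), eq_top_iff.2 (hK.2 h1 le_top)]
    exact ⟨1, (Subgroup.map_top_of_surjective _ (MulAut.conj 1).surjective).symm⟩

end CfsgH5
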