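/-
Jordan sets of permutation groups, classes of three-cycles, and stabilisers of families of sets.
-/
import Cfsg.Agent.H5.HallGen

set_option autoImplicit false
set_option linter.unusedSectionVars false

namespace CfsgH5

open Cfsg Equiv Finset Nat
open scoped Pointwise

variable {α : Type*} [Fintype α] [DecidableEq α] {π : Set ℕ} {L : Subgroup (Perm α)}

theorem prime_dvd_card {r : ℕ} (hr : r.Prime) {g : Perm α} (hg : g ∈ L) {a : α}
    (h1 : (g ^ r) a = a) (h2 : g a ≠ a) : r ∣ Nat.card L := by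
  have h3 : MulAction.period g a ∣ r := MulAction.pow_smul_eq_iff_period_dvd.1 h1
  rcases (Nat.dvd_prime hr).1 h3 with h | h
  · exact absurd (by simpa using (MulAction.pow_smul_eq_iff_period_dvd (n := 1)).2 h.dvd) h2
  · exact h ▸ (MulAction.period_dvd_orderOf g a).trans (L.orderOf_dvd_natCard hg)

theorem mem_smul_iff {g : Perm α} {X : Finset α} {a : α} : a ∈ g • X ↔ g.symm a ∈ X :=
  Finset.inv_smul_mem_iff.symm

theorem apply_mem {g : Perm α} {X : Finset α} (h : ∀ c ∉ X, g c = c) {a : α} (ha : a ∈ X) :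
    g a ∈ X := by
  by_contra hn
  exact hn ((g.injective (h _ hn)).symm ▸ ha)

theorem smul_subset {g : Perm α} {X D : Finset α} (h : ∀ c ∉ X, g c = c) (hD : D ⊆ X) : g • D ⊆ X := by
  intro a ha
  obtain ⟨b, hb, rfl⟩ := mem_smul_finset.1 ha
  exact apply_mem h (hD hb)

/-- the elements of `L` that fix the points outside `X` are transitive on `X` -/
def Jor (L : Subgroup (Perm α)) (X : Finset α) : Prop :=
  ∀ a ∈ X, ∀ b ∈ X, ∃ g ∈ L, g a = b ∧ ∀ c ∉ X, g c = c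

/-- any two points of `X` are exchanged by an element of `L` that fixes the points outside `X` -/
def Jor2 (L : Subgroup (Perm α)) (X : Finset α) : Prop :=
  ∀ a ∈ X, ∀ b ∈ X, ∃ g ∈ L, g a = b ∧ g b = a ∧ ∀ c ∉ X, g c = c

/-- `h` normalises `L` -/
def Nz (L : Subgroup (Perm α)) (h : Perm α) : Prop := ∀ g ∈ L, h * g * h⁻¹ ∈ L

theorem Nz.of_mem {h : Perm α} (hh : h ∈ L) : Nz L h :=
  fun _ hg => L.mul_mem (L.mul_mem hh hg) (L.inv_mem hh)

theorem Jor2.jor {X : Finset α} (h : Jor2 L X) : Jor L X := fun a ha b hb =>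
  let ⟨g, h1, h2, _, h3⟩ := h a ha b hb; ⟨g, h1, h2, h3⟩

theorem Jor.smul {X : Finset α} (hX : Jor L X) {h : Perm α} (hh : Nz L h) : Jor L (h • X) := by
  intro a ha b hb
  obtain ⟨g, h1, h2, h3⟩ := hX _ (mem_smul_iff.1 ha) _ (mem_smul_iff.1 hb)
  exact ⟨_, hh g h1, by simp [h2], fun c hc => by simp [h3 _ (mt mem_smul_iff.2 hc)]⟩

theorem Jor2.smul {X : Finset α} (hX : Jor2 L X) {h : Perm α} (hh : Nz L h) : Jor2 L (h • X) := by
  intro a ha b hb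
  obtain ⟨g, h1, h2, h2', h3⟩ := hX _ (mem_smul_iff.1 ha) _ (mem_smul_iff.1 hb)
  exact ⟨_, hh g h1, by simp [h2], by simp [h2'], fun c hc => by simp [h3 _ (mt mem_smul_iff.2 hc)]⟩

theorem Jor.dvd {X : Finset α} (hX : Jor L X) (h0 : X.Nonempty) : #X ∣ Nat.card L := by
  obtain ⟨a, ha⟩ := h0
  have h1 : MulAction.orbit ↥(L ⊓ fixingSubgroup (Perm α) ((X : Set α)ᶜ)) a = X := by
    ext b
    constructor
    · rintro ⟨g, rfl⟩
      exact apply_mem (fun c hc => (mem_fixingSubgroup_iff _).1 g.2.2 c hc) ha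
    · intro hb
      obtain ⟨g, h1, h2, h3⟩ := hX a ha b hb
      exact ⟨⟨g, h1, (mem_fixingSubgroup_iff _).2 h3⟩, h2⟩
  rw [← Set.ncard_coe_finset, ← h1, ← MulAction.index_stabilizer]
  exact (Subgroup.index_dvd_card _).trans (Subgroup.card_dvd_of_le inf_le_left)

theorem Jor.block {P : Finset α → Prop} (h1 : ∀ g ∈ L, ∀ D, P D → P (g • D))
    (h2 : ∀ D E a, P D → P E → a ∈ D → a ∈ E → D = E) {X D : Finset α} (hX : Jor L X) (hD : P D)
    {a : α} (ha : a ∈ X) (ha' : a ∈ D) : X ⊆ D ∨ D ⊆ X ∧ #D ∣ #X := by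
  classical
  by_cases h3 : D ⊆ X
  · refine Or.inr ⟨h3, ?_⟩
    have e : X = (X.powerset.filter fun E => P E ∧ #E = #D).biUnion id := by
      ext b
      simp only [mem_biUnion, mem_filter, mem_powerset, id]
      refine ⟨fun hb => ?_, fun ⟨E, h, hb⟩ => h.1 hb⟩
      obtain ⟨g, k1, k2, k3⟩ := hX a ha b hb
      exact ⟨g • D, ⟨smul_subset k3 h3, h1 g k1 D hD, card_smul_finset g D⟩,
        k2 ▸ smul_mem_smul_finset ha'⟩
    rw [e, card_biUnion]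
    · exact dvd_sum fun E hE => (mem_filter.1 hE).2.2.symm.dvd
    · exact fun E hE F hF hn => disjoint_left.2 fun b k1 k2 =>
        hn (h2 E F b (mem_filter.1 hE).2.1 (mem_filter.1 hF).2.1 k1 k2)
  · obtain ⟨c, hc, hc'⟩ := not_subset.1 h3
    refine Or.inl fun b hb => ?_
    obtain ⟨g, k1, k2, k3⟩ := hX a ha b hb
    rw [h2 D (g • D) c hD (h1 g k1 D hD) hc (k3 c hc' ▸ smul_mem_smul_finset hc), ← k2]
    exact smul_mem_smul_finset ha'

theorem Jor.union {X Y : Finset α} (hX : Jor L X) (hY : Jor L Y) {c : α} (h1 : c ∈ X) (h2 : c ∈ Y) :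
    Jor L (X ∪ Y) := by
  have key : ∀ a ∈ X ∪ Y, ∃ g ∈ L, g c = a ∧ ∀ c ∉ X ∪ Y, g c = c := fun a ha => by
    rcases mem_union.1 ha with h | h
    · obtain ⟨g, k1, k2, k3⟩ := hX c h1 a h
      exact ⟨g, k1, k2, fun c hc => k3 c (mt (mem_union_left _) hc)⟩
    · obtain ⟨g, k1, k2, k3⟩ := hY c h2 a h
      exact ⟨g, k1, k2, fun c hc => k3 c (mt (mem_union_right _) hc)⟩
  intro a ha b hb
  obtain ⟨g, k1, rfl, k3⟩ := key a ha
  obtain ⟨h, l1, rfl, l3⟩ := key b hb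
  exact ⟨h * g⁻¹, L.mul_mem l1 (L.inv_mem k1), by simp, fun x hx => by
    rw [Perm.mul_apply, Perm.inv_eq_iff_eq.2 (k3 x hx).symm, l3 x hx]⟩

theorem exists_notMem {X Y : Finset α} (hc : #X = #Y) (hn : X ≠ Y) : ∃ a ∈ X, a ∉ Y :=
  not_subset.1 fun h => hn (eq_of_subset_of_card_le h hc.ge)

theorem Jor.even {X Y : Finset α} (hX : Jor L X) (hY : Jor L Y) (hc : #X = #Y) {c : α} (h1 : c ∈ X)
    (h2 : c ∈ Y) (hn : X ≠ Y) : 2 ∣ Nat.card L := by
  classical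
  by_contra ho
  obtain ⟨a, ha, ha'⟩ := exists_notMem hc.symm hn.symm
  have hac : a ≠ c := fun h => ha' (h ▸ h1)
  let r : α → α → Prop := fun x y => ∃ g ∈ L, g a = x ∧ g c = y
  have hr : ∀ x y, r x y → ¬ r y x := by
    rintro _ _ ⟨g, k1, rfl, rfl⟩ ⟨h, l1, l2, l3⟩
    have e1 : (h⁻¹ * g) a = c := by simp [← l3]
    have e2 : (h⁻¹ * g) c = a := by simp [← l2]
    exact ho (prime_dvd_card prime_two (L.mul_mem (L.inv_mem l1) k1) (a := a)
      (by rw [sq, Perm.mul_apply, e1, e2]) (e1 ▸ hac.symm))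
  have h3 := card_union_add_card_inter X Y
  have h4 : 0 < #(X ∩ Y) := card_pos.2 ⟨c, mem_inter.2 ⟨h1, h2⟩⟩
  refine (sum_lt_sum_of_nonempty ⟨c, mem_union_left _ h1⟩ fun x hx => ?_).ne'
    (sum_card_bipartiteAbove_eq_sum_card_bipartiteBelow (s := X ∪ Y) (t := X ∪ Y) r)
  obtain ⟨g, k1, k2, k3⟩ := hX.union hY h1 h2 a (mem_union_right _ ha) x hx
  have h5 : g • X ⊆ (X ∪ Y).bipartiteAbove r x := fun y hy => by
    refine mem_filter.2 ⟨smul_subset k3 subset_union_left hy, ?_⟩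
    obtain ⟨h, l1, l2, l3⟩ := hX c h1 _ (mem_smul_iff.1 hy)
    exact ⟨g * h, L.mul_mem k1 l1, by rw [Perm.mul_apply, l3 a ha', k2], by simp [l2]⟩
  have h6 := card_le_card h5
  have h7 := card_le_card (union_subset (filter_subset _ _) (filter_subset _ _) :
    (X ∪ Y).bipartiteAbove r x ∪ (X ∪ Y).bipartiteBelow r x ⊆ X ∪ Y)
  have h8 : Disjoint ((X ∪ Y).bipartiteAbove r x) ((X ∪ Y).bipartiteBelow r x) :=
    disjoint_left.2 fun y k l => hr _ _ (mem_filter.1 k).2 (mem_filter.1 l).2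
  rw [card_union_of_disjoint h8] at h7
  rw [card_smul_finset] at h6
  omega

theorem Jor2.three {X Y : Finset α} (hX : Jor2 L X) (hY : Jor2 L Y) (hc : #X = #Y) {c : α}
    (h1 : c ∈ X) (h2 : c ∈ Y) (hn : X ≠ Y) : 3 ∣ Nat.card L := by
  obtain ⟨a, ha, ha'⟩ := exists_notMem hc hn
  obtain ⟨b, hb, hb'⟩ := exists_notMem hc.symm hn.symm
  obtain ⟨g, k1, k2, k3, k4⟩ := hX a ha c h1
  obtain ⟨h, l1, l2, l3, l4⟩ := hY b hb c h2
  refine prime_dvd_card prime_three (L.mul_mem k1 l1) (a := a) ?_ ?_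
  · simp only [pow_succ, pow_zero, one_mul, Perm.mul_apply, l4 a ha', k2, l3, k4 b hb', l2, k3]
  · rw [Perm.mul_apply, l4 a ha', k2]; exact fun h => ha' (h ▸ h2)

theorem exists_reg (hL : IsPiHall π (L.subgroupOf (alternatingGroup α))) {p k : ℕ} (hp : p.Prime)
    (hπ : p ∈ π) (V : Type) [Group V] [Fintype V] [DecidableEq V] (hV : Fintype.card V = p ^ k)
    (hs : ∀ v : V, Perm.sign (Equiv.mulLeft v) = 1) : ∃ Z : Finset α, #Z < p ^ k ∧ ∀ a ∉ Z,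
      ∃ x : V ↪ α, (∃ w, x w = a) ∧ ∀ v, ∃ g ∈ L, (∀ w, g (x w) = x (v * w)) ∧
        ∀ c, (∀ w, x w ≠ c) → g c = c := by
  classical
  have := Fact.mk hp
  set t := Fintype.card α / p ^ k with ht
  obtain ⟨ι⟩ : Nonempty (Fin t × V ↪ α) := Function.Embedding.nonempty_of_card_le (by
    rw [Fintype.card_prod, Fintype.card_fin, hV]; exact Nat.div_mul_le_self _ _)
  let χ : (Fin t → V) →* Perm (Fin t × V) :=
    MonoidHom.mk' (fun v => Equiv.prodCongrRight fun i => Equiv.mulLeft (v i))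
      fun u v => by ext <;> simp
  let ψ : (Fin t → V) →* alternatingGroup α :=
    ((Perm.viaEmbeddingHom ι).comp χ).codRestrict _ fun v => by
      refine (@Perm.sign_extendDomain _ _ _ _ _ _ (χ v) _ (Classical.decPred _) _).trans
        ((Perm.sign_prodCongrRight fun i => Equiv.mulLeft (v i)).trans ?_)
      simp [hs]
  obtain ⟨γ, hγ⟩ := exists_conj_mem hp (hL.2 p hp hπ) (Q := ψ.range)
    ((IsPGroup.of_card (n := k * t) (by simp [hV, pow_mul])).of_surjective _ ψ.rangeRestrict_surjective)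
  let y : Fin t × V ↪ α := ι.trans (γ.1⁻¹ : Perm α).toEmbedding
  refine ⟨(univ.map y)ᶜ, ?_, fun a ha => ?_⟩
  · rw [card_compl, card_map, Finset.card_univ, Fintype.card_prod, Fintype.card_fin, hV, ht, mul_comm,
      ← Nat.mod_def]
    exact Nat.mod_lt _ (pow_pos hp.pos k)
  obtain ⟨⟨i, w⟩, -, rfl⟩ := mem_map.1 (by simpa using ha : a ∈ univ.map y)
  refine ⟨⟨fun w => y (i, w), fun u v h => (Prod.mk.inj (y.injective h)).2⟩, ⟨w, rfl⟩, fun v =>
    ⟨_, hγ _ ⟨Pi.mulSingle i v, rfl⟩, fun w => ?_, fun c hc => ?_⟩⟩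
  · show γ.1⁻¹ ((χ _).viaEmbedding ι (γ.1 (γ.1⁻¹ (ι (i, w))))) = γ.1⁻¹ (ι (i, v * w))
    rw [Perm.coe_inv, Equiv.apply_symm_apply, Perm.viaEmbedding_apply]
    simp [χ]
  · show γ.1⁻¹ ((χ _).viaEmbedding ι (γ.1 c)) = c
    rw [Perm.inv_eq_iff_eq]
    by_cases h : γ.1 c ∈ Set.range ι
    · obtain ⟨⟨j, u⟩, h⟩ := h
      have hj : j ≠ i := by
        rintro rfl
        exact hc u (Perm.inv_eq_iff_eq.2 h)
      rw [← h, Perm.viaEmbedding_apply]
      simp [χ, hj]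
    · exact Perm.viaEmbedding_apply_of_notMem _ _ _ h

theorem exists_reg_odd (hL : IsPiHall π (L.subgroupOf (alternatingGroup α))) {p : ℕ} [hp : Fact p.Prime]
    (hπ : p ∈ π) (h2 : p ≠ 2) : ∃ Z : Finset α, #Z < p ∧ ∀ a ∉ Z,
      ∃ x : Multiplicative (ZMod p) ↪ α, (∃ w, x w = a) ∧ ∀ v, ∃ g ∈ L, (∀ w, g (x w) = x (v * w)) ∧
        ∀ c, (∀ w, x w ≠ c) → g c = c := by
  have := exists_reg hL hp.out hπ (k := 1) (Multiplicative (ZMod p)) (by simp) fun v => by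
    have h1 : v ^ p = 1 := by simpa using pow_card_eq_one (x := v)
    have h3 : Perm.sign (Equiv.mulLeft v) ^ p = 1 := by
      rw [← map_pow, Equiv.pow_mulLeft, h1, Equiv.mulLeft_one, map_one]
    rcases Int.units_eq_one_or (Perm.sign (Equiv.mulLeft v)) with h | h
    · exact h
    · rw [h, (hp.out.odd_of_ne_two h2).neg_one_pow] at h3
      exact absurd h3 (by decide)
  rwa [pow_one] at this

theorem exists_jor (hL : IsPiHall π (L.subgroupOf (alternatingGroup α))) {p : ℕ} (hp : p.Prime)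
    (hπ : p ∈ π) (h2 : p ≠ 2) : ∃ Z : Finset α, #Z < p ∧ ∀ a ∉ Z, ∃ X, a ∈ X ∧ #X = p ∧ Jor L X := by
  have := Fact.mk hp
  obtain ⟨Z, h1, h⟩ := exists_reg_odd hL hπ h2
  refine ⟨Z, h1, fun a ha => ?_⟩
  obtain ⟨x, ⟨w, rfl⟩, h⟩ := h a ha
  refine ⟨univ.map x, by simp, by simp, fun a ha b hb => ?_⟩
  obtain ⟨u, -, rfl⟩ := mem_map.1 ha
  obtain ⟨v, -, rfl⟩ := mem_map.1 hb
  obtain ⟨g, k1, k2, k3⟩ := h (v * u⁻¹)
  exact ⟨g, k1, by simp [k2], fun c hc => k3 c (by simpa using hc)⟩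

theorem exists_jor2 (hL : IsPiHall π (L.subgroupOf (alternatingGroup α))) (hπ : 2 ∈ π) :
    ∃ Z : Finset α, #Z < 4 ∧ ∀ a ∉ Z, ∃ X, a ∈ X ∧ #X = 4 ∧ Jor2 L X := by
  obtain ⟨Z, h1, h⟩ := exists_reg hL prime_two hπ (k := 2) (Multiplicative (ZMod 2 × ZMod 2)) rfl
    (by decide)
  refine ⟨Z, h1, fun a ha => ?_⟩
  obtain ⟨x, ⟨w, rfl⟩, h⟩ := h a ha
  refine ⟨univ.map x, by simp, by simp, fun a ha b hb => ?_⟩
  obtain ⟨u, -, rfl⟩ := mem_map.1 ha
  obtain ⟨v, -, rfl⟩ := mem_map.1 hb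
  obtain ⟨g, k1, k2, k3⟩ := h (v * u⁻¹)
  exact ⟨g, k1, by simp [k2], by rw [k2, (by decide : ∀ u v : Multiplicative (ZMod 2 × ZMod 2), v * u⁻¹ * v = u)],
    fun c hc => k3 c (by simpa using hc)⟩

/-- the three-cycle `(a b c)` lies in `L` -/
def T3 (L : Subgroup (Perm α)) (a b c : α) : Prop :=
  a ≠ b ∧ a ≠ c ∧ b ≠ c ∧ ∃ g ∈ L, g a = b ∧ g b = c ∧ g c = a ∧ ∀ x, x ≠ a → x ≠ b → x ≠ c → g x = x

variable {a b c d e : α} {D E : Finset α}

theorem T3.rot (h : T3 L a b c) : T3 L b c a :=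
  let ⟨h1, h2, h3, g, k1, k2, k3, k4, k5⟩ := h
  ⟨h3, h1.symm, h2.symm, g, k1, k3, k4, k2, fun x l1 l2 l3 => k5 x l3 l1 l2⟩

theorem T3.rev (h : T3 L a b c) : T3 L a c b :=
  let ⟨h1, h2, h3, g, k1, k2, k3, k4, k5⟩ := h
  ⟨h2, h1, h3.symm, g⁻¹, L.inv_mem k1, Perm.inv_eq_iff_eq.2 k4.symm, Perm.inv_eq_iff_eq.2 k3.symm,
    Perm.inv_eq_iff_eq.2 k2.symm, fun x l1 l2 l3 => Perm.inv_eq_iff_eq.2 (k5 x l1 l3 l2).symm⟩

theorem T3.smul (h : T3 L a b c) {g : Perm α} (hg : Nz L g) : T3 L (g a) (g b) (g c) := by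
  obtain ⟨h1, h2, h3, u, k1, k2, k3, k4, k5⟩ := h
  refine ⟨g.injective.ne h1, g.injective.ne h2, g.injective.ne h3, _, hg u k1, by simp [k2],
    by simp [k3], by simp [k4], fun x l1 l2 l3 => ?_⟩
  obtain ⟨x, rfl⟩ := g.surjective x
  simp [k5 x (mt (congrArg g) l1) (mt (congrArg g) l2) (mt (congrArg g) l3)]

theorem T3.ext (h : T3 L a b c) (h' : T3 L b d e) (hd : a ≠ d) : T3 L a b d := by
  rcases eq_or_ne d c with rfl | h1
  · exact h
  rcases eq_or_ne a e with rfl | h2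
  · exact h'.rot.rot
  have h3 : T3 L a c d := by
    rcases eq_or_ne c e with rfl | h3
    · obtain ⟨-, -, -, g, k1, k2, k3, -, k5⟩ := h'.rev
      have := h.smul (Nz.of_mem k1)
      rwa [k2, k3, k5 a h.1 h2 hd] at this
    · obtain ⟨-, -, -, g, k1, k2, -, -, k5⟩ := h'
      have := h.smul (Nz.of_mem k1)
      rw [k2, k5 a h.1 hd h2, k5 c h.2.2.1.symm h1.symm h3] at this
      exact this.rev
  obtain ⟨-, -, -, g, k1, k2, -, k4, k5⟩ := h
  have := h3.smul (Nz.of_mem k1)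
  rw [k2, k4, k5 d hd.symm h'.1.symm h1] at this
  exact this.rot.rev

/-- the classes defined by the three-cycles in `L` -/
def IsCl (L : Subgroup (Perm α)) (D : Finset α) : Prop :=
  3 ≤ #D ∧ (∀ a ∈ D, ∀ b ∈ D, ∀ c ∈ D, a ≠ b → a ≠ c → b ≠ c → T3 L a b c) ∧
    ∀ a ∈ D, ∀ b c, T3 L a b c → b ∈ D

theorem T3.exists_cl (h : T3 L a b c) : ∃ D, IsCl L D ∧ a ∈ D := by
  classical
  have key : ∀ x y, (x = a ∨ ∃ z, T3 L a x z) → (y = a ∨ ∃ z, T3 L a y z) → x ≠ y →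
      ∃ z, T3 L x y z := by
    rintro x y (rfl | ⟨u, hu⟩) (rfl | ⟨v, hv⟩) hn
    exacts [absurd rfl hn, ⟨v, hv⟩, ⟨u, hu.rot.rev⟩, ⟨a, (hu.rot.rev.ext hv hn).rev⟩]
  refine ⟨univ.filter fun x => x = a ∨ ∃ z, T3 L a x z, ⟨?_, ?_, ?_⟩, by simp⟩
  · refine le_of_eq_of_le (card_eq_three.2 ⟨a, b, c, h.1, h.2.1, h.2.2.1, rfl⟩).symm (card_le_card ?_)
    simp only [insert_subset_iff, singleton_subset_iff, mem_filter, mem_univ, true_and, true_or]
    exact ⟨Or.inr ⟨c, h⟩, Or.inr ⟨b, h.rev⟩⟩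
  · intro x hx y hy z hz h1 h2 h3
    obtain ⟨u, hu⟩ := key x y (mem_filter.1 hx).2 (mem_filter.1 hy).2 h1
    obtain ⟨v, hv⟩ := key y z (mem_filter.1 hy).2 (mem_filter.1 hz).2 h3
    exact hu.ext hv h2
  · intro x hx y z h1
    refine mem_filter.2 ⟨mem_univ _, or_iff_not_imp_left.2 fun hn => ?_⟩
    rcases (mem_filter.1 hx).2 with rfl | ⟨u, hu⟩
    exacts [⟨z, h1⟩, ⟨x, (hu.ext h1 (Ne.symm hn)).rev⟩]

theorem exists_third (h : 3 ≤ #D) (a b : α) : ∃ c ∈ D, a ≠ c ∧ b ≠ c := by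
  obtain ⟨c, h1, h2⟩ := exists_mem_notMem_of_card_lt_card (s := {a, b}) (t := D)
    (lt_of_le_of_lt card_le_two h)
  exact ⟨c, h1, fun h => h2 (by simp [h]), fun h => h2 (by simp [h])⟩

theorem IsCl.unique (hD : IsCl L D) (hE : IsCl L E) (h1 : a ∈ D) (h2 : a ∈ E) : D = E := by
  have key : ∀ {D E}, IsCl L D → IsCl L E → a ∈ D → a ∈ E → D ⊆ E := by
    intro D E hD hE h1 h2 b hb
    rcases eq_or_ne a b with rfl | h
    · exact h2
    obtain ⟨c, k1, k2, k3⟩ := exists_third hD.1 a b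
    exact hE.2.2 a h2 b c (hD.2.1 a h1 b hb c k1 h k2 k3)
  exact (key hD hE h1 h2).antisymm (key hE hD h2 h1)

theorem Nz.inv {g : Perm α} (hg : Nz L g) : Nz L g⁻¹ := by
  have h1 : L.map (MulAut.conj g).toMonoidHom ≤ L := by
    rintro _ ⟨u, hu, rfl⟩; exact hg u hu
  have h2 := Subgroup.eq_of_le_of_card_ge h1
    (Subgroup.card_map_of_injective (MulAut.conj g).injective).ge
  intro u hu
  rw [← h2] at hu
  obtain ⟨v, hv, rfl⟩ := hu
  simpa [mul_assoc] using hv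

theorem IsCl.smul (hD : IsCl L D) {g : Perm α} (hg : Nz L g) : IsCl L (g • D) := by
  refine ⟨(card_smul_finset g D).symm ▸ hD.1, fun a ha b hb c hc h1 h2 h3 => ?_, fun a ha b c h => ?_⟩
  · simpa using (hD.2.1 _ (mem_smul_iff.1 ha) _ (mem_smul_iff.1 hb) _ (mem_smul_iff.1 hc)
      (g⁻¹.injective.ne h1) (g⁻¹.injective.ne h2) (g⁻¹.injective.ne h3)).smul hg
  · exact mem_smul_iff.2 (hD.2.2 _ (mem_smul_iff.1 ha) _ _ (h.smul hg.inv))

theorem IsCl.jor (hD : IsCl L D) (h : E ⊆ D) (h3 : 3 ≤ #E) : Jor L E := by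
  intro a ha b hb
  rcases eq_or_ne a b with rfl | h1
  · exact ⟨1, L.one_mem, rfl, fun _ _ => rfl⟩
  obtain ⟨c, k1, k2, k3⟩ := exists_third h3 a b
  obtain ⟨-, -, -, g, l1, l2, -, -, l3⟩ := hD.2.1 a (h ha) b (h hb) c (h k1) h1 k2 k3
  exact ⟨g, l1, l2, fun x hx => l3 x (fun e => hx (e ▸ ha)) (fun e => hx (e ▸ hb))
    fun e => hx (e ▸ k1)⟩

theorem exists_cl (hL : IsPiHall π (L.subgroupOf (alternatingGroup α))) (hπ : 3 ∈ π) :
    ∃ Z : Finset α, #Z < 3 ∧ ∀ a ∉ Z, ∃ D, IsCl L D ∧ a ∈ D := by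
  obtain ⟨Z, h1, h⟩ := exists_reg_odd hL hπ (by norm_num)
  refine ⟨Z, h1, fun a ha => ?_⟩
  obtain ⟨x, ⟨w, rfl⟩, h⟩ := h a ha
  obtain ⟨g, k1, k2, k3⟩ := h (Multiplicative.ofAdd 1)
  obtain ⟨e1, e2, e3, e4, e5⟩ := (by decide : ∀ w : Multiplicative (ZMod 3), w ≠ .ofAdd 1 * w ∧
    w ≠ .ofAdd 1 * (.ofAdd 1 * w) ∧ .ofAdd 1 * w ≠ .ofAdd 1 * (.ofAdd 1 * w) ∧
    .ofAdd 1 * (.ofAdd 1 * (.ofAdd 1 * w)) = w ∧
    ∀ u, u = w ∨ u = .ofAdd 1 * w ∨ u = .ofAdd 1 * (.ofAdd 1 * w)) w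
  refine T3.exists_cl ⟨x.injective.ne e1, x.injective.ne e2, x.injective.ne e3, g, k1, k2 _, k2 _,
      (k2 _).trans (congrArg x e4), fun y l1 l2 l3 => k3 y fun u hu => ?_⟩
  rcases e5 u with rfl | rfl | rfl
  exacts [l1 hu.symm, l2 hu.symm, l3 hu.symm]

/-- the permutations fixing each member of a family of sets -/
def fixS (S : Finset (Finset α)) : Subgroup (Perm α) := fixingSubgroup (Perm α) (S : Set (Finset α))

theorem mem_fixS {S : Finset (Finset α)} {g : Perm α} : g ∈ fixS S ↔ ∀ D ∈ S, g • D = D :=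
  mem_fixingSubgroup_iff _

theorem smul_eq_iff {g : Perm α} : g • D = D ↔ ∀ a, g a ∈ D ↔ a ∈ D := by
  refine ⟨fun h a => ?_, fun h => ext fun a => ?_⟩
  · conv_lhs => rw [← h]
    exact smul_mem_smul_finset_iff g
  · rw [mem_smul_iff, ← h, Equiv.apply_symm_apply]

theorem card_fixS {S : Finset (Finset α)} (h : ∀ D ∈ S, ∀ E ∈ S, ∀ a ∈ D, a ∈ E → D = E) :
    Nat.card (fixS S) = (∏ D ∈ S, (#D)!) * (#(S.biUnion id)ᶜ)! := by
  classical
  let f : α → Option S := fun a => if h : ∃ D : S, a ∈ D.1 then some h.choose else none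
  have h1 : ∀ a (D : S), f a = some D ↔ a ∈ D.1 := fun a D => by
    by_cases k : ∃ D : S, a ∈ D.1
    · simp only [f, dif_pos k, Option.some.injEq]
      exact ⟨fun e => e ▸ k.choose_spec,
        fun e => Subtype.ext (h _ k.choose.2 _ D.2 a k.choose_spec e)⟩
    · simp only [f, dif_neg k]; simpa using fun e => k ⟨D, e⟩
  have h2 : ∀ a, f a = none ↔ a ∈ (S.biUnion id)ᶜ := fun a => by simp [f]
  have h3 := DomMulAct.stabilizer_card f
  rw [Fintype.prod_option, ← Nat.card_eq_fintype_card] at h3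
  simp only [h1, h2, Fintype.card_coe] at h3
  rw [mul_comm, ← prod_coe_sort S, ← h3]
  refine Nat.card_congr (Equiv.subtypeEquivRight fun g => ?_)
  rw [mem_fixS, funext_iff]
  refine ⟨fun k a => Option.ext fun D => ?_, fun k D hD => smul_eq_iff.2 fun a => ?_⟩
  · rw [Function.comp, h1, h1, smul_eq_iff.1 (k _ D.2)]
  · rw [← h1 _ ⟨D, hD⟩, ← h1 _ ⟨D, hD⟩, ← k a]; rfl

theorem two_mul_card_inf {W : Subgroup (Perm α)} (hab : a ≠ b) (h : swap a b ∈ W) :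
    2 * Nat.card ↥(W ⊓ alternatingGroup α) = Nat.card W := by
  have : Nontrivial α := ⟨a, b, hab⟩
  have h1 := Subgroup.relIndex_dvd_index_of_normal (alternatingGroup α) W
  rw [alternatingGroup.index_eq_two, Nat.dvd_prime prime_two, Subgroup.relIndex_eq_one] at h1
  rcases h1 with h1 | h1
  · exact absurd (Perm.mem_alternatingGroup.1 (h1 h)) (by rw [Perm.sign_swap hab]; decide)
  rw [← h1, ← Nat.card_congr (Subgroup.subgroupOfEquivOfLe inf_le_left).toEquiv,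
    Subgroup.inf_subgroupOf_left]
  exact Subgroup.index_mul_card _

theorem swap_smul (h : a ∈ D ↔ b ∈ D) : swap a b • D = D :=
  smul_eq_iff.2 fun x => by rw [swap_apply_def]; split_ifs <;> simp [*]

theorem two_mul_card_dvd {S : Finset (Finset α)} (h : ∀ D ∈ S, ∀ E ∈ S, ∀ a ∈ D, a ∈ E → D = E)
    (hD : D ∈ S) (h2 : 2 ≤ #D) (hA : L ≤ alternatingGroup α) (hL : L ≤ fixS S) :
    2 * Nat.card L ∣ (∏ D ∈ S, (#D)!) * (#(S.biUnion id)ᶜ)! := by
  obtain ⟨a, ha, b, hb, hab⟩ := one_lt_card.1 h2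
  rw [← card_fixS h, ← two_mul_card_inf hab (mem_fixS.2 fun E hE => swap_smul
    ⟨fun k => h D hD E hE a ha k ▸ hb, fun k => h D hD E hE b hb k ▸ ha⟩)]
  exact Nat.mul_dvd_mul_left 2 (Subgroup.card_dvd_of_le (le_inf hL hA))

theorem card_compl_biUnion {S : Finset (Finset α)} (h : ∀ D ∈ S, ∀ E ∈ S, ∀ a ∈ D, a ∈ E → D = E) :
    ∑ D ∈ S, #D + #(S.biUnion id)ᶜ = Fintype.card α := by
  rw [← card_add_card_compl (S.biUnion id), card_biUnion]
  · rfl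
  · exact fun D hD E hE hn => disjoint_left.2 fun a k l => hn (h D hD E hE a k l)

theorem two_mul_card_dvd' {S : Finset (Finset α)} (h : ∀ D ∈ S, ∀ E ∈ S, ∀ a ∈ D, a ∈ E → D = E)
    (hD : D ∈ S) (h2 : 2 ≤ #D) (hA : L ≤ alternatingGroup α) (hL : ∀ g ∈ L, ∀ D ∈ S, g • D ∈ S) :
    2 * Nat.card L ∣ (∏ D ∈ S, (#D)!) * (#(S.biUnion id)ᶜ)! * (#S)! := by
  let B : SubMulAction L (Finset α) := ⟨S, fun g _ hD => hL g.1 g.2 _ hD⟩
  let χ := MulAction.toPermHom L B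
  have h1 := two_mul_card_dvd (L := χ.ker.map L.subtype) h hD h2
    ((Subgroup.map_subtype_le _).trans hA) (by
      rintro _ ⟨g, hg, rfl⟩
      exact mem_fixS.2 fun E hE => congrArg Subtype.val (Equiv.congr_fun hg ⟨E, hE⟩))
  rw [Subgroup.card_subtype] at h1
  rw [← χ.ker.card_mul_index, ← mul_assoc, Subgroup.index_ker]
  refine Nat.mul_dvd_mul h1 ((Subgroup.card_subgroup_dvd_card _).trans ?_)
  rw [Nat.card_perm]
  exact (congrArg _ (Nat.card_eq_finsetCard S)).dvd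

theorem not_dvd_of_hall [Nontrivial α] (hA : L ≤ alternatingGroup α)
    (hL : IsPiHall π (L.subgroupOf (alternatingGroup α))) {R M : ℕ} (h1 : 2 * Nat.card L ∣ R)
    (h2 : (Fintype.card α)! = R * M) {p : ℕ} (hp : p.Prime) (hπ : p ∈ π) : ¬ p ∣ M := by
  obtain ⟨c, rfl⟩ := h1
  rw [← Fintype.card_perm, ← Nat.card_eq_fintype_card, ← two_mul_nat_card_alternatingGroup,
    ← (L.subgroupOf _).card_mul_index, Nat.card_congr (Subgroup.subgroupOfEquivOfLe hA).toEquiv,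
    mul_assoc, mul_assoc] at h2
  have h3 := Nat.eq_of_mul_eq_mul_left Nat.card_pos (Nat.eq_of_mul_eq_mul_left two_pos h2)
  exact fun h => hL.2 p hp hπ (h3 ▸ h.mul_left c)

end CfsgH5
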