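/-
Hall subgroups of alternating and symmetric groups.
-/
import Cfsg.Agent.H5.Jor
import Cfsg.Agent.H5.Binom

set_option autoImplicit false
set_option linter.unusedSectionVars false

namespace CfsgH5

open Cfsg Equiv Finset Nat
open scoped Pointwise

variable {α : Type*} [Fintype α] [DecidableEq α] {π : Set ℕ} {L : Subgroup (Perm α)}
  {D E : Finset α}

/-- the cases in which there is a proper Hall subgroup that is not a Sylow subgroup -/
def Cond (π : Set ℕ) (n d : ℕ) : Prop :=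
  (n.Prime ∧ d + 1 = n ∧ ∀ r : ℕ, r.Prime → r ≤ n → (r ∈ π ↔ r < n)) ∨
    ((n = 7 ∨ n = 8) ∧ d = 4 ∧ ∀ r : ℕ, r.Prime → r ≤ n → (r ∈ π ↔ (r = 2 ∨ r = 3)))

/-- two primes up to `n` are in `π`, and one is not -/
def NTriv (π : Set ℕ) (n : ℕ) : Prop :=
  (∃ r s : ℕ, r.Prime ∧ s.Prime ∧ r ≠ s ∧ r ∈ π ∧ s ∈ π ∧ r ≤ n ∧ s ≤ n) ∧
    ∃ r : ℕ, r.Prime ∧ r ≤ n ∧ r ∉ π

theorem NTriv.five_le {n : ℕ} (h : NTriv π n) : 5 ≤ n := by
  obtain ⟨⟨r, s, h1, h2, h3, h4, h5, h6, h7⟩, t, k1, k2, k3⟩ := h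
  have e1 : t ≠ r := fun e => k3 (e ▸ h4)
  have e2 : t ≠ s := fun e => k3 (e ▸ h5)
  have e3 : ∀ {p : ℕ}, p.Prime → 2 ≤ p ∧ p ≠ 4 := fun hp => ⟨hp.two_le, by rintro rfl; norm_num at hp⟩
  have := e3 h1; have := e3 h2; have := e3 k1
  omega

theorem choose_dvd_uniformBell (d : ℕ) {i r : ℕ} (h : i < r) :
    (i * d + d - 1).choose (d - 1) ∣ uniformBell r d := by
  rw [uniformBell_eq]; exact dvd_prod_of_mem _ (mem_range.2 h)

theorem exists_notMem_of_lt {Z : Finset α} {q : ℕ} (h : #Z < q) (hq : q ≤ Fintype.card α) :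
    ∃ a, a ∉ Z := by
  obtain ⟨a, -, ha⟩ := exists_mem_notMem_of_card_lt_card (s := Z) (t := univ) (h.trans_le hq)
  exact ⟨a, ha⟩

theorem pair_not_dvd (hA : L ≤ alternatingGroup α)
    (hL : IsPiHall π (L.subgroupOf (alternatingGroup α))) (h2 : 2 ≤ #D) (hd : Disjoint D E)
    (hD : ∀ g ∈ L, g • D = D) (hE : ∀ g ∈ L, g • E = E) {p : ℕ} (hp : p.Prime) (hπ : p ∈ π) :
    ¬ p ∣ (#D + #E).choose #E := by
  have : Nontrivial α := Fintype.one_lt_card_iff_nontrivial.1 (h2.trans (card_le_univ D))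
  have hn : D ≠ E := by
    rintro rfl
    rw [disjoint_self.1 hd] at h2; simp at h2
  have h3 : ∀ X ∈ ({D, E} : Finset (Finset α)), ∀ Y ∈ ({D, E} : Finset (Finset α)), ∀ a ∈ X,
      a ∈ Y → X = Y := by
    simp only [mem_insert, mem_singleton]
    rintro _ (rfl | rfl) _ (rfl | rfl) a k l
    exacts [rfl, absurd l (disjoint_left.1 hd k), absurd k (disjoint_left.1 hd l), rfl]
  have h4 := two_mul_card_dvd h3 (mem_insert_self _ _) h2 hA fun g hg => mem_fixS.2 (by
    simp [hD g hg, hE g hg])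
  have h5 := card_compl_biUnion h3
  rw [prod_pair hn] at h4
  rw [sum_pair hn] at h5
  refine fun h => not_dvd_of_hall hA hL h4 (M := (#D + #E).choose #E * (Fintype.card α).choose
    #(({D, E} : Finset (Finset α)).biUnion id)ᶜ) ?_ hp hπ (h.mul_right _)
  rw [← h5, ← add_choose_mul_factorial_mul_factorial, ← add_choose_mul_factorial_mul_factorial #D #E]
  ring

theorem family_not_dvd (hA : L ≤ alternatingGroup α)
    (hL : IsPiHall π (L.subgroupOf (alternatingGroup α))) {S : Finset (Finset α)} {d : ℕ}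
    (h : ∀ D ∈ S, ∀ E ∈ S, ∀ a ∈ D, a ∈ E → D = E) (hD : D ∈ S) (h1 : ∀ D ∈ S, #D = d) (h2 : 2 ≤ d)
    (hS : ∀ g ∈ L, ∀ D ∈ S, g • D ∈ S) {p : ℕ} (hp : p.Prime) (hπ : p ∈ π) :
    ¬ p ∣ uniformBell #S d * (#S * d + #(S.biUnion id)ᶜ).choose #(S.biUnion id)ᶜ := by
  have : Nontrivial α :=
    Fintype.one_lt_card_iff_nontrivial.1 (h2.trans (h1 D hD ▸ card_le_univ D))
  have h4 := two_mul_card_dvd' h hD (h1 D hD ▸ h2) hA hS
  have h5 := card_compl_biUnion h
  rw [prod_congr rfl fun D hD => congrArg _ (h1 D hD), prod_const] at h4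
  rw [sum_congr rfl h1, sum_const, smul_eq_mul] at h5
  refine not_dvd_of_hall hA hL h4 ?_ hp hπ
  rw [← h5, ← add_choose_mul_factorial_mul_factorial, ← uniformBell_mul_eq _ (by omega : d ≠ 0)]
  ring

theorem two_three_mem (hA : L ≤ alternatingGroup α)
    (hL : IsPiHall π (L.subgroupOf (alternatingGroup α))) (hN : NTriv π (Fintype.card α)) :
    2 ∈ π ∧ 3 ∈ π := by
  have hπ : ∀ p, p.Prime → p ∣ Nat.card L → p ∈ π := fun p hp h =>
    hL.1 p hp (by rwa [Nat.card_congr (Subgroup.subgroupOfEquivOfLe hA).toEquiv])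
  have key : ∀ {q m : ℕ} {P : Finset α → Prop}, q.Prime → q ∈ π → q ≠ 2 → q ≤ Fintype.card α →
      (∀ g ∈ L, ∀ D, P D → P (g • D)) → (∀ D E a, P D → P E → a ∈ D → a ∈ E → D = E) →
      (∃ Z : Finset α, #Z < m ∧ ∀ a ∉ Z, ∃ X, a ∈ X ∧ #X = m ∧ P X) → m < q → m ∣ q := by
    rintro q m P h1 h2 h3 h4 h5 h6 ⟨Z, k1, k2⟩ h7
    obtain ⟨Y, l1, l2⟩ := exists_jor hL h1 h2 h3
    obtain ⟨a, ha⟩ := exists_notMem_of_lt l1 h4
    obtain ⟨X, -, l3, l4⟩ := l2 a ha
    obtain ⟨b, hb, hb'⟩ := exists_mem_notMem_of_card_lt_card (s := Z) (t := X) (by omega)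
    obtain ⟨D, k3, k4, k5⟩ := k2 b hb'
    rcases l4.block h5 h6 k5 hb k3 with h | h
    · have := card_le_card h; omega
    · exact k4 ▸ l3 ▸ h.2
  obtain ⟨r, s, h1, h2, h3, h4, h5, h6, h7⟩ := hN.1
  have e2 : 2 ∈ π := by
    by_contra hn
    wlog hrs : r < s generalizing r s
    · exact this s r h2 h1 h3.symm h5 h4 h7 h6 (by omega)
    obtain ⟨Z, k1, k2⟩ := exists_jor hL h1 h4 fun e => hn (e ▸ h4)
    exact h3 ((prime_dvd_prime_iff_eq h1 h2).1 (key (P := fun D => #D = r ∧ Jor L D) h2 h5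
      (fun e => hn (e ▸ h5)) h7
      (fun g hg D hD => ⟨(card_smul_finset g D).trans hD.1, hD.2.smul (Nz.of_mem hg)⟩)
      (fun D E a hD hE l1 l2 => by_contra fun l3 =>
        hn (hπ 2 prime_two (hD.2.even hE.2 (hD.1.trans hE.1.symm) l1 l2 l3)))
      ⟨Z, k1, fun a ha => (k2 a ha).imp fun X hX => ⟨hX.1, hX.2.1, hX.2⟩⟩ hrs))
  refine ⟨e2, by_contra fun hn => ?_⟩
  wlog hs : s ≠ 2 generalizing r s
  · exact this s r h2 h1 h3.symm h5 h4 h7 h6 (by omega)
  obtain ⟨Z, k1, k2⟩ := exists_jor2 hL e2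
  have := key (P := fun D => #D = 4 ∧ Jor2 L D) h2 h5 hs h7
    (fun g hg D hD => ⟨(card_smul_finset g D).trans hD.1, hD.2.smul (Nz.of_mem hg)⟩)
    (fun D E a hD hE l1 l2 => by_contra fun l3 =>
      hn (hπ 3 prime_three (hD.2.three hE.2 (hD.1.trans hE.1.symm) l1 l2 l3)))
    ⟨Z, k1, fun a ha => (k2 a ha).imp fun X hX => ⟨hX.1, hX.2.1, hX.2⟩⟩
    (lt_of_lt_of_le (by norm_num) (h2.five_le_of_ne_two_of_ne_three hs fun e => hn (e ▸ h5)))
  rcases (Nat.dvd_prime h2).1 this with h | rfl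
  · norm_num at h
  · norm_num at h2

theorem hall_alt_main (hA : L ≤ alternatingGroup α)
    (hL : IsPiHall π (L.subgroupOf (alternatingGroup α))) (hN : NTriv π (Fintype.card α)) :
    ∃ D : Finset α, Cond π (Fintype.card α) #D ∧ ∀ h, Nz L h → h • D = D ∨ h • D = Dᶜ := by
  classical
  obtain ⟨e2, e3⟩ := two_three_mem hA hL hN
  have h5 := hN.five_le
  obtain ⟨Z3, z1, z2⟩ := exists_cl hL e3
  obtain ⟨Z4, z3, z4⟩ := exists_jor2 hL e2
  have sub : ∀ X, Jor L X → 3 ≤ #X → (#X).Prime ∨ #X = 4 → ∃ D, IsCl L D ∧ X ⊆ D := by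
    intro X hX h1 h2
    obtain ⟨b, hb, hb'⟩ := exists_mem_notMem_of_card_lt_card (s := Z3) (t := X) (by omega)
    obtain ⟨D, k1, k2⟩ := z2 b hb'
    refine ⟨D, k1, (hX.block (fun g hg D hD => hD.smul (Nz.of_mem hg))
      (fun D E a hD hE => hD.unique hE) k1 hb k2).elim id fun h => ?_⟩
    refine (eq_of_subset_of_card_le h.1 ?_).ge
    have h3 := k1.1
    rcases h2 with h2 | h2
    · rcases (Nat.dvd_prime h2).1 h.2 with e | e <;> omega
    · have h4 := h.2
      rw [h2] at h4 ⊢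
      by_contra hn
      rw [show #D = 3 by omega] at h4
      norm_num at h4
  have z5 : ∀ a ∉ Z4, ∃ D, IsCl L D ∧ a ∈ D ∧ 4 ≤ #D := fun a ha => by
    obtain ⟨X, k1, k2, k3⟩ := z4 a ha
    obtain ⟨D, k4, k5⟩ := sub X k3.jor (by omega) (Or.inr k2)
    exact ⟨D, k4, k5 k1, k2 ▸ card_le_card k5⟩
  have inπ : ∀ D, IsCl L D → ∀ p, p.Prime → p ≤ #D → p ∈ π := by
    intro D hD p hp h1
    rcases eq_or_ne p 2 with rfl | h2
    · exact e2
    obtain ⟨X, k1, rfl⟩ := exists_subset_card_eq h1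
    refine hL.1 _ hp ?_
    rw [Nat.card_congr (Subgroup.subgroupOfEquivOfLe hA).toEquiv]
    exact (hD.jor k1 (by have := hp.two_le; omega)).dvd (card_pos.1 hp.pos)
  obtain ⟨a, ha⟩ := exists_notMem_of_lt z3 (by omega)
  obtain ⟨D0, hD0, -, hD4⟩ := z5 a ha
  obtain ⟨D, hD, hmax⟩ := exists_max_image (univ.filter (IsCl L)) card ⟨D0, by simpa using hD0⟩
  simp only [mem_filter, mem_univ, true_and] at hD hmax
  have h4 : 4 ≤ #D := hD4.trans (hmax _ hD0)
  have hπ : ∀ r, r.Prime → r ≤ Fintype.card α → (r ∈ π ↔ r ≤ #D) := by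
    refine fun r hr h1 => ⟨fun h2 => ?_, inπ D hD r hr⟩
    rcases eq_or_ne r 2 with rfl | h3
    · omega
    obtain ⟨Y, l1, l2⟩ := exists_jor hL hr h2 h3
    obtain ⟨a, ha⟩ := exists_notMem_of_lt l1 h1
    obtain ⟨X, -, rfl, l4⟩ := l2 a ha
    obtain ⟨E, k1, k2⟩ := sub X l4 (by have := hr.two_le; omega) (Or.inl hr)
    exact (card_le_card k2).trans (hmax E k1)
  have hπ4 : #D = 4 → ∀ r, r.Prime → r ≤ Fintype.card α → (r ∈ π ↔ r = 2 ∨ r = 3) := by
    intro h r hr h1
    have := hr.two_le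
    have : r ≠ 4 := by rintro rfl; norm_num at hr
    rw [hπ r hr h1]; omega
  by_cases hc : ∃ E F, IsCl L E ∧ IsCl L F ∧ E ≠ F ∧ #E = #F
  · obtain ⟨E, F, hE, hF, hn, hc⟩ := hc
    set S := univ.filter fun X => IsCl L X ∧ #X = #E with hS
    have mS : ∀ X, X ∈ S ↔ IsCl L X ∧ #X = #E := by simp [hS]
    have dS : ∀ X ∈ S, ∀ Y ∈ S, ∀ a ∈ X, a ∈ Y → X = Y := fun X hX Y hY a =>
      ((mS X).1 hX).1.unique ((mS Y).1 hY).1
    have iS : ∀ g, Nz L g → ∀ X ∈ S, g • X ∈ S := fun g hg X hX =>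
      (mS _).2 ⟨((mS X).1 hX).1.smul hg, (card_smul_finset g X).trans ((mS X).1 hX).2⟩
    have h3 := hE.1
    have k1 := fun p => family_not_dvd (p := p) hA hL dS ((mS E).2 ⟨hE, rfl⟩)
      (fun X hX => ((mS X).1 hX).2) (by omega : 2 ≤ #E) fun g hg => iS g (Nz.of_mem hg)
    have sEF : {E, F} ⊆ S := by simp [insert_subset_iff, mS, hE, hF, hc]
    have k2 : 2 ≤ #S := card_pair hn ▸ card_le_card sEF
    have k3 := choose_dvd_uniformBell #E k2
    have k4 : #E = 4 := (binom_small_prime (k := #E) (m := #E - 1) (by omega) (by omega)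
      fun p hp h1 h2 => k1 p hp (inπ E hE p hp h1) ((h2.trans (by
        rwa [show #E + (#E - 1) = 1 * #E + #E - 1 by omega])).mul_right _)).1
    have k5 : #D = 4 := by
      by_contra h
      exact k1 5 prime_five (inπ D hD 5 prime_five (by omega))
        ((Dvd.dvd.trans (by rw [k4]; decide) k3).mul_right _)
    have k6 : #S = 2 := by
      by_contra h
      exact k1 3 prime_three e3 ((Dvd.dvd.trans (by rw [k4]; decide)
        (choose_dvd_uniformBell #E (show 2 < #S by omega))).mul_right _)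
    have k7 : (S.biUnion id)ᶜ ⊆ Z4 := fun a ha => by_contra fun h => by
      obtain ⟨X, l1, l2, l3⟩ := z5 a h
      have := hmax X l1
      exact mem_compl.1 ha (mem_biUnion.2 ⟨X, (mS X).2 ⟨l1, by omega⟩, l2⟩)
    have k8 : #(S.biUnion id)ᶜ = 0 := by
      have l1 := card_le_card k7
      have l2 : ¬ 3 ∣ _ := fun h => k1 3 prime_three e3 (Dvd.dvd.mul_left h _)
      rw [k6, k4] at l2
      exact (by decide : ∀ e < 4, ¬ 3 ∣ (2 * 4 + e).choose e → e = 0) _ (by omega) l2
    have k9 := card_compl_biUnion dS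
    rw [← eq_of_subset_of_card_le sEF (by rw [k6, card_pair hn]), sum_pair hn] at k9
    rw [← eq_of_subset_of_card_le sEF (by rw [k6, card_pair hn])] at iS k8
    refine ⟨E, Or.inr ⟨Or.inr (by omega), k4, hπ4 k5⟩, fun h hh => ?_⟩
    have l1 : F = Eᶜ := eq_of_subset_of_card_le
      (fun a k => mem_compl.2 fun l => hn (hE.unique hF l k)) (by rw [card_compl]; omega)
    simpa [l1] using iS h hh E (mem_insert_self _ _)
  have inv : ∀ E, IsCl L E → ∀ h, Nz L h → h • E = E := fun E hE h hh => by_contra fun hn =>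
    hc ⟨_, _, hE.smul hh, hE, hn, card_smul_finset h E⟩
  refine ⟨D, ?_, fun h hh => Or.inl (inv D hD h hh)⟩
  have k0 := card_add_card_compl D
  by_cases hE : ∃ E, IsCl L E ∧ E ≠ D
  · obtain ⟨E, hE, hn⟩ := hE
    have hd : Disjoint D E := disjoint_left.2 fun a k l => hn (hE.unique hD l k)
    have h3 := hE.1
    obtain ⟨k1, k2⟩ := binom_small_prime (by omega) (hmax E hE) fun p hp h1 =>
      pair_not_dvd hA hL (by omega) hd (fun g hg => inv D hD g (Nz.of_mem hg))
        (fun g hg => inv E hE g (Nz.of_mem hg)) hp (inπ D hD p hp h1)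
    have k3 : Dᶜ ⊆ Z4 := fun a ha => by_contra fun h => by
      obtain ⟨X, l1, l2, l3⟩ := z5 a h
      have := hmax X l1
      exact hc ⟨X, D, l1, hD, fun e => mem_compl.1 ha (e ▸ l2), by omega⟩
    have k4 := card_le_card k3
    have k5 := card_le_card (subset_compl_iff_disjoint_left.2 hd)
    exact Or.inr ⟨Or.inl (by omega), k1, hπ4 k1⟩
  have k1 : Dᶜ ⊆ Z3 := fun a ha => by_contra fun h => by
    obtain ⟨X, l1, l2⟩ := z2 a h
    exact hE ⟨X, l1, fun e => mem_compl.1 ha (e ▸ l2)⟩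
  have k2 := card_le_card k1
  have k3 := fun p hp h1 => pair_not_dvd (p := p) hA hL (by omega) disjoint_compl_right
    (fun g hg => inv D hD g (Nz.of_mem hg)) (fun g hg => smul_eq_iff.2 fun a => by
      rw [mem_compl, mem_compl, smul_eq_iff.1 (inv D hD g (Nz.of_mem hg))]) hp (inπ D hD p hp h1)
  obtain ⟨t, l1, l2, l3⟩ := hN.2
  rw [hπ t l1 l2] at l3
  have k4 : #Dᶜ = 1 := by
    by_contra h
    have := binom_small_prime (by omega) (by omega) k3
    omega
  rw [k4, choose_one_right] at k3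
  refine Or.inl ⟨?_, by omega, fun r hr h1 => by rw [hπ r hr h1]; omega⟩
  have h1 : #D + 1 ≠ 1 := by omega
  rw [show Fintype.card α = #D + 1 by omega]
  exact prime_def_minFac.2 ⟨by omega, (minFac_le (succ_pos _)).antisymm
    (not_le.1 fun h => k3 _ (minFac_prime h1) h (minFac_dvd _))⟩

theorem smul_compl (g : Perm α) (D : Finset α) : g • Dᶜ = (g • D)ᶜ := by
  ext; simp [mem_smul_iff]

/-- the stabiliser of the partition into `D` and its complement -/
def WW (D : Finset α) : Subgroup (Perm α) where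
  carrier := {g | g • D = D ∨ g • D = Dᶜ}
  one_mem' := Or.inl (one_smul _ _)
  mul_mem' := by
    rintro g h (k | k) (l | l) <;> simp [mul_smul, smul_compl, k, l]
  inv_mem' := by
    rintro g (k | k)
    · exact Or.inl (inv_smul_eq_iff.2 k.symm)
    · exact Or.inr (inv_smul_eq_iff.2 (by rw [smul_compl, k, compl_compl]))

theorem mem_WW {g : Perm α} : g ∈ WW D ↔ g • D = D ∨ g • D = Dᶜ := Iff.rfl

theorem exists_alt_smul (h : #D = #E) (h2 : 2 ≤ #D) : ∃ g ∈ alternatingGroup α, g • D = E := by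
  obtain ⟨σ, hσ⟩ := Perm.exists_map_finset_eq D E h
  have h1 : σ • D = E := by rw [← hσ]; ext; simp [mem_smul_iff]
  obtain ⟨a, ha, b, hb, hab⟩ := one_lt_card.1 h2
  rcases Int.units_eq_one_or (Perm.sign σ) with k | k
  · exact ⟨σ, k, h1⟩
  · exact ⟨σ * swap a b, by simp [Perm.mem_alternatingGroup, k, Perm.sign_swap hab],
      by rw [mul_smul, swap_smul (iff_of_true ha hb), h1]⟩

theorem conj_mem_WW {g h : Perm α} : g * h * g⁻¹ ∈ WW (g • D) ↔ h ∈ WW D := by
  simp [mem_WW, mul_smul, ← smul_compl]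

theorem Cond.unique {n d e : ℕ} (h : Cond π n d) (k : Cond π n e) : d = e := by
  have key : n.Prime → (∀ r : ℕ, r.Prime → r ≤ n → (r ∈ π ↔ r < n)) → n = 7 ∨ n = 8 →
      ¬ ∀ r : ℕ, r.Prime → r ≤ n → (r ∈ π ↔ (r = 2 ∨ r = 3)) := fun h1 h2 h3 h4 => by
    have := (h4 5 prime_five (by omega)).1 ((h2 5 prime_five (by omega)).2 (by omega))
    omega
  rcases h with h | h <;> rcases k with k | k
  · omega
  · exact absurd k.2.2 (key h.1 h.2.2 k.1)
  · exact absurd h.2.2 (key k.1 k.2.2 h.1)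
  · omega

theorem hall_WW (h5 : 5 ≤ Fintype.card α) (h : Cond π (Fintype.card α) #D) : IsPiHall π (WW D) := by
  have h1 : Nat.card (fixS {D}) = (#D)! * (#Dᶜ)! := by
    rw [card_fixS (by simp)]; simp
  have h2 : fixS {D} ≤ WW D := fun g hg => Or.inl (mem_fixS.1 hg D (mem_singleton_self D))
  have h3 : (fixS {D}).relIndex (WW D) ∣ 2 := by
    by_cases k : ∃ g ∈ WW D, g • D = Dᶜ
    · obtain ⟨g, k1, k2⟩ := k
      refine Subgroup.index_dvd_two_iff.2 ⟨⟨g, k1⟩, fun ⟨b, hb⟩ => ?_⟩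
      rcases hb with k | k <;> simp [Subgroup.mem_subgroupOf, mem_fixS, mul_smul, smul_compl, k, k2]
    · rw [Subgroup.relIndex_eq_one.2 fun g hg => mem_fixS.2 (by
        simpa using hg.resolve_right fun l => k ⟨g, hg, l⟩)]
      exact one_dvd 2
  have h4 := card_add_card_compl D
  have h6 : (fixS {D}).index = (#D + #Dᶜ).choose #Dᶜ := by
    refine Nat.eq_of_mul_eq_mul_left (Nat.card_pos (α := fixS {D})) ?_
    rw [Subgroup.card_mul_index, h1, Nat.card_perm, Nat.card_eq_fintype_card, ← h4,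
      ← add_choose_mul_factorial_mul_factorial]
    ring
  have h7 := Subgroup.relIndex_mul_index h2
  have h8 : ∀ p, p.Prime → p ∣ Nat.card (WW D) → p ≤ 2 ∨ p ≤ #D ∨ p ≤ #Dᶜ := fun p hp k => by
    rw [← ((fixS {D}).subgroupOf (WW D)).index_mul_card,
      Nat.card_congr (Subgroup.subgroupOfEquivOfLe h2).toEquiv, h1, hp.dvd_mul, hp.dvd_mul,
      hp.dvd_factorial, hp.dvd_factorial] at k
    exact k.imp_left fun k => Nat.le_of_dvd two_pos (k.trans h3)
  have h9 : ∀ p : ℕ, p.Prime → p ∣ 35 → p ≤ 7 ∧ ¬ (p = 2 ∨ p = 3) := fun p hp k => by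
    rcases (hp.dvd_mul (m := 5) (n := 7)).1 k with k | k
    · rw [(prime_dvd_prime_iff_eq hp prime_five).1 k]; omega
    · rw [(prime_dvd_prime_iff_eq hp prime_seven).1 k]; omega
  rw [h6] at h7
  rcases h with ⟨k1, k2, k3⟩ | ⟨k1, k2, k3⟩
  · refine ⟨fun p hp k => ?_, fun p hp k l => ?_⟩
    · have := h8 p hp k
      exact (k3 p hp (by omega)).2 (by omega)
    · rw [h4, show #Dᶜ = 1 by omega, choose_one_right] at h7
      obtain rfl := (prime_dvd_prime_iff_eq hp k1).1 (h7 ▸ l.mul_left _)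
      exact absurd ((k3 _ hp le_rfl).1 k) (lt_irrefl _)
  · refine ⟨fun p hp k => ?_, fun p hp k l => ?_⟩
    · have := h8 p hp k
      have := hp.two_le
      have : p ≠ 4 := by rintro rfl; norm_num at hp
      exact (k3 p hp (by omega)).2 (by omega)
    · suffices p ∣ 35 from (h9 p hp this).2 ((k3 p hp (by have := h9 p hp this; omega)).1 k)
      rcases k1 with k1 | k1
      · rw [k2, show #Dᶜ = 3 by omega] at h7
        exact (l.mul_left _).trans h7.dvd
      · rw [k2, show #Dᶜ = 4 by omega] at h7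
        rcases (Nat.dvd_prime prime_two).1 h3 with e | e
        · obtain ⟨g, -, hg⟩ := exists_alt_smul (D := D) (E := Dᶜ) (by omega) (by omega)
          have := mem_fixS.1 (Subgroup.relIndex_eq_one.1 e (Or.inr hg)) D (mem_singleton_self D)
          obtain ⟨a, ha⟩ := card_pos.1 (show 0 < #D by omega)
          exact absurd ha (mem_compl.1 (hg ▸ this.symm ▸ ha))
        · rw [e, show Nat.choose (4 + 4) 4 = 70 by decide] at h7
          exact l.trans (Dvd.intro 1 (by omega))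

theorem hall_sym (hN : NTriv π (Fintype.card α)) {H : Subgroup (Perm α)} (hH : IsPiHall π H) :
    ∃ D : Finset α, Cond π (Fintype.card α) #D ∧ H = WW D := by
  obtain ⟨D, h1, h2⟩ := hall_alt_main (L := H ⊓ alternatingGroup α) inf_le_right
    (by rw [Subgroup.inf_subgroupOf_right]; exact hall_subgroupOf hH _) hN
  exact ⟨D, h1, hall_eq_of_le hH (hall_WW hN.five_le h1).1 fun h hh => h2 h fun g hg =>
    ⟨Nz.of_mem hh g hg.1, Subgroup.Normal.conj_mem inferInstance g hg.2 h⟩⟩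

theorem hall_alt (hN : NTriv π (Fintype.card α)) {M : Subgroup (alternatingGroup α)}
    (hM : IsPiHall π M) :
    ∃ D : Finset α, Cond π (Fintype.card α) #D ∧ M = (WW D).subgroupOf (alternatingGroup α) := by
  obtain ⟨D, h1, h2⟩ := hall_alt_main (L := M.map (alternatingGroup α).subtype)
    (Subgroup.map_subtype_le M) (by
      rwa [Subgroup.subgroupOf, Subgroup.comap_map_eq_self_of_injective Subtype.val_injective]) hN
  exact ⟨D, h1, hall_eq_of_le hM (pi_subgroupOf (hall_WW hN.five_le h1).1 _) fun h hh =>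
    h2 h (Nz.of_mem ⟨h, hh, rfl⟩)⟩

theorem Cond.four_le {n d : ℕ} (h : Cond π n d) (h5 : 5 ≤ n) : 4 ≤ d ∧ d ≤ n := by
  rcases h with h | h <;> omega

theorem E_sym_of {d : ℕ} (h5 : 5 ≤ Fintype.card α) (h : Cond π (Fintype.card α) d) :
    IsEPiGroup π (Perm α) := by
  obtain ⟨D, -, rfl⟩ := exists_subset_card_eq (s := (univ : Finset α)) (h.four_le h5).2
  exact ⟨_, hall_WW h5 h⟩

theorem le_of_dvd_card {p : ℕ} (hp : p.Prime) (H : Subgroup (Perm α)) (h : p ∣ Nat.card H) :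
    p ≤ Fintype.card α := by
  have := h.trans H.card_subgroup_dvd_card
  rwa [Nat.card_perm, Nat.card_eq_fintype_card, hp.dvd_factorial] at this

theorem D_of_not {G : Type*} [Group G] [Finite G] {n : ℕ} (hN : ¬ NTriv π n)
    (h : ∀ p : ℕ, p.Prime → p ∣ Nat.card G → p ≤ n) : IsDPiGroup π G := by
  refine D_of_triv (or_iff_not_imp_right.2 fun k r s h1 h2 h3 h4 h5 h6 => by_contra fun h7 => k
    fun t l1 l2 => by_contra fun l3 =>
      hN ⟨⟨r, s, h1, h2, h7, h3, h4, h r h1 h5, h s h2 h6⟩, t, l1, h t l1 l2, l3⟩)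

theorem D_sym (hN : ¬ NTriv π (Fintype.card α)) : IsDPiGroup π (Perm α) :=
  D_of_not hN fun _ hp h => le_of_dvd_card hp ⊤ (by simpa using h)

theorem D_alt (hN : ¬ NTriv π (Fintype.card α)) : IsDPiGroup π (alternatingGroup α) :=
  D_of_not hN fun _ hp h => le_of_dvd_card hp _ h

theorem hall_alt_iff (M : Subgroup (alternatingGroup α)) : IsPiHall π M ↔
    ∃ M₀ : Subgroup (Perm α), IsPiHall π M₀ ∧ M = M₀.subgroupOf (alternatingGroup α) := by
  refine ⟨fun hM => ?_, fun ⟨H, h1, h2⟩ => h2 ▸ hall_subgroupOf h1 _⟩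
  by_cases hN : NTriv π (Fintype.card α)
  · obtain ⟨D, h1, h2⟩ := hall_alt hN hM
    exact ⟨_, hall_WW hN.five_le h1, h2⟩
  · obtain ⟨H, h1, h2⟩ := exists_hall_of_D (D_sym hN) (K := M.map (alternatingGroup α).subtype)
      fun p hp h => hM.1 p hp (by rwa [Subgroup.card_subtype] at h)
    exact ⟨H, h2, hall_eq_of_le hM (pi_subgroupOf h2.1 _) (Subgroup.map_le_iff_le_comap.1 h1)⟩

theorem C_sym (h : IsEPiGroup π (Perm α)) : IsCPiGroup π (Perm α) := by
  by_cases hN : NTriv π (Fintype.card α)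
  · refine ⟨h, fun H K hH hK => ?_⟩
    obtain ⟨D, h1, rfl⟩ := hall_sym hN hH
    obtain ⟨E, h2, rfl⟩ := hall_sym hN hK
    obtain ⟨g, -, rfl⟩ := exists_alt_smul (h1.unique h2) (by have := h1.four_le hN.five_le; omega)
    refine ⟨g, Subgroup.ext fun x => ?_⟩
    obtain ⟨x, rfl⟩ := (MulAut.conj g).surjective x
    exact conj_mem_WW.trans (Subgroup.mem_map_iff_mem (MulAut.conj g).injective).symm
  · exact C_of_D (D_sym hN)

theorem C_alt (h : IsEPiGroup π (alternatingGroup α)) : IsCPiGroup π (alternatingGroup α) := by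
  by_cases hN : NTriv π (Fintype.card α)
  · refine ⟨h, fun H K hH hK => ?_⟩
    obtain ⟨D, h1, rfl⟩ := hall_alt hN hH
    obtain ⟨E, h2, rfl⟩ := hall_alt hN hK
    obtain ⟨g, hg, rfl⟩ := exists_alt_smul (h1.unique h2) (by have := h1.four_le hN.five_le; omega)
    refine ⟨⟨g, hg⟩, Subgroup.ext fun x => ?_⟩
    obtain ⟨x, rfl⟩ := (MulAut.conj (⟨g, hg⟩ : alternatingGroup α)).surjective x
    exact conj_mem_WW.trans (Subgroup.mem_map_iff_mem (MulAut.conj (⟨g, hg⟩ : alternatingGroup α)).injective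
      (K := (WW D).subgroupOf _)).symm
  · exact C_of_D (D_alt hN)

theorem exists_WW_of_D (hN : NTriv π (Fintype.card α)) (hD : IsDPiGroup π (alternatingGroup α))
    {S : Finset (Finset α)} (h : ∀ D ∈ S, ∀ E ∈ S, ∀ a ∈ D, a ∈ E → D = E) (h1 : E ∈ S) (h2 : 2 ≤ #E)
    (h3 : ∀ p : ℕ, p.Prime → p ∣ (∏ D ∈ S, (#D)!) * (#(S.biUnion id)ᶜ)! * (#S)! → p ∈ π) :
    ∃ D : Finset α, Cond π (Fintype.card α) #D ∧
      ∀ g : Perm α, Perm.sign g = 1 → g • S = S → g • D = D ∨ g • D = Dᶜ := by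
  have h4 := two_mul_card_dvd' (L := MulAction.stabilizer (Perm α) S ⊓ alternatingGroup α) h h1 h2
    inf_le_right fun g hg D hD => (show g • S = S from hg.1) ▸ smul_mem_smul_finset hD
  obtain ⟨M, k1, k2⟩ := exists_hall_of_D hD (pi_subgroupOf (H := MulAction.stabilizer (Perm α) S ⊓
    alternatingGroup α) (fun p hp k => h3 p hp ((k.mul_left 2).trans h4)) _)
  obtain ⟨D, k3, rfl⟩ := hall_alt hN k2
  exact ⟨D, k3, fun g l1 l2 => k1 (x := ⟨g, l1⟩) ⟨l2, l1⟩⟩

theorem not_D_alt {n : ℕ} (hN : NTriv π n) : ¬ IsDPiGroup π (alternatingGroup (Fin n)) := by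
  intro hD
  have h5 := hN.five_le
  have hN' : NTriv π (Fintype.card (Fin n)) := by rwa [Fintype.card_fin]
  obtain ⟨M, hM⟩ := (C_of_D hD).1
  obtain ⟨D0, h0, -⟩ := hall_alt hN' hM
  have h1 := h0
  rw [Fintype.card_fin] at h1
  rcases h1 with ⟨k1, k2, k3⟩ | ⟨rfl | rfl, k2, k3⟩
  · obtain ⟨E, -, hE⟩ := exists_subset_card_eq (s := (univ : Finset (Fin n))) (n := 2) (by simp; omega)
    have l0 := card_add_card_compl E
    obtain ⟨D, l1, l2⟩ := exists_WW_of_D hN' hD (S := {E}) (by simp) (mem_singleton_self E) hE.ge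
      fun p hp k => by
        simp only [prod_singleton, singleton_biUnion, id, card_singleton, factorial_one, mul_one,
          hp.dvd_mul, hp.dvd_factorial, Fintype.card_fin] at k l0
        exact (k3 p hp (by omega)).2 (by omega)
    have l3 := card_add_card_compl D
    rw [Fintype.card_fin] at l0 l3
    rw [l1.unique h0] at l3
    obtain ⟨a, ha⟩ := card_eq_one.1 (show #Dᶜ = 1 by omega)
    obtain ⟨u, v, huv, rfl⟩ := card_eq_two.1 hE
    have key : ∀ b c, b ∉ ({u, v} : Finset (Fin n)) → c ∉ ({u, v} : Finset (Fin n)) → b ≠ c →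
        swap u v (swap b c a) = a := fun b c hb hc hn => by
      rcases l2 (swap u v * swap b c) (by simp [Perm.sign_swap huv, Perm.sign_swap hn]) (by
        rw [smul_finset_singleton, mul_smul, swap_smul (iff_of_false hb hc),
          swap_smul (iff_of_true (by simp) (by simp))]) with h | h
      · have := smul_compl (swap u v * swap b c) D
        rw [h, ha, smul_finset_singleton] at this
        exact singleton_injective this
      · have := congrArg card h
        rw [card_smul_finset, l1.unique h0] at this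
        omega
    obtain ⟨c, h1, h2, h3⟩ := exists_third (D := ({u, v} : Finset (Fin n))ᶜ) (by omega) a a
    by_cases h : a ∈ ({u, v} : Finset (Fin n))
    · obtain ⟨b, h4, h5, h6⟩ := exists_third (D := ({u, v} : Finset (Fin n))ᶜ) (by omega) a c
      have := key c b (mem_compl.1 h1) (mem_compl.1 h4) h6
      rw [swap_apply_of_ne_of_ne h2 h5] at this
      simp only [mem_insert, mem_singleton] at h
      rcases h with rfl | rfl
      · exact huv (by simpa using this.symm)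
      · exact huv (by simpa using this)
    · have := key a c h (mem_compl.1 h1) h2
      simp only [mem_compl, mem_insert, mem_singleton, not_or] at h1
      rw [swap_apply_left, swap_apply_of_ne_of_ne h1.1 h1.2] at this
      exact h2 this.symm
  · obtain ⟨D, l1, l2⟩ := exists_WW_of_D hN' hD (S := {{0, 1}, {2, 3}, {4, 5}}) (E := {0, 1})
      (by decide +kernel) (by decide +kernel) (by decide +kernel) fun p hp k => by
        have : p ∣ 2 ^ 4 * 3 := k.trans (by decide +kernel)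
        rcases hp.dvd_mul.1 this with h | h
        · rw [(prime_dvd_prime_iff_eq hp prime_two).1 (hp.dvd_of_dvd_pow h)]
          exact (k3 2 prime_two (by norm_num)).2 (by norm_num)
        · rw [(prime_dvd_prime_iff_eq hp prime_three).1 h]
          exact (k3 3 prime_three (by norm_num)).2 (by norm_num)
    have l3 := l2 (swap 0 2 * swap 0 4 * swap 1 3 * swap 1 5) (by decide +kernel) (by decide +kernel)
    have l4 := l2 (swap 0 1 * swap 2 3) (by decide +kernel) (by decide +kernel)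
    have l5 := (l1.unique h0).trans k2
    clear l1 l2
    revert D
    decide +kernel
  · obtain ⟨D, l1, l2⟩ := exists_WW_of_D hN' hD (S := {{0, 1}, {2, 3}, {4, 5}, {6, 7}}) (E := {0, 1})
      (by decide +kernel) (by decide +kernel) (by decide +kernel) fun p hp k => by
        have : p ∣ 2 ^ 7 * 3 := k.trans (by decide +kernel)
        rcases hp.dvd_mul.1 this with h | h
        · rw [(prime_dvd_prime_iff_eq hp prime_two).1 (hp.dvd_of_dvd_pow h)]
          exact (k3 2 prime_two (by norm_num)).2 (by norm_num)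
        · rw [(prime_dvd_prime_iff_eq hp prime_three).1 h]
          exact (k3 3 prime_three (by norm_num)).2 (by norm_num)
    have l3 := l2 (swap 0 2 * swap 0 4 * swap 1 3 * swap 1 5) (by decide +kernel) (by decide +kernel)
    have l4 := l2 (swap 0 1 * swap 2 3) (by decide +kernel) (by decide +kernel)
    have l6 := l2 (swap 6 2 * swap 6 4 * swap 7 3 * swap 7 5) (by decide +kernel) (by decide +kernel)
    have l5 := (l1.unique h0).trans k2
    clear l1 l2
    revert D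
    decide +kernel

end CfsgH5
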