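/-
Monomial maps preserving a linear code.
-/
import Cfsg.Prelude.Def_SporadicCombinatorics
import Cfsg.Agent.H5.Iso

set_option autoImplicit false
set_option linter.unusedSimpArgs false
set_option linter.unusedSectionVars false
set_option linter.unusedVariables false

namespace CfsgH5

open scoped Pointwise
open Cfsg MulAction

noncomputable section

variable {α F : Type*} [Field F]

/-- a monomial map as a linear map -/
def mlin (σ : Equiv.Perm α) (c : α → Fˣ) : (α → F) →ₗ[F] (α → F) where
  toFun := monomialMap σ c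
  map_add' x y := by funext i; simp [monomialMap, mul_add]
  map_smul' a x := by funext i; simp [monomialMap, mul_left_comm]

/-- the monomial map preserves the code -/
def Pres (C : Submodule F (α → F)) (σ : Equiv.Perm α) (c : α → Fˣ) : Prop :=
  ∀ x ∈ C, monomialMap σ c x ∈ C

theorem mono_comp (σ τ : Equiv.Perm α) (c d : α → Fˣ) (x : α → F) :
    monomialMap σ c (monomialMap τ d x) = monomialMap (σ * τ) (fun i => c i * d (σ.symm i)) x := by
  funext i; simp [monomialMap, mul_assoc, Equiv.Perm.mul_def]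

theorem mono_inj (σ : Equiv.Perm α) (c : α → Fˣ) : Function.Injective (monomialMap σ c) := by
  intro x y h
  funext i
  have := congrFun h (σ i)
  simpa [monomialMap] using this

variable {C : Submodule F (α → F)}

theorem Pres.mul {σ τ : Equiv.Perm α} {c d : α → Fˣ} (h : Pres C σ c) (h' : Pres C τ d) :
    Pres C (σ * τ) (fun i => c i * d (σ.symm i)) := fun x hx => by
  rw [← mono_comp]; exact h _ (h' x hx)

theorem Pres.one (a : Fˣ) : Pres C 1 (fun _ => a) := fun x hx => C.smul_mem (a : F) hx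

theorem Pres.surj [Finite C] {σ : Equiv.Perm α} {c : α → Fˣ} (h : Pres C σ c) {x : α → F}
    (hx : x ∈ C) : ∃ y ∈ C, monomialMap σ c y = x := by
  let f : C → C := fun y => ⟨_, h y y.2⟩
  have hf : Function.Injective f := fun a b e =>
    Subtype.ext (mono_inj σ c (congrArg Subtype.val e))
  obtain ⟨y, hy⟩ := Finite.surjective_of_injective hf ⟨x, hx⟩
  exact ⟨y, y.2, congrArg Subtype.val hy⟩

theorem Pres.inv [Finite C] {σ : Equiv.Perm α} {c : α → Fˣ} (h : Pres C σ c) :
    Pres C σ⁻¹ (fun i => (c (σ i))⁻¹) := fun x hx => by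
  obtain ⟨y, hy, rfl⟩ := h.surj hx
  convert hy using 1
  funext i
  simp [monomialMap, Equiv.Perm.inv_def]

theorem Pres.of_span {S : Set (α → F)} (hS : C ≤ Submodule.span F S) {σ : Equiv.Perm α}
    {c : α → Fˣ} (h : ∀ x ∈ S, monomialMap σ c x ∈ C) : Pres C σ c := fun x hx =>
  (Submodule.span_le (p := C.comap (mlin σ c))).2 h (hS hx)

/-- the permutation parts of the monomial automorphisms -/
def permPart (C : Submodule F (α → F)) [Finite C] : Subgroup (Equiv.Perm α) where
  carrier := {σ | ∃ c, Pres C σ c}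
  one_mem' := ⟨_, Pres.one 1⟩
  mul_mem' := fun ⟨_, h⟩ ⟨_, h'⟩ => ⟨_, h.mul h'⟩
  inv_mem' := fun ⟨_, h⟩ => ⟨_, h.inv⟩

theorem card_pres [Finite C] [Nonempty α] (h : ∀ c, Pres C 1 c → ∀ i j, c i = c j) :
    Nat.card {f : Equiv.Perm α × (α → Fˣ) // Pres C f.1 f.2} = Nat.card (permPart C) * Nat.card Fˣ := by
  rw [← Nat.card_prod]
  obtain ⟨i0⟩ := ‹Nonempty α›
  have ch : ∀ σ : permPart C, ∃ c, Pres C σ c := fun σ => σ.2
  choose c0 hc0 using ch
  symm
  refine Nat.card_congr (Equiv.ofBijective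
    (fun p => ⟨(p.1, fun i => p.2 * c0 p.1 i), by
      have := (Pres.one p.2).mul (hc0 p.1)
      rw [one_mul] at this; exact this⟩) ⟨?_, ?_⟩)
  · rintro ⟨σ, a⟩ ⟨τ, b⟩ e
    have e := Prod.ext_iff.1 (congrArg Subtype.val e)
    obtain rfl : σ = τ := Subtype.ext e.1
    obtain rfl : a = b := mul_right_cancel (congrFun e.2 i0)
    rfl
  · rintro ⟨⟨σ, c⟩, hc⟩
    have := h _ (by simpa using Pres.mul hc (hc0 ⟨σ, c, hc⟩).inv)
    refine ⟨(⟨σ, c, hc⟩, c i0 * (c0 ⟨σ, c, hc⟩ i0)⁻¹), Subtype.ext (Prod.ext rfl (funext fun i => ?_))⟩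
    simp only at this ⊢
    rw [this i0 i]; simp

/-- an order bound from a base -/
theorem card_le_descFactorial [Fintype α] (A : Subgroup (Equiv.Perm α)) {k : ℕ} (b : Fin k ↪ α)
    (h : ∀ g ∈ A, (∀ i, g (b i) = b i) → g = 1) : Nat.card A ≤ (Fintype.card α).descFactorial k := by
  classical
  have : Nat.card (Fin k ↪ α) = (Fintype.card α).descFactorial k := by
    rw [Nat.card_eq_fintype_card, Fintype.card_embedding_eq, Fintype.card_fin]
  rw [← this]
  refine Nat.card_le_card_of_injective (fun g => b.trans (g : Equiv.Perm α).toEmbedding) ?_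
  intro g g' e
  have := h _ (g'⁻¹ * g).2 fun i => by
    have : (g : Equiv.Perm α) (b i) = (g' : Equiv.Perm α) (b i) := DFunLike.congr_fun e i
    simp [this]
  exact (inv_mul_eq_one.1 (Subtype.ext this)).symm

/-- supports under monomial maps -/
theorem filter_mono [Fintype α] [DecidableEq α] [DecidableEq F] (σ : Equiv.Perm α) (c : α → Fˣ)
    (x : α → F) : (Finset.univ.filter fun a => monomialMap σ c x a ≠ 0) =
      σ • Finset.univ.filter fun a => x a ≠ 0 := by
  ext a
  rw [← Finset.inv_smul_mem_iff]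
  simp [monomialMap, Equiv.Perm.inv_def]

end

end CfsgH5
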