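/-
The hexacode: transport to the model field and a table of words.
-/
import Cfsg.Agent.H5.Mono
import Cfsg.Agent.H5.Mat

set_option autoImplicit false
set_option linter.unusedSimpArgs false
set_option linter.unusedVariables false

namespace CfsgH5

open scoped Pointwise
open Cfsg MulAction

noncomputable section

section Transport

variable {F K : Type*} [Field F] [Field K]

theorem map_mem_hexacode (f : F →+* K) {ω : F} {x : Fin 6 → F} (hx : x ∈ hexacode F ω) :
    (fun i => f (x i)) ∈ hexacode K (f ω) := by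
  obtain ⟨a, b, c, rfl⟩ := Submodule.mem_span_triple.1 hx
  refine Submodule.mem_span_triple.2 ⟨f a, f b, f c, funext fun i => ?_⟩
  fin_cases i <;> simp

theorem map_mem_hexacode_iff (e : F ≃+* K) {ω : F} {x : Fin 6 → F} :
    (fun i => e (x i)) ∈ hexacode K (e ω) ↔ x ∈ hexacode F ω :=
  ⟨fun h => by simpa using map_mem_hexacode e.symm.toRingHom h, map_mem_hexacode e.toRingHom⟩

theorem pres_map (e : F ≃+* K) {ω : F} {σ : Equiv.Perm (Fin 6)} {c : Fin 6 → Fˣ}
    (h : Pres (hexacode F ω) σ c) :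
    Pres (hexacode K (e ω)) σ (fun i => Units.map (e : F →* K) (c i)) := fun y hy => by
  have := (map_mem_hexacode_iff e).2 (h (fun i => e.symm (y i))
    ((map_mem_hexacode_iff e).1 (by simpa using hy)))
  convert this using 1
  funext i
  simp [monomialMap]

theorem ncard_hexacode [DecidableEq F] [DecidableEq K] (e : F ≃+* K) (ω : F) (P : Finset (Fin 6) → Prop) :
    {x : Fin 6 → F | x ∈ hexacode F ω ∧ P (Finset.univ.filter fun i => x i ≠ 0)}.ncard =
      {x : Fin 6 → K | x ∈ hexacode K (e ω) ∧ P (Finset.univ.filter fun i => x i ≠ 0)}.ncard := by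
  apply Set.ncard_congr (fun x _ i => e (x i))
  · rintro x ⟨h1, h2⟩
    exact ⟨(map_mem_hexacode_iff e).2 h1, by simpa using h2⟩
  · intro x y _ _ h
    exact funext fun i => e.injective (congrFun h i)
  · rintro y ⟨h1, h2⟩
    exact ⟨fun i => e.symm (y i), ⟨(map_mem_hexacode_iff e).1 (by simpa using h1), by simpa using h2⟩,
      by simp⟩

theorem exists_equiv_F4 [Fintype F] (hF : Fintype.card F = 4) {ω : F} (hω : ω ^ 2 + ω + 1 = 0) :
    ∃ e : F ≃+* F4, e ω = F4.w := by
  obtain ⟨e⟩ := nonempty_equiv_F4 hF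
  have h1 : e ω ^ 2 + e ω + 1 = 0 := by simpa using congrArg e hω
  have h2 : ∀ a : F4, a ^ 2 + a + 1 = 0 → a = F4.w ∨ a * a = F4.w := by decide +kernel
  rcases h2 _ h1 with h | h
  · exact ⟨e, h⟩
  · exact ⟨e.trans ⟨⟨fun a => a * a, fun a => a * a, by decide, by decide⟩, by decide, by decide⟩, h⟩

end Transport

/-- the hexacode over the model field -/
abbrev HX : Submodule F4 (Fin 6 → F4) := hexacode F4 F4.w

/-- parity checks -/
def hcond (x : Fin 6 → F4) : Prop := x 3 = 1 * x 0 + 1 * x 1 + 1 * x 2 ∧ x 4 = F4.w * F4.w * x 0 + F4.w * x 1 + 1 * x 2 ∧ x 5 = F4.w * x 0 + F4.w * F4.w * x 1 + 1 * x 2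

instance instDecHcond (x : Fin 6 → F4) : Decidable (hcond x) := by unfold hcond; infer_instance

/-- the words -/
def hW (k : ℕ) : Fin 6 → F4 := fun i => (Fin.ofNat 4 (ap 2 3 (ap 12 4095 0xffbbed7d63cebb5fa339878777c36af51b49332724b1ff05afeee82d36cbeb0aa669d28227966fa54e4c637221e1aa0a5f11e7ddc9c41bf5a9992d8dd7696055b143938d2e11550f0f44e28d9cc14ba0acc97888873c6505e446c3d82b41000 k) i) : Fin 4)

theorem mem_HX_iff (x : Fin 6 → F4) : x ∈ HX ↔ ∃ k, k < 64 ∧ hW k = x := by
  rw [HX, hexacode, Submodule.mem_span_triple]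
  constructor
  · rintro ⟨a, b, c, rfl⟩
    revert a b c
    decide +kernel
  · rintro ⟨k, hk, rfl⟩
    revert k
    decide +kernel

theorem mem_HX (x : Fin 6 → F4) : x ∈ HX ↔ hcond x := by
  rw [mem_HX_iff]
  constructor
  · rintro ⟨k, hk, rfl⟩
    revert k
    decide +kernel
  · rintro ⟨h3, h4, h5⟩
    have : x = ![x 0, x 1, x 2, x 3, x 4, x 5] := by funext i; fin_cases i <;> rfl
    rw [this, h3, h4, h5]
    generalize x 0 = a, x 1 = b, x 2 = c
    revert a b c
    decide +kernel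

theorem hW_inj : ∀ i, i < 64 → ∀ j, j < 64 → hW i = hW j → i = j := by decide +kernel

theorem ncard_HX (P : Finset (Fin 6) → Prop) [DecidablePred P] :
    {x : Fin 6 → F4 | x ∈ HX ∧ P (Finset.univ.filter fun i => x i ≠ 0)}.ncard =
      countLt 64 fun k => decide (P (Finset.univ.filter fun i => hW k i ≠ 0)) :=
  ncard_eq_countLt 64 _ hW _ (fun i j hi hj _ _ e => hW_inj i hi j hj e) fun x => by
    simp only [Set.mem_ofPred_eq, mem_HX_iff, decide_eq_true_eq]
    exact ⟨fun ⟨⟨k, hk, e⟩, h2⟩ => ⟨k, hk, e ▸ h2, e⟩, fun ⟨k, hk, h2, e⟩ => ⟨⟨k, hk, e⟩, e ▸ h2⟩⟩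

end

end CfsgH5
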