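/-
The icosian ring in integer coordinates.
-/
import Cfsg.Prelude.Def_Spor_J2
import Cfsg.Agent.H5.Bits

set_option autoImplicit false

namespace CfsgH5
namespace Ico

open Quaternion Cfsg.Spor

noncomputable section

/-- coordinates of an icosian in the basis `1, τ, i, τ i, ω, τ ω, i ω, τ i ω` -/
@[ext] structure P8 where
  a : ℤ
  b : ℤ
  c : ℤ
  d : ℤ
  e : ℤ
  f : ℤ
  g : ℤ
  h : ℤ

/-- equality test on integers -/
def ibeq (x y : ℤ) : Bool :=
  Int.rec (motive := fun _ => Bool)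
    (fun m => Int.rec (motive := fun _ => Bool) (fun n => Nat.beq m n) (fun _ => false) y)
    (fun m => Int.rec (motive := fun _ => Bool) (fun _ => false) (fun n => Nat.beq m n) y) x

theorem ibeq_iff (x y : ℤ) : ibeq x y = true ↔ x = y := by
  cases x <;> cases y <;> simp [ibeq]

/-- parity test -/
def ev (x : ℤ) : Bool := Nat.beq (Nat.land (Int.natAbs x) 1) 0

theorem ev_iff (x : ℤ) : ev x = true ↔ x % 2 = 0 := by
  rw [ev, beq_true_iff, show Nat.land (Int.natAbs x) 1 = Int.natAbs x &&& 1 from rfl,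
    Nat.and_one_is_mod]
  omega

/-- strict evaluation of an integer -/
def forceI {α : Type} (x : ℤ) (k : ℤ → α) : α :=
  Int.rec (motive := fun _ => α) (fun n => force n fun n => k (Int.ofNat n))
    (fun n => force n fun n => k (Int.negSucc n)) x

@[simp] theorem forceI_eq {α : Type} (x : ℤ) (k : ℤ → α) : forceI x k = k x := by
  cases x <;> simp [forceI]

/-- strict evaluation of the coordinates -/
def fp {α : Type} (p : P8) (k : P8 → α) : α :=
  P8.rec (motive := fun _ => α) (fun a b c d e f g h => forceI a fun a => forceI b fun b =>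
    forceI c fun c => forceI d fun d => forceI e fun e => forceI f fun f => forceI g fun g =>
      forceI h fun h => k ⟨a, b, c, d, e, f, g, h⟩) p

@[simp] theorem fp_eq {α : Type} (p : P8) (k : P8 → α) : fp p k = k p := by
  cases p; simp [fp]

/-- equality test -/
def peq : P8 → P8 → Bool
  | ⟨a, b, c, d, e, f, g, h⟩, ⟨a', b', c', d', e', f', g', h'⟩ =>
    band (ibeq a a') (band (ibeq b b') (band (ibeq c c') (band (ibeq d d') (band (ibeq e e')
      (band (ibeq f f') (band (ibeq g g') (ibeq h h')))))))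

theorem peq_iff (p q : P8) : peq p q = true ↔ p = q := by
  cases p; cases q; simp [peq, ibeq_iff]

/-- product -/
def pm : P8 → P8 → P8
  | ⟨a, b, c, d, e, f, g, h⟩, ⟨a', b', c', d', e', f', g', h'⟩ =>
    ⟨(Int.sub (Int.sub (Int.sub (Int.sub (Int.sub (Int.sub (Int.sub (Int.sub (Int.sub (Int.add (Int.add (Int.add (Int.mul a a') (Int.mul b b')) (Int.mul e d')) (Int.mul f c')) (Int.mul c c')) (Int.mul d d')) (Int.mul e c')) (Int.mul e e')) (Int.mul f f')) (Int.mul g c')) (Int.mul g g')) (Int.mul h d')) (Int.mul h h')),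
     (Int.sub (Int.sub (Int.sub (Int.sub (Int.sub (Int.sub (Int.sub (Int.sub (Int.sub (Int.sub (Int.sub (Int.sub (Int.add (Int.add (Int.add (Int.add (Int.mul a b') (Int.mul b a')) (Int.mul b b')) (Int.mul e c')) (Int.mul f d')) (Int.mul c d')) (Int.mul d c')) (Int.mul d d')) (Int.mul e f')) (Int.mul f e')) (Int.mul f f')) (Int.mul g d')) (Int.mul g h')) (Int.mul h c')) (Int.mul h d')) (Int.mul h g')) (Int.mul h h')),
     (Int.sub (Int.sub (Int.sub (Int.add (Int.add (Int.add (Int.add (Int.add (Int.add (Int.add (Int.add (Int.add (Int.mul a c') (Int.mul b d')) (Int.mul c a')) (Int.mul d b')) (Int.mul e c')) (Int.mul e g')) (Int.mul f d')) (Int.mul f h')) (Int.mul g d')) (Int.mul h c')) (Int.mul g c')) (Int.mul g e')) (Int.mul h f')),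
     (Int.sub (Int.sub (Int.sub (Int.add (Int.add (Int.add (Int.add (Int.add (Int.add (Int.add (Int.add (Int.add (Int.add (Int.add (Int.add (Int.add (Int.mul a d') (Int.mul b c')) (Int.mul b d')) (Int.mul c b')) (Int.mul d a')) (Int.mul d b')) (Int.mul e d')) (Int.mul e h')) (Int.mul f c')) (Int.mul f d')) (Int.mul f g')) (Int.mul f h')) (Int.mul g c')) (Int.mul h d')) (Int.mul g f')) (Int.mul h e')) (Int.mul h f')),
     (Int.sub (Int.sub (Int.sub (Int.add (Int.add (Int.add (Int.add (Int.add (Int.add (Int.add (Int.add (Int.add (Int.mul a e') (Int.mul b f')) (Int.mul e a')) (Int.mul e e')) (Int.mul e h')) (Int.mul f b')) (Int.mul f f')) (Int.mul f g')) (Int.mul g c')) (Int.mul h d')) (Int.mul c g')) (Int.mul d h')) (Int.mul e g')),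
     (Int.sub (Int.sub (Int.sub (Int.add (Int.add (Int.add (Int.add (Int.add (Int.add (Int.add (Int.add (Int.add (Int.add (Int.add (Int.add (Int.add (Int.mul a f') (Int.mul b e')) (Int.mul b f')) (Int.mul e b')) (Int.mul e f')) (Int.mul e g')) (Int.mul f a')) (Int.mul f b')) (Int.mul f e')) (Int.mul f f')) (Int.mul f h')) (Int.mul g d')) (Int.mul h c')) (Int.mul h d')) (Int.mul c h')) (Int.mul d g')) (Int.mul d h')),
     (Int.sub (Int.sub (Int.sub (Int.add (Int.add (Int.add (Int.add (Int.add (Int.add (Int.add (Int.add (Int.add (Int.mul a g') (Int.mul b h')) (Int.mul c e')) (Int.mul d f')) (Int.mul g a')) (Int.mul g e')) (Int.mul g h')) (Int.mul h b')) (Int.mul h f')) (Int.mul h g')) (Int.mul e c')) (Int.mul f d')) (Int.mul g g')),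
     (Int.sub (Int.sub (Int.sub (Int.add (Int.add (Int.add (Int.add (Int.add (Int.add (Int.add (Int.add (Int.add (Int.add (Int.add (Int.add (Int.add (Int.mul a h') (Int.mul b g')) (Int.mul b h')) (Int.mul c f')) (Int.mul d e')) (Int.mul d f')) (Int.mul g b')) (Int.mul g f')) (Int.mul g g')) (Int.mul h a')) (Int.mul h b')) (Int.mul h e')) (Int.mul h f')) (Int.mul h h')) (Int.mul e d')) (Int.mul f c')) (Int.mul f d'))⟩

theorem pm_mk (a b c d e f g h a' b' c' d' e' f' g' h' : ℤ) : pm ⟨a, b, c, d, e, f, g, h⟩ ⟨a', b', c', d', e', f', g', h'⟩ =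
    ⟨a * a' + b * b' + e * d' + f * c' - c * c' - d * d' - e * c' - e * e' - f * f' - g * c' - g * g' - h * d' - h * h',
     a * b' + b * a' + b * b' + e * c' + f * d' - c * d' - d * c' - d * d' - e * f' - f * e' - f * f' - g * d' - g * h' - h * c' - h * d' - h * g' - h * h',
     a * c' + b * d' + c * a' + d * b' + e * c' + e * g' + f * d' + f * h' + g * d' + h * c' - g * c' - g * e' - h * f',
     a * d' + b * c' + b * d' + c * b' + d * a' + d * b' + e * d' + e * h' + f * c' + f * d' + f * g' + f * h' + g * c' + h * d' - g * f' - h * e' - h * f',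
     a * e' + b * f' + e * a' + e * e' + e * h' + f * b' + f * f' + f * g' + g * c' + h * d' - c * g' - d * h' - e * g',
     a * f' + b * e' + b * f' + e * b' + e * f' + e * g' + f * a' + f * b' + f * e' + f * f' + f * h' + g * d' + h * c' + h * d' - c * h' - d * g' - d * h',
     a * g' + b * h' + c * e' + d * f' + g * a' + g * e' + g * h' + h * b' + h * f' + h * g' - e * c' - f * d' - g * g',
     a * h' + b * g' + b * h' + c * f' + d * e' + d * f' + g * b' + g * f' + g * g' + h * a' + h * b' + h * e' + h * f' + h * h' - e * d' - f * c' - f * d'⟩ := rfl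

/-- sum -/
def pa : P8 → P8 → P8
  | ⟨a, b, c, d, e, f, g, h⟩, ⟨a', b', c', d', e', f', g', h'⟩ =>
    ⟨Int.add a a',
     Int.add b b',
     Int.add c c',
     Int.add d d',
     Int.add e e',
     Int.add f f',
     Int.add g g',
     Int.add h h'⟩

theorem pa_mk (a b c d e f g h a' b' c' d' e' f' g' h' : ℤ) : pa ⟨a, b, c, d, e, f, g, h⟩ ⟨a', b', c', d', e', f', g', h'⟩ =
    ⟨a + a',
     b + b',
     c + c',
     d + d',
     e + e',
     f + f',
     g + g',
     h + h'⟩ := rfl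

/-- difference -/
def ps : P8 → P8 → P8
  | ⟨a, b, c, d, e, f, g, h⟩, ⟨a', b', c', d', e', f', g', h'⟩ =>
    ⟨Int.sub a a',
     Int.sub b b',
     Int.sub c c',
     Int.sub d d',
     Int.sub e e',
     Int.sub f f',
     Int.sub g g',
     Int.sub h h'⟩

theorem ps_mk (a b c d e f g h a' b' c' d' e' f' g' h' : ℤ) : ps ⟨a, b, c, d, e, f, g, h⟩ ⟨a', b', c', d', e', f', g', h'⟩ =
    ⟨a - a',
     b - b',
     c - c',
     d - d',
     e - e',
     f - f',
     g - g',
     h - h'⟩ := rfl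

/-- conjugate -/
def pst : P8 → P8
  | ⟨a, b, c, d, e, f, g, h⟩ =>
    ⟨(Int.sub (Int.add (Int.add a e) h) g),
     (Int.add (Int.add b f) g),
     (Int.neg c),
     (Int.neg d),
     (Int.neg e),
     (Int.neg f),
     (Int.neg g),
     (Int.neg h)⟩

theorem pst_mk (a b c d e f g h : ℤ) : pst ⟨a, b, c, d, e, f, g, h⟩ =
    ⟨a + e + h - g,
     b + f + g,
     -(c),
     -(d),
     -(e),
     -(f),
     -(g),
     -(h)⟩ := rfl

/-- half -/
def half : P8 → P8
  | ⟨a, b, c, d, e, f, g, h⟩ =>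
    ⟨Int.ediv a 2,
     Int.ediv b 2,
     Int.ediv c 2,
     Int.ediv d 2,
     Int.ediv e 2,
     Int.ediv f 2,
     Int.ediv g 2,
     Int.ediv h 2⟩

theorem half_mk (a b c d e f g h : ℤ) : half ⟨a, b, c, d, e, f, g, h⟩ =
    ⟨a / 2,
     b / 2,
     c / 2,
     d / 2,
     e / 2,
     f / 2,
     g / 2,
     h / 2⟩ := rfl

/-- component of the norm -/
def N0 : P8 → ℤ
  | ⟨a, b, c, d, e, f, g, h⟩ => (Int.sub (Int.sub (Int.sub (Int.add (Int.add (Int.add (Int.add (Int.add (Int.add (Int.add (Int.add (Int.add (Int.add (Int.add (Int.add (Int.add (Int.add (Int.mul a a) (Int.mul a e)) (Int.mul a h)) (Int.mul b b)) (Int.mul b f)) (Int.mul b g)) (Int.mul c c)) (Int.mul d d)) (Int.mul c e)) (Int.mul e e)) (Int.mul f f)) (Int.mul c g)) (Int.mul g g)) (Int.mul d h)) (Int.mul h h)) (Int.mul a g)) (Int.mul d e)) (Int.mul c f))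

theorem N0_mk (a b c d e f g h : ℤ) : N0 ⟨a, b, c, d, e, f, g, h⟩ = a * a + a * e + a * h + b * b + b * f + b * g + c * c + d * d + c * e + e * e + f * f + c * g + g * g + d * h + h * h - a * g - d * e - c * f := rfl

/-- component of the norm -/
def N1 : P8 → ℤ
  | ⟨a, b, c, d, e, f, g, h⟩ => (Int.sub (Int.sub (Int.add (Int.add (Int.add (Int.add (Int.add (Int.add (Int.add (Int.add (Int.add (Int.add (Int.add (Int.add (Int.add (Int.add (Int.add (Int.mul 2 (Int.mul a b)) (Int.mul 2 (Int.mul c d))) (Int.mul 2 (Int.mul e f))) (Int.mul 2 (Int.mul g h))) (Int.mul a f)) (Int.mul a g)) (Int.mul b e)) (Int.mul b h)) (Int.mul b b)) (Int.mul b f)) (Int.mul d d)) (Int.mul f f)) (Int.mul d g)) (Int.mul c h)) (Int.mul d h)) (Int.mul h h)) (Int.mul c e)) (Int.mul d f))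

theorem N1_mk (a b c d e f g h : ℤ) : N1 ⟨a, b, c, d, e, f, g, h⟩ = 2 * (a * b) + 2 * (c * d) + 2 * (e * f) + 2 * (g * h) + a * f + a * g + b * e + b * h + b * b + b * f + d * d + f * f + d * g + c * h + d * h + h * h - c * e - d * f := rfl

/-- membership in a left ideal of norm two -/
def inH : P8 → Bool
  | ⟨a, b, c, d, e, f, g, h⟩ => band (ev (Int.add (Int.add a c) h)) (band (ev (Int.add (Int.add (Int.add b d) g) h)) (band (ev (Int.add f h)) (ev (Int.add e g))))

theorem inH_mk (a b c d e f g h : ℤ) : inH ⟨a, b, c, d, e, f, g, h⟩ = true ↔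
    (a + c + h) % 2 = 0 ∧ (b + d + g + h) % 2 = 0 ∧ (f + h) % 2 = 0 ∧ (e + g) % 2 = 0 := by
  simp only [inH, band_eq, Bool.and_eq_true, ev_iff, Int.add_def]

/-- membership in a left ideal of norm two -/
def inHb : P8 → Bool
  | ⟨a, b, c, d, e, f, g, h⟩ => band (ev (Int.add c h)) (band (ev (Int.add (Int.add d g) h)) (band (ev (Int.add a f)) (ev (Int.add (Int.add b e) f))))

theorem inHb_mk (a b c d e f g h : ℤ) : inHb ⟨a, b, c, d, e, f, g, h⟩ = true ↔
    (c + h) % 2 = 0 ∧ (d + g + h) % 2 = 0 ∧ (a + f) % 2 = 0 ∧ (b + e + f) % 2 = 0 := by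
  simp only [inHb, band_eq, Bool.and_eq_true, ev_iff, Int.add_def]

theorem tau_sq : tau ^ 2 = tau + 1 := by
  have h : Real.sqrt 5 ^ 2 = 5 := Real.sq_sqrt (by norm_num)
  unfold tau; nlinarith

theorem sig_eq : sig = 1 - tau := by unfold sig tau; ring

theorem sqrt5_eq : Real.sqrt 5 = 2 * tau - 1 := by unfold tau; ring

theorem zt_inj {a b c d : ℤ} (h : (a : ℝ) + b * tau = c + d * tau) : a = c ∧ b = d := by
  by_cases e : b = d
  · subst e
    exact ⟨by exact_mod_cast add_right_cancel h, rfl⟩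
  · exfalso
    have h5 : Irrational (Real.sqrt 5) := by simpa using Nat.prime_five.irrational_sqrt
    have h0 : ((b - d : ℤ) : ℝ) ≠ 0 := by exact_mod_cast sub_ne_zero.2 e
    refine h5.ne_rational (2 * (c - a) - (b - d)) (b - d) ?_
    rw [eq_div_iff h0, sqrt5_eq]
    push_cast
    linear_combination 2 * h

/-- the quaternion with given coordinates -/
def val (p : P8) : ℍ[ℝ] :=
  ⟨((2 * p.a + p.e + p.h - p.g) + (2 * p.b + p.f + p.g) * tau) / 2,
   ((2 * p.c + p.e + p.g - p.f) + (2 * p.d + p.h - p.e) * tau) / 2,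
   (-p.h + (-p.g - p.h) * tau) / 2, (p.f + (p.e + p.f) * tau) / 2⟩

@[simp] theorem val_re (p : P8) :
    (val p).re = ((2 * p.a + p.e + p.h - p.g) + (2 * p.b + p.f + p.g) * tau) / 2 := rfl
@[simp] theorem val_imI (p : P8) :
    (val p).imI = ((2 * p.c + p.e + p.g - p.f) + (2 * p.d + p.h - p.e) * tau) / 2 := rfl
@[simp] theorem val_imJ (p : P8) : (val p).imJ = (-p.h + (-p.g - p.h) * tau) / 2 := rfl
@[simp] theorem val_imK (p : P8) : (val p).imK = (p.f + (p.e + p.f) * tau) / 2 := rfl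

theorem val_inj {p q : P8} (h : val p = val q) : p = q := by
  have h0 := congrArg (fun x : ℍ[ℝ] => x.re) h
  have h1 := congrArg (fun x : ℍ[ℝ] => x.imI) h
  have h2 := congrArg (fun x : ℍ[ℝ] => x.imJ) h
  have h3 := congrArg (fun x : ℍ[ℝ] => x.imK) h
  simp only [val] at h0 h1 h2 h3
  have e0 := @zt_inj (2 * p.a + p.e + p.h - p.g) (2 * p.b + p.f + p.g) (2 * q.a + q.e + q.h - q.g)
    (2 * q.b + q.f + q.g) (by push_cast; linarith)
  have e1 := @zt_inj (2 * p.c + p.e + p.g - p.f) (2 * p.d + p.h - p.e) (2 * q.c + q.e + q.g - q.f)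
    (2 * q.d + q.h - q.e) (by push_cast; linarith)
  have e2 := @zt_inj (-p.h) (-p.g - p.h) (-q.h) (-q.g - q.h) (by push_cast; linarith)
  have e3 := @zt_inj p.f (p.e + p.f) q.f (q.e + q.f) (by push_cast; linarith)
  ext <;> omega

theorem val_pm (p q : P8) : val (pm p q) = val p * val q := by
  have ht := tau_sq
  obtain ⟨a, b, c, d, e, f, g, h⟩ := p
  obtain ⟨a', b', c', d', e', f', g', h'⟩ := q
  rw [pm_mk]
  refine Quaternion.ext _ _ ?_ ?_ ?_ ?_
  · rw [Quaternion.re_mul]
    simp only [val]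
    push_cast
    linear_combination (-(((2 * b + f + g) * (2 * b' + f' + g') - (2 * d + h - e) * (2 * d' + h' - e') - (-g - h) * (-g' - h') - (e + f) * (e' + f') : ℝ)) / 4) * ht
  · rw [Quaternion.imI_mul]
    simp only [val]
    push_cast
    linear_combination (-(((2 * b + f + g) * (2 * d' + h' - e') + (2 * d + h - e) * (2 * b' + f' + g') + (-g - h) * (e' + f') - (e + f) * (-g' - h') : ℝ)) / 4) * ht
  · rw [Quaternion.imJ_mul]
    simp only [val]
    push_cast
    linear_combination (-(((2 * b + f + g) * (-g' - h') - (2 * d + h - e) * (e' + f') + (-g - h) * (2 * b' + f' + g') + (e + f) * (2 * d' + h' - e') : ℝ)) / 4) * ht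
  · rw [Quaternion.imK_mul]
    simp only [val]
    push_cast
    linear_combination (-(((2 * b + f + g) * (e' + f') + (2 * d + h - e) * (-g' - h') - (-g - h) * (2 * d' + h' - e') + (e + f) * (2 * b' + f' + g') : ℝ)) / 4) * ht

theorem val_pa (p q : P8) : val (pa p q) = val p + val q := by
  cases p; cases q
  rw [pa_mk]
  ext <;> simp <;> ring

theorem val_ps (p q : P8) : val (ps p q) = val p - val q := by
  cases p; cases q
  rw [ps_mk]
  ext <;> simp <;> ring

theorem val_pst (p : P8) : val (pst p) = star (val p) := by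
  cases p
  rw [pst_mk]
  ext <;> simp <;> ring

theorem normSq_val (p : P8) : normSq (val p) = N0 p + N1 p * tau := by
  have ht := tau_sq
  obtain ⟨a, b, c, d, e, f, g, h⟩ := p
  rw [N0_mk, N1_mk, normSq_def']
  simp only [val]
  push_cast
  linear_combination (((2 * b + f + g) ^ 2 + (2 * d + h - e) ^ 2 + (-g - h) ^ 2 + (e + f) ^ 2 : ℝ) / 4) * ht

theorem half_pa (p : P8) : half (pa p p) = p := by
  cases p
  rw [pa_mk, half_mk]
  ext <;> simp only <;> omega

/-- zero -/
def p0 : P8 := ⟨0, 0, 0, 0, 0, 0, 0, 0⟩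
/-- one -/
def p1 : P8 := ⟨1, 0, 0, 0, 0, 0, 0, 0⟩
/-- two -/
def p2 : P8 := ⟨2, 0, 0, 0, 0, 0, 0, 0⟩
/-- the icosian `h` -/
def ph : P8 := ⟨2, -2, 1, 0, -1, 1, 1, -1⟩
/-- the conjugate of `h` -/
def phb : P8 := ⟨-1, 0, -1, 0, 1, -1, -1, 1⟩

theorem val_p0 : val p0 = 0 := by ext <;> simp [p0]
theorem val_p1 : val p1 = 1 := by ext <;> simp [p1]
theorem val_p2 : val p2 = 2 := by
  rw [← one_add_one_eq_two]; ext <;> simp [p2]; norm_num
theorem val_ph : val ph = icoH := by
  ext <;> simp [ph, icoH, sqrt5_eq] <;> ring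
theorem val_phb : val phb = star icoH := by
  rw [← val_ph, ← val_pst]; rfl

/-- the icosians as the range of `val` -/
def icoS : Subring ℍ[ℝ] where
  carrier := Set.range val
  mul_mem' := by rintro _ _ ⟨p, rfl⟩ ⟨q, rfl⟩; exact ⟨pm p q, val_pm p q⟩
  add_mem' := by rintro _ _ ⟨p, rfl⟩ ⟨q, rfl⟩; exact ⟨pa p q, val_pa p q⟩
  one_mem' := ⟨p1, val_p1⟩
  zero_mem' := ⟨p0, val_p0⟩
  neg_mem' := by rintro _ ⟨p, rfl⟩; exact ⟨ps p0 p, by rw [val_ps, val_p0, zero_sub]⟩

/-- the second generator -/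
def qw : ℍ[ℝ] := ⟨1 / 2, sig / 2, 0, tau / 2⟩

theorem val_mem (p : P8) : val p ∈ icosians := by
  have hi : qI ∈ icosians := Subring.subset_closure (Or.inl rfl)
  have hw : qw ∈ icosians := Subring.subset_closure (Or.inr rfl)
  have i0 : qI.re = 0 := rfl
  have i1 : qI.imI = 1 := rfl
  have i2 : qI.imJ = 0 := rfl
  have i3 : qI.imK = 0 := rfl
  have w0 : qw.re = 1 / 2 := rfl
  have w1 : qw.imI = (1 - tau) / 2 := sig_eq ▸ rfl
  have w2 : qw.imJ = 0 := rfl
  have w3 : qw.imK = tau / 2 := rfl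
  generalize qw = w at *
  have ht : 1 - (qI - qI * w - w * qI) ∈ icosians :=
    sub_mem (one_mem _) (sub_mem (sub_mem hi (mul_mem hi hw)) (mul_mem hw hi))
  have ht' : 1 - (qI - qI * w - w * qI) = (tau : ℍ[ℝ]) := by
    ext <;> simp [*] <;> ring
  rw [ht'] at ht
  have hz : ∀ m n : ℤ, ((m : ℍ[ℝ]) + n * tau) ∈ icosians := fun m n =>
    add_mem (intCast_mem _ _) (mul_mem (intCast_mem _ _) ht)
  have : val p = (p.a + p.b * tau) + (p.c + p.d * tau) * qI + (p.e + p.f * tau) * w +
      (p.g + p.h * tau) * (qI * w) := by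
    have h := tau_sq
    ext <;> simp [i0, i1, i2, i3, w0, w1, w2, w3] <;> grind
  rw [this]
  exact add_mem (add_mem (add_mem (hz _ _) (mul_mem (hz _ _) hi)) (mul_mem (hz _ _) hw))
    (mul_mem (hz _ _) (mul_mem hi hw))

theorem exists_val {x : ℍ[ℝ]} (h : x ∈ icosians) : ∃ p, val p = x := by
  have : icosians ≤ icoS := by
    rw [icosians, Subring.closure_le]
    rintro _ (rfl | rfl)
    · exact ⟨⟨0, 0, 1, 0, 0, 0, 0, 0⟩, by ext <;> simp [qI]⟩
    · exact ⟨⟨0, 0, 0, 0, 1, 0, 0, 0⟩, by ext <;> simp [sig_eq]; ring⟩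
  exact this h

theorem star_mem {x : ℍ[ℝ]} (h : x ∈ icosians) : star x ∈ icosians := by
  obtain ⟨p, rfl⟩ := exists_val h
  exact val_pst p ▸ val_mem _

theorem h_mem : icoH ∈ icosians := val_ph ▸ val_mem _

theorem normSq_h : normSq icoH = 2 := by
  rw [← val_ph, normSq_val]; norm_num [ph, N0_mk, N1_mk]

theorem hb_mul_h : star icoH * icoH = 2 := by
  rw [star_mul_self, normSq_h]; rfl

theorem h_mul_hb : icoH * star icoH = 2 := by
  rw [self_mul_star, normSq_h]; rfl

theorem two_ne : (2 : ℍ[ℝ]) ≠ 0 := by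
  rw [← val_p2, ← val_p0]; exact fun h => absurd (val_inj h) (by simp [p2, p0])

theorem inH_iff (p : P8) : inH p = true ↔ val p ∈ leftIdeal icoH := by
  constructor
  · intro h
    refine ⟨val (half (pm p phb)), val_mem _, ?_⟩
    have : pa (half (pm p phb)) (half (pm p phb)) = pm p phb := by
      cases p
      rw [inH_mk] at h
      rw [phb, pm_mk, half_mk, pa_mk]
      ext <;> simp only <;> omega
    have h2 := congrArg val this
    rw [val_pa, val_pm, val_phb] at h2
    apply mul_right_cancel₀ two_ne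
    rw [mul_assoc, mul_two icoH, mul_add, ← add_mul, h2, mul_assoc, hb_mul_h]
  · rintro ⟨a, ha, h⟩
    obtain ⟨a, rfl⟩ := exists_val ha
    rw [← val_ph, ← val_pm] at h
    obtain rfl := val_inj h
    cases a
    rw [ph, pm_mk, inH_mk]
    omega

theorem inHb_iff (p : P8) : inHb p = true ↔ val p ∈ leftIdeal (star icoH) := by
  constructor
  · intro h
    refine ⟨val (half (pm p ph)), val_mem _, ?_⟩
    have : pa (half (pm p ph)) (half (pm p ph)) = pm p ph := by
      cases p
      rw [inHb_mk] at h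
      rw [ph, pm_mk, half_mk, pa_mk]
      ext <;> simp only <;> omega
    have h2 := congrArg val this
    rw [val_pa, val_pm, val_ph] at h2
    apply mul_right_cancel₀ two_ne
    rw [mul_assoc, mul_two (star icoH), mul_add, ← add_mul, h2, mul_assoc, h_mul_hb]
  · rintro ⟨a, ha, h⟩
    obtain ⟨a, rfl⟩ := exists_val ha
    rw [← val_phb, ← val_pm] at h
    obtain rfl := val_inj h
    cases a
    rw [phb, pm_mk, inHb_mk]
    omega

theorem exists_two_of_mem {x : ℍ[ℝ]} (h : x ∈ leftIdeal icoH) (h' : x ∈ leftIdeal (star icoH)) :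
    ∃ c ∈ icosians, x = c * 2 := by
  obtain ⟨p, rfl⟩ : ∃ p, val p = x := by
    obtain ⟨a, ha, rfl⟩ := h
    exact exists_val (mul_mem ha h_mem)
  rw [← inH_iff] at h
  rw [← inHb_iff] at h'
  refine ⟨val (half p), val_mem _, ?_⟩
  rw [mul_two, ← val_pa]
  congr 1
  cases p
  rw [inH_mk] at h
  rw [inHb_mk] at h'
  rw [half_mk, pa_mk]
  ext <;> simp only <;> omega

/-- norms of icosians -/
theorem exists_normSq {x : ℍ[ℝ]} (h : x ∈ icosians) : ∃ m n : ℤ, normSq x = m + n * tau ∧
    0 ≤ 2 * m + 3 * n ∧ 0 ≤ 5 * m - 3 * n := by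
  obtain ⟨p, rfl⟩ := exists_val h
  clear h
  refine ⟨N0 p, N1 p, normSq_val p, ?_, ?_⟩
  · obtain ⟨a, b, c, d, e, f, g, h⟩ := p
    have k : ∀ m n : ℤ, 0 ≤ (2 * m + 3 * n) ^ 2 + n ^ 2 := fun m n => by positivity
    have := k (2 * a + e + h - g) (2 * b + f + g)
    have := k (2 * c + e + g - f) (2 * d + h - e)
    have := k (-h) (-g - h)
    have := k f (e + f)
    rw [N0_mk, N1_mk]
    nlinarith
  · obtain ⟨a, b, c, d, e, f, g, h⟩ := p
    have k : ∀ m n : ℤ, 0 ≤ (2 * n - 3 * m) ^ 2 + m ^ 2 := fun m n => by positivity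
    have := k (2 * a + e + h - g) (2 * b + f + g)
    have := k (2 * c + e + g - f) (2 * d + h - e)
    have := k (-h) (-g - h)
    have := k f (e + f)
    rw [N0_mk, N1_mk]
    nlinarith

end

end Ico
end CfsgH5
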