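/-
The icosian Leech lattice: reflections and their conjugation.
-/
import Cfsg.Agent.H5.J2a

set_option autoImplicit false

namespace CfsgH5
namespace Ico

open Quaternion Cfsg.Spor

noncomputable section

/-- triples of quaternions -/
abbrev HV := Fin 3 → ℍ[ℝ]

theorem qip_eq (x r : HV) :
    qip x r = x 0 * star (r 0) + x 1 * star (r 1) + x 2 * star (r 2) := Fin.sum_univ_three _

theorem half_smul (x : ℍ[ℝ]) : (1 / 2 : ℝ) • (x * 2) = x := by
  rw [mul_two, ← two_smul ℝ x, smul_smul]; norm_num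

theorem half_mul_two (x : ℍ[ℝ]) : ((1 / 2 : ℝ) • x) * 2 = x := by
  rw [smul_mul_assoc, half_smul]

theorem li_sub_mul {q x y c : ℍ[ℝ]} (hx : x ∈ leftIdeal q) (hy : y ∈ leftIdeal q)
    (hc : c ∈ icosians) : x - c * y ∈ leftIdeal q := by
  obtain ⟨a, ha, rfl⟩ := hx
  obtain ⟨b, hb, rfl⟩ := hy
  exact ⟨a - c * b, sub_mem ha (mul_mem hc hb), by noncomm_ring⟩

theorem mem_sub_mul {x y : HV} {c : ℍ[ℝ]} (hx : x ∈ icoLeech) (hy : y ∈ icoLeech)
    (hc : c ∈ icosians) : (fun t => x t - c * y t) ∈ icoLeech := by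
  refine ⟨fun t => sub_mem (hx.1 t) (mul_mem hc (hy.1 t)), ?_, ?_, ?_⟩
  · convert li_sub_mul hx.2.1 hy.2.1 hc using 1; noncomm_ring
  · convert li_sub_mul hx.2.2.1 hy.2.2.1 hc using 1; noncomm_ring
  · convert li_sub_mul hx.2.2.2 hy.2.2.2 hc using 1; noncomm_ring

theorem zero_mem_L : (0 : HV) ∈ icoLeech :=
  ⟨fun _ => zero_mem _, ⟨0, zero_mem _, by simp⟩, ⟨0, zero_mem _, by simp⟩, ⟨0, zero_mem _, by simp⟩⟩

theorem mem_mul {y : HV} {c : ℍ[ℝ]} (hy : y ∈ icoLeech) (hc : c ∈ icosians) :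
    (fun t => c * y t) ∈ icoLeech := by
  simpa using mem_sub_mul zero_mem_L hy (neg_mem hc)

theorem neg_mem_L {y : HV} (hy : y ∈ icoLeech) : -y ∈ icoLeech := by
  have := mem_sub_mul zero_mem_L hy (one_mem _)
  simp only [Pi.zero_apply, one_mul, zero_sub] at this
  exact this

/-- triples of coordinate vectors -/
structure V3 where
  x : P8
  y : P8
  z : P8

/-- the vector with given coordinates -/
def val3 (v : V3) : HV := ![val v.x, val v.y, val v.z]

@[simp] theorem val3_0 (v : V3) : val3 v 0 = val v.x := rfl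
@[simp] theorem val3_1 (v : V3) : val3 v 1 = val v.y := rfl
@[simp] theorem val3_2 (v : V3) : val3 v 2 = val v.z := rfl

theorem val3_inj {v w : V3} (h : val3 v = val3 w) : v = w := by
  cases v; cases w
  obtain rfl := val_inj (congrFun h 0)
  obtain rfl := val_inj (congrFun h 1)
  obtain rfl := val_inj (congrFun h 2)
  rfl

theorem val3_mem (v : V3) (t : Fin 3) : val3 v t ∈ icosians := by
  fin_cases t <;> exact val_mem _

theorem hv_ext {x y : HV} (h0 : x 0 = y 0) (h1 : x 1 = y 1) (h2 : x 2 = y 2) : x = y := by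
  funext t; fin_cases t <;> assumption

/-- strict evaluation of the coordinates -/
def fv {α : Type} (v : V3) (k : V3 → α) : α :=
  V3.rec (motive := fun _ => α) (fun x y z => fp x fun x => fp y fun y => fp z fun z => k ⟨x, y, z⟩) v

@[simp] theorem fv_eq {α : Type} (v : V3) (k : V3 → α) : fv v k = k v := by
  cases v; simp [fv]

/-- equality test -/
def veq : V3 → V3 → Bool
  | ⟨x, y, z⟩, ⟨x', y', z'⟩ => band (peq x x') (band (peq y y') (peq z z'))

theorem veq_iff (v w : V3) : veq v w = true ↔ v = w := by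
  cases v; cases w; simp [veq, peq_iff]

/-- membership in the lattice -/
def inL : V3 → Bool
  | ⟨x, y, z⟩ => band (inH (ps y z)) (band (inH (ps x y)) (inHb (pa (pa x y) z)))

theorem inL_iff (v : V3) : inL v = true ↔ val3 v ∈ icoLeech := by
  cases v
  simp only [inL, band_eq, Bool.and_eq_true, inH_iff, inHb_iff, val_ps, val_pa]
  exact ⟨fun h => ⟨val3_mem _, h.2.1, h.1, h.2.2⟩, fun h => ⟨h.2.2.1, h.2.1, h.2.2.2⟩⟩

theorem exists_val3 {r : HV} (h : r ∈ icoLeech) : ∃ v, val3 v = r := by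
  obtain ⟨x, hx⟩ := exists_val (h.1 0)
  obtain ⟨y, hy⟩ := exists_val (h.1 1)
  obtain ⟨z, hz⟩ := exists_val (h.1 2)
  exact ⟨⟨x, y, z⟩, hv_ext hx hy hz⟩

/-- the hermitian product -/
def pip : V3 → V3 → P8
  | ⟨x, y, z⟩, ⟨x', y', z'⟩ => fp (pst x') fun a => fp (pst y') fun b => fp (pst z') fun c =>
    pa (pa (pm x a) (pm y b)) (pm z c)

theorem val_pip (v w : V3) : val (pip v w) = qip (val3 v) (val3 w) := by
  cases v; cases w
  simp only [pip, fp_eq, val_pa, val_pm, val_pst, qip_eq, val3_0, val3_1, val3_2]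

/-- left multiplication -/
def lm (u : P8) : V3 → V3
  | ⟨x, y, z⟩ => ⟨pm u x, pm u y, pm u z⟩

theorem val3_lm (u : P8) (v : V3) : val3 (lm u v) = fun t => val u * val3 v t := by
  cases v
  exact hv_ext (val_pm _ _) (val_pm _ _) (val_pm _ _)

/-- the product is even -/
def Ev (x r : HV) : Prop := ∃ c ∈ icosians, qip x r = c * 2

theorem star_qip (x r : HV) : star (qip x r) = qip r x := by
  simp [qip_eq]

theorem Ev.symm {x r : HV} (h : Ev x r) : Ev r x := by
  obtain ⟨c, hc, h⟩ := h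
  exact ⟨star c, star_mem hc, by rw [← star_qip, h, mul_two, star_add, mul_two]⟩

theorem ev_of_pip {v w : V3} (h : pa (half (pip v w)) (half (pip v w)) = pip v w) :
    Ev (val3 v) (val3 w) :=
  ⟨_, val_mem (half (pip v w)), by rw [mul_two, ← val_pa, h, val_pip]⟩

/-- first generator -/
def v1 : V3 := ⟨phb, p1, p1⟩
/-- second generator -/
def v2 : V3 := ⟨ph, ph, p0⟩
/-- third generator -/
def v3 : V3 := ⟨p2, p0, p0⟩

theorem ev_of_gen {r : HV} (h1 : Ev (val3 v1) r) (h2 : Ev (val3 v2) r) (h3 : Ev (val3 v3) r)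
    {x : HV} (hx : x ∈ icoLeech) : Ev x r := by
  obtain ⟨b, hb, e⟩ := hx.2.2.1
  have k := mem_sub_mul (mem_sub_mul hx ((inL_iff v1).1 (by decide +kernel)) (hx.1 2))
    ((inL_iff v2).1 (by decide +kernel)) hb
  have k1 := k.2.1
  have k2 := k.2.2.2
  simp only [val3_0, val3_1, val3_2, v1, v2, val_p1, val_p0, val_ph, val_phb, mul_one, mul_zero,
    sub_self, e, sub_zero, add_zero] at k1 k2
  obtain ⟨c, hc, e'⟩ := exists_two_of_mem k1 k2
  obtain ⟨c1, m1, e1⟩ := h1
  obtain ⟨c2, m2, e2⟩ := h2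
  obtain ⟨c3, m3, e3⟩ := h3
  refine ⟨x 2 * c1 + b * c2 + c * c3,
    add_mem (add_mem (mul_mem (hx.1 2) m1) (mul_mem hb m2)) (mul_mem hc m3), ?_⟩
  rw [add_mul, add_mul, mul_assoc, mul_assoc, mul_assoc, ← e1, ← e2, ← e3]
  simp only [qip_eq, val3_0, val3_1, val3_2, v1, v2, v3, val_p1, val_p0, val_ph, val_phb, val_p2]
  have a0 : x 0 = c * 2 + b * icoH + x 2 * star icoH := by rw [← e']; abel
  have a1 : x 1 = b * icoH + x 2 := by rw [← e]; abel
  rw [a0, a1]
  noncomm_ring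

theorem ev_of_mem {x r : HV} (hx : x ∈ icoLeech) (hr : r ∈ icoLeech) : Ev x r := by
  have k : ∀ w : V3, (∀ v ∈ [v1, v2, v3], peq (pa (half (pip v w)) (half (pip v w))) (pip v w) = true) →
      Ev (val3 w) r := fun w h =>
    (ev_of_gen (ev_of_pip ((peq_iff _ _).1 (h _ (by simp)))) (ev_of_pip ((peq_iff _ _).1 (h _ (by simp))))
      (ev_of_pip ((peq_iff _ _).1 (h _ (by simp)))) hr).symm
  exact ev_of_gen (k v1 (by decide +kernel)) (k v2 (by decide +kernel)) (k v3 (by decide +kernel)) hx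

theorem half_qip_mem {x r : HV} (hx : x ∈ icoLeech) (hr : r ∈ icoLeech) :
    (1 / 2 : ℝ) • qip x r ∈ icosians := by
  obtain ⟨c, hc, e⟩ := ev_of_mem hx hr
  rwa [e, half_smul]

theorem qrefl_mem {x r : HV} (hx : x ∈ icoLeech) (hr : r ∈ icoLeech) : qrefl r x ∈ icoLeech :=
  mem_sub_mul hx hr (half_qip_mem hx hr)

theorem qip_sub_mul (x y r : HV) (c : ℍ[ℝ]) :
    qip (fun t => x t - c * y t) r = qip x r - c * qip y r := by
  simp only [qip_eq]; noncomm_ring

theorem qip_mul_left (y r : HV) (c : ℍ[ℝ]) : qip (fun t => c * y t) r = c * qip y r := by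
  simp only [qip_eq]; noncomm_ring

theorem qip_mul_right (y r : HV) (c : ℍ[ℝ]) : qip y (fun t => c * r t) = qip y r * star c := by
  simp only [qip_eq, star_mul]; noncomm_ring

theorem qip_sub_mul_right (x y r : HV) (c : ℍ[ℝ]) :
    qip r (fun t => x t - c * y t) = qip r x - qip r y * star c := by
  simp only [qip_eq, star_mul, star_sub]; noncomm_ring

theorem four_eq : (4 : ℍ[ℝ]) = 2 * 2 := by norm_num

theorem qrefl_sub_mul (r x y : HV) (c : ℍ[ℝ]) :
    qrefl r (fun t => x t - c * y t) = fun t => qrefl r x t - c * qrefl r y t := by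
  funext t
  simp only [qrefl, qip_sub_mul, smul_sub, sub_mul, mul_sub, smul_mul_assoc, mul_smul_comm, mul_assoc]
  abel

theorem qrefl_mul (r y : HV) (c : ℍ[ℝ]) :
    qrefl r (fun t => c * y t) = fun t => c * qrefl r y t := by
  funext t
  simp only [qrefl, qip_mul_left, mul_sub, smul_mul_assoc, mul_smul_comm, mul_assoc]

theorem qrefl_self {r : HV} (h : qip r r = 4) : qrefl r r = -r := by
  funext t
  simp only [qrefl, h, four_eq, half_smul, Pi.neg_apply]
  rw [two_mul]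
  abel

theorem qrefl_qrefl {r : HV} (h : qip r r = 4) (x : HV) : qrefl r (qrefl r x) = x := by
  change qrefl r (fun t => x t - ((1 / 2 : ℝ) • qip x r) * r t) = x
  rw [qrefl_sub_mul, qrefl_self h]
  funext t
  simp [qrefl]

theorem qip_qrefl_left (r x y : HV) : qip (qrefl r x) y = qip x (qrefl r y) := by
  change qip (fun t => x t - ((1 / 2 : ℝ) • qip x r) * r t) y =
    qip x (fun t => y t - ((1 / 2 : ℝ) • qip y r) * r t)
  rw [qip_sub_mul, qip_sub_mul_right, Quaternion.star_smul, star_qip, smul_mul_assoc, mul_smul_comm]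

theorem qip_qrefl {r : HV} (h : qip r r = 4) (x y : HV) : qip (qrefl r x) (qrefl r y) = qip x y := by
  rw [qip_qrefl_left, qrefl_qrefl h]

theorem qrefl_unit {u : ℍ[ℝ]} (hu : normSq u = 1) (r x : HV) :
    qrefl (fun t => u * r t) x = qrefl r x := by
  funext t
  simp only [qrefl, qip_mul_right, smul_mul_assoc]
  rw [mul_assoc, ← mul_assoc (star u), star_mul_self, hu, coe_one, one_mul]

/-- minimal vectors -/
def IsMin (r : HV) : Prop := r ∈ icoLeech ∧ qip r r = 4

theorem qip_self (r : HV) : qip r r = ((normSq (r 0) + normSq (r 1) + normSq (r 2) : ℝ) : ℍ[ℝ]) := by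
  simp only [qip_eq, self_mul_star]; push_cast; rfl

theorem qip_self_iff (r : HV) : qip r r = 4 ↔ normSq (r 0) + normSq (r 1) + normSq (r 2) = 4 := by
  rw [qip_self, show (4 : ℍ[ℝ]) = ((4 : ℝ) : ℍ[ℝ]) from rfl, coe_inj]

theorem IsMin.mul {r : HV} (h : IsMin r) {u : ℍ[ℝ]} (hu : u ∈ icosians) (h1 : normSq u = 1) :
    IsMin fun t => u * r t :=
  ⟨mem_mul h.1 hu, by
    rw [qip_self_iff]; simp only [map_mul, h1, one_mul]; exact (qip_self_iff r).1 h.2⟩

theorem IsMin.qrefl {r x : HV} (h : IsMin r) (hx : IsMin x) : IsMin (qrefl r x) :=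
  ⟨qrefl_mem hx.1 h.1, by rw [qip_qrefl h.2, hx.2]⟩

theorem IsMin.ne_zero {r : HV} (h : IsMin r) : r ≠ 0 := by
  rintro rfl
  have := (qip_self_iff _).1 h.2
  simp at this

open Classical in
/-- the reflection in a minimal vector as a permutation of the lattice -/
def rp (r : HV) : Equiv.Perm icoLeech :=
  if h : IsMin r then Function.Involutive.toPerm (fun x => ⟨qrefl r x, qrefl_mem x.2 h.1⟩)
    fun x => Subtype.ext (qrefl_qrefl h.2 x) else 1

theorem rp_apply {r : HV} (h : IsMin r) (x : icoLeech) : (rp r x : HV) = qrefl r x := by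
  rw [rp, dif_pos h]; rfl

theorem rp_mul_self (r : HV) : rp r * rp r = 1 := by
  by_cases h : IsMin r
  · ext x : 2
    rw [Equiv.Perm.mul_apply, rp_apply h, rp_apply h, qrefl_qrefl h.2]; rfl
  · rw [rp, dif_neg h, mul_one]

theorem isRefl_iff {f : Equiv.Perm icoLeech} : IsIcoReflection f ↔ ∃ r, IsMin r ∧ rp r = f := by
  constructor
  · rintro ⟨r, h, hf⟩
    exact ⟨r, ⟨r.2, h⟩, by ext x : 2; rw [rp_apply ⟨r.2, h⟩, hf]⟩
  · rintro ⟨r, h, rfl⟩
    exact ⟨⟨r, h.1⟩, h.2, rp_apply h⟩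

theorem rp_mem {r : HV} (h : IsMin r) : rp r ∈ twoJ2 :=
  Subgroup.subset_closure (isRefl_iff.2 ⟨r, h, rfl⟩)

theorem rp_unit {r : HV} (h : IsMin r) {u : ℍ[ℝ]} (hu : u ∈ icosians) (h1 : normSq u = 1) :
    rp (fun t => u * r t) = rp r := by
  ext x : 2
  rw [rp_apply (h.mul hu h1), rp_apply h, qrefl_unit h1]

/-- linear isometries of the lattice -/
def LAut : Subgroup (Equiv.Perm icoLeech) where
  carrier := {g | (∀ x y : icoLeech, qip (g x : HV) (g y) = qip (x : HV) y) ∧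
    ∀ (x y z : icoLeech) (c : ℍ[ℝ]), c ∈ icosians → (z : HV) = (fun t => x.1 t - c * y.1 t) →
      (g z : HV) = fun t => (g x).1 t - c * (g y).1 t}
  one_mem' := ⟨fun _ _ => rfl, fun _ _ _ _ _ h => h⟩
  mul_mem' := fun {a b} ha hb => ⟨fun x y => (ha.1 _ _).trans (hb.1 x y),
    fun x y z c hc h => ha.2 _ _ _ c hc (hb.2 x y z c hc h)⟩
  inv_mem' := fun {a} ha => ⟨fun x y => by rw [← ha.1]; simp, fun x y z c hc h => by
    have := ha.2 (a⁻¹ x) (a⁻¹ y) ⟨_, mem_sub_mul (a⁻¹ x).2 (a⁻¹ y).2 hc⟩ c hc rfl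
    simp only [Equiv.Perm.coe_inv, Equiv.apply_symm_apply] at this
    rw [← h] at this
    rw [← Subtype.ext this]
    simp⟩

theorem twoJ2_le : twoJ2 ≤ LAut := by
  rw [twoJ2, Subgroup.closure_le]
  intro f hf
  obtain ⟨r, h, rfl⟩ := isRefl_iff.1 hf
  exact ⟨fun x y => by rw [rp_apply h, rp_apply h, qip_qrefl h.2],
    fun x y z c _ e => by rw [rp_apply h, rp_apply h, rp_apply h, e, qrefl_sub_mul]⟩

theorem IsMin.map {g : Equiv.Perm icoLeech} (hg : g ∈ LAut) {r : icoLeech} (h : IsMin r) :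
    IsMin (g r) := ⟨(g r).2, (hg.1 r r).trans h.2⟩

theorem conj_rp {g : Equiv.Perm icoLeech} (hg : g ∈ LAut) {r : icoLeech} (h : IsMin r) :
    g * rp r * g⁻¹ = rp (g r) := by
  rw [mul_inv_eq_iff_eq_mul]
  ext x : 2
  rw [Equiv.Perm.mul_apply, Equiv.Perm.mul_apply, rp_apply (h.map hg),
    hg.2 x r _ _ (half_qip_mem x.2 r.2) (rp_apply h x), ← hg.1]
  rfl

theorem exists_mul_of_rp_eq {r s : HV} (hr : IsMin r) (hs : IsMin s) (h : rp r = rp s) :
    ∃ c : ℍ[ℝ], ∀ t, r t = c * s t := by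
  have e := rp_apply hr ⟨r, hr.1⟩
  rw [h, rp_apply hs, qrefl_self hr.2] at e
  refine ⟨(1 / 2 : ℝ) • (1 / 2 : ℝ) • qip r s, fun t => ?_⟩
  have := congrFun e t
  simp only [qrefl, Pi.neg_apply] at this
  rw [smul_mul_assoc, ← half_smul (r t), mul_two]
  congr 1
  rw [← sub_neg_eq_add, ← this]
  abel

/-- the reflection in coordinates -/
def prefl (r x : V3) : V3 :=
  fp (half (pip x r)) fun c => ⟨ps x.x (pm c r.x), ps x.y (pm c r.y), ps x.z (pm c r.z)⟩

theorem val3_prefl {r x : V3} (hr : val3 r ∈ icoLeech) (hx : val3 x ∈ icoLeech) :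
    val3 (prefl r x) = qrefl (val3 r) (val3 x) := by
  obtain ⟨c, hc, e⟩ := ev_of_mem hx hr
  obtain ⟨c, rfl⟩ := exists_val hc
  have e2 : half (pip x r) = c := by
    rw [← val_pip, mul_two, ← val_pa] at e
    rw [val_inj e, half_pa]
  rw [prefl, fp_eq, e2]
  refine hv_ext ?_ ?_ ?_ <;> simp [qrefl, e, val_ps, val_pm, -one_div, half_smul]

/-- test for minimal vectors -/
def minV (v : V3) : Bool := band (inL v) (peq (pip v v) ⟨4, 0, 0, 0, 0, 0, 0, 0⟩)

theorem isMin_of_minV {v : V3} (h : minV v = true) : IsMin (val3 v) := by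
  simp only [minV, band_eq, Bool.and_eq_true, inL_iff, peq_iff] at h
  refine ⟨h.1, ?_⟩
  rw [← val_pip, h.2, show (4 : ℍ[ℝ]) = ((4 : ℝ) : ℍ[ℝ]) from rfl]
  ext <;> simp

end

end Ico
end CfsgH5
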