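/-
The minimal vectors of the icosian Leech lattice and the centre of the reflection group.
-/
import Cfsg.Agent.H5.J2c
import Cfsg.Agent.H5.Tab

set_option autoImplicit false
set_option linter.constructorNameAsVariable false

namespace CfsgH5
namespace Ico

open Quaternion Cfsg.Spor

noncomputable section

theorem mem_VL {m n : ℤ} (h : 2 * m ^ 2 + 2 * m * n + 3 * n ^ 2 ≤ 16) :
    (m, n, (2 * m ^ 2 + 2 * m * n + 3 * n ^ 2).toNat) ∈ VL := by
  have h1 : -3 ≤ m := by nlinarith [sq_nonneg (m + 3 * n)]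
  have h2 : m ≤ 3 := by nlinarith [sq_nonneg (m + 3 * n)]
  have h3 : -2 ≤ n := by nlinarith [sq_nonneg (2 * m + n)]
  have h4 : n ≤ 2 := by nlinarith [sq_nonneg (2 * m + n)]
  interval_cases m <;> interval_cases n <;> first | decide | omega

theorem enum_sound {B : ℕ} (hB : B ≤ 16) {leaf : P8 → Bool} (h : enum B leaf = true) {p : P8}
    (hp : 4 * (2 * N0 p + N1 p) = B) : leaf p = true := by
  obtain ⟨a, b, c, d, e, f, g, k⟩ := p
  have t : ∀ m n : ℤ, 0 ≤ 2 * m ^ 2 + 2 * m * n + 3 * n ^ 2 := fun m n => by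
    nlinarith [sq_nonneg (m + n), sq_nonneg m, sq_nonneg n]
  have m1 := @mem_VL (2 * a + e + k - g) (2 * b + f + g)
  have m2 := @mem_VL (2 * c + e + g - f) (2 * d + k - e)
  have m3 := @mem_VL (-k) (-g - k)
  have m4 := @mem_VL f (e + f)
  have t1 := t (2 * a + e + k - g) (2 * b + f + g)
  have t2 := t (2 * c + e + g - f) (2 * d + k - e)
  have t3 := t (-k) (-g - k)
  have t4 := t f (e + f)
  have e0 : (2 * (2 * a + e + k - g) ^ 2 + 2 * (2 * a + e + k - g) * (2 * b + f + g) +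
      3 * (2 * b + f + g) ^ 2) + (2 * (2 * c + e + g - f) ^ 2 + 2 * (2 * c + e + g - f) * (2 * d + k - e) +
      3 * (2 * d + k - e) ^ 2) + (2 * (-k) ^ 2 + 2 * (-k) * (-g - k) + 3 * (-g - k) ^ 2) +
      (2 * f ^ 2 + 2 * f * (e + f) + 3 * (e + f) ^ 2) = B := by
    rw [← hp, N0_mk, N1_mk]; ring
  generalize (2 * (2 * a + e + k - g) ^ 2 + 2 * (2 * a + e + k - g) * (2 * b + f + g) +
      3 * (2 * b + f + g) ^ 2) = s1 at *
  generalize (2 * (2 * c + e + g - f) ^ 2 + 2 * (2 * c + e + g - f) * (2 * d + k - e) +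
      3 * (2 * d + k - e) ^ 2) = s2 at *
  generalize (2 * (-k) ^ 2 + 2 * (-k) * (-g - k) + 3 * (-g - k) ^ 2) = s3 at *
  generalize (2 * f ^ 2 + 2 * f * (e + f) + 3 * (e + f) ^ 2) = s4 at *
  simp only [enum, allL_iff, bimp_eq, force_eq, fp_eq, Bool.or_eq_true, Bool.not_eq_true',
    ← Bool.not_eq_true, ble_true_iff, beq_true_iff, ← imp_iff_not_or, Nat.add_eq, Nat.sub_eq] at h
  have := h _ (m1 (by omega)) (by simp only; omega) _ (m2 (by omega)) (by simp only; omega) _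
    (m3 (by omega)) (by simp only; omega) _ (m4 (by omega)) (by simp only; omega)
  convert this using 2
  simp only [und, Int.add_def, Int.mul_def, show ∀ x y : ℤ, Int.sub x y = x - y from fun _ _ => rfl,
    show ∀ x y : ℤ, Int.ediv x y = x / y from fun _ _ => rfl,
    show ∀ x : ℤ, Int.neg x = -x from fun _ => rfl]
  ext <;> simp only <;> omega

theorem enum_norm {B : ℕ} (hB : B ≤ 16) {m n : ℤ} {f : P8 → Bool} (h : enum B (nleaf m n f) = true)
    (hmn : 4 * (2 * m + n) = B) {p : P8} (hp : normSq (val p) = m + n * tau) : f p = true := by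
  rw [normSq_val] at hp
  obtain ⟨h0, h1⟩ := zt_inj hp
  have := enum_sound hB h (p := p) (by rw [h0, h1, hmn])
  simpa [nleaf, (ibeq_iff _ _).2 h0, (ibeq_iff _ _).2 h1] using this

/-- the minimal vectors of the table -/
def R (i : ℕ) : HV := val3 (rt i)

theorem R_min {i : ℕ} (hi : i < 315) : IsMin (R i) :=
  isMin_of_minV (by simpa using (allLt_iff _ _).1 rt_min i hi)

theorem normSq_ut {j : ℕ} (hj : j < 128) : normSq (val (ut j)) = 1 := by
  have := (allLt_iff _ _).1 ut_norm j hj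
  simp only [fp_eq, band_eq, Bool.and_eq_true, ibeq_iff] at this
  rw [normSq_val, this.1, this.2]; simp

theorem gen_spec {g π u : ℕ} (hg : g < 315) (h : genChk g π u = true) {i : ℕ} (hi : i < 315) :
    ap 9 511 π i < 315 ∧ ∃ c ∈ icosians, normSq c = 1 ∧
      qrefl (R g) (R i) = fun t => c * R (ap 9 511 π i) t := by
  simp only [genChk, fv_eq, allLt_iff, force_eq, band_eq, Bool.and_eq_true, blt_true_iff, fp_eq,
    veq_iff] at h
  refine ⟨(h i hi).1, val (ut (ap 7 127 u i)), val_mem _, normSq_ut (ap_lt 7 u i), ?_⟩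
  rw [R, R, ← val3_prefl (R_min hg).1 (R_min hi).1, (h i hi).2, val3_lm]
  rfl

/-- the vector is a unit multiple of a vector of the table -/
def Found (r : HV) : Prop := ∃ u ∈ icosians, normSq u = 1 ∧ ∃ i, i < 315 ∧ r = fun t => u * R i t

theorem found_of_fnd {v : V3} (h : fnd v = true) : Found (val3 v) := by
  obtain ⟨i, hi, e⟩ := (anyLt_iff _ _).1 h
  exact ⟨1, one_mem _, map_one _, i, hi, by rw [← (veq_iff _ _).1 e]; simp [R]⟩

theorem Found.mul {r : HV} (h : Found r) {u : ℍ[ℝ]} (hu : u ∈ icosians) (h1 : normSq u = 1) :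
    Found fun t => u * r t := by
  obtain ⟨v, hv, h2, i, hi, rfl⟩ := h
  exact ⟨u * v, mul_mem hu hv, by rw [map_mul, h1, h2, mul_one], i, hi, by simp [mul_assoc]⟩

theorem found_of_unit {r : HV} {u : ℍ[ℝ]} (hu : u ∈ icosians) (h1 : normSq u = 1)
    (h : (IsMin fun t => star u * r t) → Found fun t => star u * r t) (hr : IsMin r) : Found r := by
  have := (h (hr.mul (star_mem hu) (by rwa [normSq_star]))).mul hu h1
  simpa only [← mul_assoc, self_mul_star, h1, coe_one, one_mul] using this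

theorem found_of_gen {g π u : ℕ} (hg : g < 315) (hc : genChk g π u = true) {r : HV}
    (h : IsMin (qrefl (R g) r) → Found (qrefl (R g) r)) (hr : IsMin r) : Found r := by
  obtain ⟨v, hv, h2, i, hi, e⟩ := h ((R_min hg).qrefl hr)
  obtain ⟨h3, c, hc, h4, e2⟩ := gen_spec hg hc hi
  rw [← qrefl_qrefl (R_min hg).2 r, e, qrefl_mul, e2]
  exact Found.mul ⟨c, hc, h4, _, h3, rfl⟩ hv h2

theorem R_g0 : R 127 = ![2, 0, 0] := by
  rw [R, rt_g0]; exact hv_ext val_p2 val_p0 val_p0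

theorem R_g1 : R 130 = ![-icoH, icoH, 0] := by
  rw [R, rt_g1]; exact hv_ext (by simp [val_ps, val_p0, val_ph]) val_ph val_p0

theorem R_g2 : R 174 = ![0, -icoH, icoH] := by
  rw [R, rt_g2]; exact hv_ext val_p0 (by simp [val_ps, val_p0, val_ph]) val_ph

theorem half_hh (x : ℍ[ℝ]) : (1 / 2 : ℝ) • (x * star icoH * icoH) = x := by
  rw [mul_assoc, hb_mul_h, half_smul]

theorem qrefl_g1 (x y z : ℍ[ℝ]) : qrefl (R 130) ![x, y, z] = ![y, x, z] := by
  have : qip ![x, y, z] (R 130) = (y - x) * star icoH := by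
    rw [qip_eq, R_g1]; simp; noncomm_ring
  refine hv_ext ?_ ?_ ?_ <;> simp only [qrefl, this] <;> simp [R_g1, -one_div, half_hh]

theorem qrefl_g2 (x y z : ℍ[ℝ]) : qrefl (R 174) ![x, y, z] = ![x, z, y] := by
  have : qip ![x, y, z] (R 174) = (z - y) * star icoH := by
    rw [qip_eq, R_g2]; simp; noncomm_ring
  refine hv_ext ?_ ?_ ?_ <;> simp only [qrefl, this] <;> simp [R_g2, -one_div, half_hh]

theorem sw1 {x y z : ℍ[ℝ]} (h : IsMin ![y, x, z] → Found ![y, x, z]) :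
    IsMin ![x, y, z] → Found ![x, y, z] :=
  found_of_gen (by norm_num) gp1_chk (by rwa [qrefl_g1])

theorem sw2 {x y z : ℍ[ℝ]} (h : IsMin ![x, z, y] → Found ![x, z, y]) :
    IsMin ![x, y, z] → Found ![x, y, z] :=
  found_of_gen (by norm_num) gp2_chk (by rwa [qrefl_g2])

theorem IsMin.sum {x y z : ℍ[ℝ]} (h : IsMin ![x, y, z]) : normSq x + normSq y + normSq z = 4 :=
  (qip_self_iff _).1 h.2

theorem caseA {x : ℍ[ℝ]} (h : IsMin ![x, 0, 0]) : Found ![x, 0, 0] := by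
  obtain ⟨c, hc, rfl⟩ := exists_two_of_mem (x := x) (by simpa using h.1.2.1) (by simpa using h.1.2.2.2)
  have := h.sum
  rw [map_mul, show (2 : ℍ[ℝ]) = ((2 : ℝ) : ℍ[ℝ]) from rfl, normSq_coe, map_zero] at this
  exact ⟨c, hc, by linarith, 127, by norm_num, by rw [R_g0]; exact hv_ext rfl (by simp) (by simp)⟩

theorem mul_vec (u x y z : ℍ[ℝ]) : (fun t => u * ![x, y, z] t) = ![u * x, u * y, u * z] :=
  hv_ext rfl rfl rfl

theorem found_val {p q r : P8} (h : IsMin ![val p, val q, val r])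
    (hf : bimp (inL ⟨p, q, r⟩) (fnd ⟨p, q, r⟩) = true) : Found ![val p, val q, val r] := by
  rw [(inL_iff ⟨p, q, r⟩).2 h.1, bimp_eq, Bool.not_true, Bool.false_or] at hf
  exact found_of_fnd (v := ⟨p, q, r⟩) hf

theorem caseB {x : ℍ[ℝ]} (h : IsMin ![x, icoH, 0]) : Found ![x, icoH, 0] := by
  obtain ⟨p, rfl⟩ := exists_val (show x ∈ icosians from h.1.1 0)
  have h1 := h.sum
  rw [normSq_h, map_zero] at h1
  have := enum_norm (by norm_num) enum_2 (by norm_num) (p := p) (by push_cast; linarith)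
  simp only [band_eq, Bool.and_eq_true] at this
  rw [← val_ph, ← val_p0] at h ⊢
  exact found_val h this.2

theorem caseZ {x y : ℍ[ℝ]} (h : IsMin ![x, y, 0]) : Found ![x, y, 0] := by
  obtain ⟨b, hb, rfl⟩ : y ∈ leftIdeal icoH := by simpa using h.1.2.2.1
  obtain ⟨a, ha, e⟩ := h.1.2.1
  obtain rfl : x = (a + b) * icoH := by rw [add_mul, ← e]; simp
  obtain ⟨m, n, e1, k1, k2⟩ := exists_normSq (add_mem ha hb)
  obtain ⟨m', n', e2, k3, k4⟩ := exists_normSq hb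
  have h1 := h.sum
  rw [map_mul, map_mul, normSq_h, map_zero, e1, e2] at h1
  obtain ⟨h2, h3⟩ := @zt_inj (m + m') (n + n') 2 0 (by push_cast; linarith)
  have : (m' = 0 ∧ n' = 0) ∨ (m = 0 ∧ n = 0) ∨ (m' = 1 ∧ n' = 0) := by omega
  rcases this with ⟨rfl, rfl⟩ | ⟨rfl, rfl⟩ | ⟨rfl, rfl⟩
  · obtain rfl : b = 0 := normSq_eq_zero.1 (by simpa using e2)
    rw [zero_mul] at h ⊢
    exact caseA h
  · rw [normSq_eq_zero.1 (show normSq (a + b) = 0 by simpa using e1), zero_mul] at h ⊢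
    exact sw1 caseA h
  · have h4 : normSq b = 1 := by simpa using e2
    refine found_of_unit hb h4 ?_ h
    rw [mul_vec, ← mul_assoc (star b) b, star_mul_self, h4, coe_one, one_mul, mul_zero]
    exact caseB

theorem caseC {x y z : ℍ[ℝ]} (hy : normSq y = 1) (hz : normSq z = 1) (h : IsMin ![x, y, z]) :
    Found ![x, y, z] := by
  refine found_of_unit (show z ∈ icosians from h.1.1 2) hz ?_ h
  rw [mul_vec, star_mul_self, hz, coe_one]
  intro h
  have h2 : normSq (star z * y) = 1 := by rw [map_mul, normSq_star, hz, hy, one_mul]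
  obtain ⟨p, hp⟩ := exists_val (show star z * x ∈ icosians from h.1.1 0)
  obtain ⟨q, hq⟩ := exists_val (show star z * y ∈ icosians from h.1.1 1)
  rw [← hp, ← hq] at h ⊢
  rw [← hq] at h2
  have h1 := h.sum
  rw [h2, map_one] at h1
  have k1 := enum_norm (by norm_num) enum_2 (by norm_num) (p := p) (by push_cast; linarith)
  have k2 := enum_norm (by norm_num) enum_U (by norm_num) (p := q) (by push_cast; linarith)
  rw [← val_p1] at h ⊢
  rw [(inH_iff (ps q p1)).2 (by rw [val_ps]; exact h.1.2.2.1)] at k2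
  simp only [band_eq, Bool.and_eq_true, allL_iff, bimp, anyL_iff, peq_iff] at k1 k2
  obtain ⟨_, hq, rfl⟩ := k2.2
  exact found_val h (k1.1 q hq)

theorem caseD {x y z : ℍ[ℝ]} (hy : normSq y = 2 - tau) (hz : normSq z = 1) (h : IsMin ![x, y, z]) :
    Found ![x, y, z] := by
  refine found_of_unit (show z ∈ icosians from h.1.1 2) hz ?_ h
  rw [mul_vec, star_mul_self, hz, coe_one]
  intro h
  have h2 : normSq (star z * y) = 2 - tau := by rw [map_mul, normSq_star, hz, hy, one_mul]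
  obtain ⟨p, hp⟩ := exists_val (show star z * x ∈ icosians from h.1.1 0)
  obtain ⟨q, hq⟩ := exists_val (show star z * y ∈ icosians from h.1.1 1)
  rw [← hp, ← hq] at h ⊢
  rw [← hq] at h2
  have h1 := h.sum
  rw [h2, map_one] at h1
  have k1 := enum_norm (by norm_num) enum_T (by norm_num) (p := p) (by push_cast; linarith)
  have k2 := enum_norm (by norm_num) enum_S (by norm_num) (p := q) (by push_cast; linarith)
  rw [← val_p1] at h ⊢
  rw [(inH_iff (ps q p1)).2 (by rw [val_ps]; exact h.1.2.2.1)] at k2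
  simp only [allL_iff, bimp, anyL_iff, peq_iff] at k1 k2
  obtain ⟨_, hq, rfl⟩ := k2
  exact found_val h (k1 q hq)

theorem norm_cases {m n m' n' m'' n'' : ℤ} (k1 : 0 ≤ 2 * m + 3 * n) (k2 : 0 ≤ 5 * m - 3 * n)
    (k3 : 0 ≤ 2 * m' + 3 * n') (k4 : 0 ≤ 5 * m' - 3 * n') (k5 : 0 ≤ 2 * m'' + 3 * n'')
    (k6 : 0 ≤ 5 * m'' - 3 * n'') (h2 : m + m' + m'' = 4) (h3 : n + n' + n'' = 0) :
    (m'' = 0 ∧ n'' = 0) ∨ (m' = 0 ∧ n' = 0) ∨ (m = 0 ∧ n = 0) ∨
      ((m' = 1 ∧ n' = 0) ∧ m'' = 1 ∧ n'' = 0) ∨ ((m = 1 ∧ n = 0) ∧ m'' = 1 ∧ n'' = 0) ∨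
      ((m = 1 ∧ n = 0) ∧ m' = 1 ∧ n' = 0) ∨
      ((m' = 2 ∧ n' = -1) ∧ m'' = 1 ∧ n'' = 0) ∨ ((m = 2 ∧ n = -1) ∧ m'' = 1 ∧ n'' = 0) ∨
      ((m = 2 ∧ n = -1) ∧ m' = 1 ∧ n' = 0) ∨ ((m'' = 2 ∧ n'' = -1) ∧ m' = 1 ∧ n' = 0) ∨
      ((m'' = 2 ∧ n'' = -1) ∧ m = 1 ∧ n = 0) ∨ ((m' = 2 ∧ n' = -1) ∧ m = 1 ∧ n = 0) := by
  obtain rfl : m'' = 4 - m - m' := by omega
  obtain rfl : n'' = -n - n' := by omega
  have b1 : 0 ≤ m := by omega
  have b2 : m ≤ 4 := by omega
  have b3 : -1 ≤ n := by omega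
  have b4 : n ≤ 1 := by omega
  have b5 : 0 ≤ m' := by omega
  have b6 : m' ≤ 4 := by omega
  have b7 : -1 ≤ n' := by omega
  have b8 : n' ≤ 1 := by omega
  clear h2 h3
  revert k1 k2 k3 k4 k5 k6
  interval_cases m <;> interval_cases n <;> interval_cases m' <;> interval_cases n' <;> decide

theorem IsMin.found {r : HV} (h : IsMin r) : Found r := by
  obtain ⟨x, y, z, rfl⟩ : ∃ x y z, r = ![x, y, z] := ⟨r 0, r 1, r 2, hv_ext rfl rfl rfl⟩
  obtain ⟨m, n, e1, k1, k2⟩ := exists_normSq (show x ∈ icosians from h.1.1 0)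
  obtain ⟨m', n', e2, k3, k4⟩ := exists_normSq (show y ∈ icosians from h.1.1 1)
  obtain ⟨m'', n'', e3, k5, k6⟩ := exists_normSq (show z ∈ icosians from h.1.1 2)
  have h1 := h.sum
  rw [e1, e2, e3] at h1
  obtain ⟨h2, h3⟩ := @zt_inj (m + m' + m'') (n + n' + n'') 4 0 (by push_cast; linarith)
  have z0 : ∀ {w : ℍ[ℝ]}, normSq w = (0 : ℤ) + (0 : ℤ) * tau → w = 0 := fun e =>
    normSq_eq_zero.1 (by simpa using e)
  have z1 : ∀ {w : ℍ[ℝ]}, normSq w = (1 : ℤ) + (0 : ℤ) * tau → normSq w = 1 := fun e => by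
    simpa using e
  have z2 : ∀ {w : ℍ[ℝ]}, normSq w = (2 : ℤ) + (-1 : ℤ) * tau → normSq w = 2 - tau := fun e => by
    rw [e]; push_cast; ring
  have := norm_cases k1 k2 k3 k4 k5 k6 h2 h3
  rcases this with ⟨rfl, rfl⟩ | ⟨rfl, rfl⟩ | ⟨rfl, rfl⟩ | ⟨⟨rfl, rfl⟩, rfl, rfl⟩ |
    ⟨⟨rfl, rfl⟩, rfl, rfl⟩ | ⟨⟨rfl, rfl⟩, rfl, rfl⟩ | ⟨⟨rfl, rfl⟩, rfl, rfl⟩ | ⟨⟨rfl, rfl⟩, rfl, rfl⟩ |
    ⟨⟨rfl, rfl⟩, rfl, rfl⟩ | ⟨⟨rfl, rfl⟩, rfl, rfl⟩ | ⟨⟨rfl, rfl⟩, rfl, rfl⟩ | ⟨⟨rfl, rfl⟩, rfl, rfl⟩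
  · obtain rfl := z0 e3; exact caseZ h
  · obtain rfl := z0 e2; exact sw2 caseZ h
  · obtain rfl := z0 e1; exact sw1 (sw2 caseZ) h
  · exact caseC (z1 e2) (z1 e3) h
  · exact sw1 (caseC (z1 e1) (z1 e3)) h
  · exact sw2 (sw1 (caseC (z1 e1) (z1 e2))) h
  · exact caseD (z2 e2) (z1 e3) h
  · exact sw1 (caseD (z2 e1) (z1 e3)) h
  · exact sw2 (sw1 (caseD (z2 e1) (z1 e2))) h
  · exact sw2 (caseD (z2 e3) (z1 e2)) h
  · exact sw1 (sw2 (caseD (z2 e3) (z1 e1))) h
  · exact sw1 (sw2 (sw1 (caseD (z2 e2) (z1 e1)))) h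

/-- the reflections -/
def S (i : ℕ) : Equiv.Perm icoLeech := rp (R i)

theorem IsMin.exists_S {r : HV} (h : IsMin r) : ∃ i, i < 315 ∧ rp r = S i := by
  obtain ⟨u, hu, h1, i, hi, rfl⟩ := h.found
  exact ⟨i, hi, rp_unit (R_min hi) hu h1⟩

theorem isRefl_iff_S {f : Equiv.Perm icoLeech} : IsIcoReflection f ↔ ∃ i, i < 315 ∧ S i = f := by
  rw [isRefl_iff]
  constructor
  · rintro ⟨r, h, rfl⟩
    obtain ⟨i, hi, e⟩ := h.exists_S
    exact ⟨i, hi, e.symm⟩
  · rintro ⟨i, hi, rfl⟩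
    exact ⟨_, R_min hi, rfl⟩

theorem S_inj (i j : ℕ) (hi : i < 315) (hj : j < 315) (h : S i = S j) : i = j := by
  refine inj_of_lt_succ (f := rkey) (N := 314)
    (fun i hi => (ilt_iff _ _).1 ((allLt_iff _ _).1 rkey_lt i hi)) i j hi hj ?_
  have hg := (inL_iff ge).1 ge_mem
  have e := rp_apply (R_min hi) ⟨_, hg⟩
  rw [show rp (R i) = rp (R j) from h, rp_apply (R_min hj), R, R, ← val3_prefl (R_min hj).1 hg,
    ← val3_prefl (R_min hi).1 hg] at e
  simp only [rkey, fv_eq, val3_inj e]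

theorem ut_inj (i j : ℕ) (hi : i < 120) (hj : j < 120) (h : ut i = ut j) : i = j :=
  inj_of_lt_succ (f := fun j => kP (ut j)) (N := 119)
    (fun i hi => (ilt_iff _ _).1 ((allLt_iff _ _).1 ut_lt i hi)) i j hi hj (by simp only [h])

theorem exists_ut {u : ℍ[ℝ]} (hu : u ∈ icosians) (h1 : normSq u = 1) : ∃ j, j < 120 ∧ val (ut j) = u := by
  obtain ⟨p, rfl⟩ := exists_val hu
  have k := enum_norm (by norm_num) enum_U (by norm_num) (p := p) (by rw [h1]; simp)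
  simp only [band_eq, Bool.and_eq_true, anyLt_iff, peq_iff] at k
  obtain ⟨j, hj, rfl⟩ := k.1
  exact ⟨j, hj, rfl⟩

theorem ncard_min : {r : HV | r ∈ icoLeech ∧ qip r r = 4}.ncard = 37800 := by
  have : {r : HV | r ∈ icoLeech ∧ qip r r = 4} = (fun k : ℕ × ℕ => fun t => val (ut k.1) * R k.2 t) ''
      (Finset.range 120 ×ˢ Finset.range 315 : Finset (ℕ × ℕ)) := by
    ext r
    simp only [Set.mem_ofPred_eq, Set.mem_image, Finset.coe_product, Set.mem_prod, Finset.coe_range,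
      Set.mem_Iio]
    constructor
    · intro h
      obtain ⟨u, hu, h1, i, hi, rfl⟩ := IsMin.found h
      obtain ⟨j, hj, rfl⟩ := exists_ut hu h1
      exact ⟨(j, i), ⟨hj, hi⟩, rfl⟩
    · rintro ⟨⟨j, i⟩, ⟨hj, hi⟩, rfl⟩
      exact (R_min hi).mul (val_mem _) (normSq_ut (by omega))
  rw [this, Set.InjOn.ncard_image, Set.ncard_coe_finset, Finset.card_product, Finset.card_range,
    Finset.card_range]
  rintro ⟨j, i⟩ h ⟨j', i'⟩ h' e
  simp only [Finset.coe_product, Set.mem_prod, Finset.coe_range, Set.mem_Iio] at h h' e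
  obtain rfl : i = i' := S_inj i i' h.2 h'.2 (by
    rw [S, S, ← rp_unit (R_min h.2) (val_mem (ut j)) (normSq_ut (by omega)), e,
      rp_unit (R_min h'.2) (val_mem _) (normSq_ut (by omega))])
  obtain ⟨t, ht⟩ := Function.ne_iff.1 (R_min h.2).ne_zero
  obtain rfl := ut_inj j j' h.1 h'.1 (val_inj (mul_right_cancel₀ ht (congrFun e t)))
  rfl

theorem ncard_refl : {f : Equiv.Perm icoLeech | IsIcoReflection f}.ncard = 315 := by
  have : {f : Equiv.Perm icoLeech | IsIcoReflection f} = S '' (Finset.range 315 : Finset ℕ) := by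
    ext f
    simp [isRefl_iff_S]
  rw [this, Set.InjOn.ncard_image, Set.ncard_coe_finset, Finset.card_range]
  intro i hi j hj e
  exact S_inj i j (by simpa using hi) (by simpa using hj) e

end

end Ico
end CfsgH5
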