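/-
The centre of the icosian reflection group and the action of `J₂` on the 315 reflections.
-/
import Cfsg.Agent.H5.J2d

set_option autoImplicit false
set_option linter.constructorNameAsVariable false

namespace CfsgH5
namespace Ico

open Quaternion Cfsg.Spor

noncomputable section

theorem rp_mem' (r : HV) : rp r ∈ twoJ2 := by
  by_cases h : IsMin r
  · exact rp_mem h
  · rw [rp, dif_neg h]; exact one_mem _

theorem S_mem (i : ℕ) : S i ∈ twoJ2 := rp_mem' _

/-- conjugation action on the reflections -/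
def TJ : TabAct twoJ2 (Equiv.Perm icoLeech) 315 where
  act g x := g * x * (g : Equiv.Perm icoLeech)⁻¹
  act_one x := by simp
  act_mul g h x := by simp [mul_assoc]
  D := S
  inj := S_inj
  inv g i hi := by
    obtain ⟨j, hj, e⟩ := (IsMin.map (twoJ2_le g.2) (r := ⟨R i, (R_min hi).1⟩) (R_min hi)).exists_S
    exact ⟨j, hj, (conj_rp (twoJ2_le g.2) (r := ⟨R i, (R_min hi).1⟩) (R_min hi)).trans e⟩

theorem mem_center_of_comm {z : twoJ2}
    (h : ∀ r, IsMin r → rp r * (z : Equiv.Perm icoLeech) = z * rp r) : z ∈ Subgroup.center twoJ2 := by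
  have : twoJ2 ≤ Subgroup.centralizer {(z : Equiv.Perm icoLeech)} := by
    refine (Subgroup.closure_le _).2 fun f hf => ?_
    obtain ⟨r, hr, rfl⟩ := isRefl_iff.1 hf
    exact Subgroup.mem_centralizer_singleton_iff.2 (h r hr)
  exact Subgroup.mem_center_iff.2 fun g =>
    Subtype.ext (Subgroup.mem_centralizer_singleton_iff.1 (this g.2))

theorem ker_TJ : TJ.hom.ker = Subgroup.center twoJ2 := by
  ext z
  rw [TJ.mem_ker]
  constructor
  · intro h
    refine mem_center_of_comm fun r hr => ?_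
    obtain ⟨i, hi, e⟩ := hr.exists_S
    rw [e]
    exact (mul_inv_eq_iff_eq_mul.1 (h i hi)).symm
  · intro h i _
    exact mul_inv_eq_iff_eq_mul.2
      (congrArg Subtype.val (Subgroup.mem_center_iff.1 h ⟨S i, S_mem i⟩)).symm

theorem min_e0 : IsMin ![2, 0, 0] := by
  simpa [val3, val_p2, val_p0] using isMin_of_minV (v := ⟨p2, p0, p0⟩) (by decide +kernel)

theorem min_e1 : IsMin ![0, 2, 0] := by
  simpa [val3, val_p2, val_p0] using isMin_of_minV (v := ⟨p0, p2, p0⟩) (by decide +kernel)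

theorem min_e2 : IsMin ![0, 0, 2] := by
  simpa [val3, val_p2, val_p0] using isMin_of_minV (v := ⟨p0, p0, p2⟩) (by decide +kernel)

theorem qrefl_e0 (x : HV) : qrefl ![2, 0, 0] x = ![-x 0, x 1, x 2] := by
  refine hv_ext ?_ ?_ ?_ <;> simp [qrefl, qip_eq, -one_div, half_smul]
  rw [mul_two]; abel

theorem qrefl_e1 (x : HV) : qrefl ![0, 2, 0] x = ![x 0, -x 1, x 2] := by
  refine hv_ext ?_ ?_ ?_ <;> simp [qrefl, qip_eq, -one_div, half_smul]
  rw [mul_two]; abel

theorem qrefl_e2 (x : HV) : qrefl ![0, 0, 2] x = ![x 0, x 1, -x 2] := by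
  refine hv_ext ?_ ?_ ?_ <;> simp [qrefl, qip_eq, -one_div, half_smul]
  rw [mul_two]; abel

/-- the central involution -/
def negJ : twoJ2 := ⟨rp ![2, 0, 0] * rp ![0, 2, 0] * rp ![0, 0, 2],
  mul_mem (mul_mem (rp_mem' _) (rp_mem' _)) (rp_mem' _)⟩

theorem negJ_apply (x : icoLeech) : ((negJ : Equiv.Perm icoLeech) x : HV) = -(x : HV) := by
  change (rp _ (rp _ (rp _ x)) : HV) = _
  rw [rp_apply min_e0, rp_apply min_e1, rp_apply min_e2, qrefl_e2, qrefl_e1, qrefl_e0]
  exact hv_ext rfl rfl rfl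

theorem negJ_mem : negJ ∈ Subgroup.center twoJ2 := by
  refine mem_center_of_comm fun r hr => ?_
  ext x : 2
  rw [Equiv.Perm.mul_apply, Equiv.Perm.mul_apply, rp_apply hr, negJ_apply, negJ_apply, rp_apply hr]
  have := qrefl_mul r x (-1)
  simp only [neg_mul, one_mul] at this
  exact this

theorem negJ_ne : negJ ≠ 1 := by
  intro h
  have := congrFun (negJ_apply ⟨_, min_e0.1⟩) 0
  rw [h] at this
  change (2 : ℍ[ℝ]) = -2 at this
  rw [eq_neg_iff_add_eq_zero, ← two_mul] at this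
  exact mul_ne_zero two_ne two_ne this

theorem eq_of_mem_center {z : twoJ2} (h : z ∈ Subgroup.center twoJ2) : z = 1 ∨ z = negJ := by
  have hA := twoJ2_le z.2
  have k : ∀ r, (hr : IsMin r) → ∃ c : ℍ[ℝ], ∀ t,
      ((z : Equiv.Perm icoLeech) ⟨r, hr.1⟩ : HV) t = c * r t := fun r hr => by
    refine exists_mul_of_rp_eq (IsMin.map hA (r := ⟨r, hr.1⟩) hr) hr ?_
    rw [← conj_rp hA (r := ⟨r, hr.1⟩) hr, mul_inv_eq_iff_eq_mul]
    exact (congrArg Subtype.val (Subgroup.mem_center_iff.1 h ⟨rp r, rp_mem hr⟩)).symm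
  have k2 : ∀ (t : Fin 3) (e : HV), IsMin e → (∀ x c, qip x (fun s => c * e s) = x t * 2 * star c) →
      (e t = 2) → ∃ c : ℍ[ℝ], normSq c = 1 ∧
        ∀ x : icoLeech, ((z : Equiv.Perm icoLeech) x : HV) t = x.1 t * c := by
    intro t e he hq h2
    obtain ⟨c, hc⟩ := k e he
    have e1 : ∀ x : icoLeech, ((z : Equiv.Perm icoLeech) x : HV) t * star c = x.1 t := fun x => by
      have := hA.1 x ⟨e, he.1⟩
      rw [funext hc, hq, show ((⟨e, he.1⟩ : icoLeech) : HV) = fun s => 1 * e s by simp, hq, star_one,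
        mul_one, mul_two, add_mul, ← mul_two] at this
      exact mul_right_cancel₀ two_ne this
    have e2 : c * star c = 1 := by
      have := e1 ⟨e, he.1⟩
      rw [hc, h2, mul_two, add_mul, ← mul_two] at this
      exact mul_right_cancel₀ two_ne (this.trans (h2.trans (one_mul _).symm))
    have e3 : normSq c = 1 := by rwa [self_mul_star, ← coe_one, coe_inj] at e2
    exact ⟨c, e3, fun x => by rw [← e1 x, mul_assoc, star_mul_self, e3, coe_one, mul_one]⟩
  obtain ⟨c0, -, f0⟩ := k2 0 _ min_e0 (fun x c => by simp [qip_eq, mul_assoc]) rfl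
  obtain ⟨c1, -, f1⟩ := k2 1 _ min_e1 (fun x c => by simp [qip_eq, mul_assoc]) rfl
  obtain ⟨c2, n2, f2⟩ := k2 2 _ min_e2 (fun x c => by simp [qip_eq, mul_assoc]) rfl
  have hh : icoH ≠ 0 := fun e => by simpa [e] using normSq_h
  obtain rfl : c0 = c1 := by
    obtain ⟨c, hc⟩ := k _ (isMin_of_minV (v := ⟨ph, ph, p0⟩) (by decide +kernel))
    have a := hc 0
    have b := hc 1
    rw [f0] at a
    rw [f1] at b
    simp only [val3_0, val3_1, val_ph] at a b
    exact mul_left_cancel₀ hh (a.trans b.symm)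
  obtain rfl : c0 = c2 := by
    obtain ⟨c, hc⟩ := k _ (isMin_of_minV (v := ⟨p0, ph, ph⟩) (by decide +kernel))
    have a := hc 1
    have b := hc 2
    rw [f1] at a
    rw [f2] at b
    simp only [val3_2, val3_1, val_ph] at a b
    exact mul_left_cancel₀ hh (a.trans b.symm)
  have k3 : ∀ p q : P8, minV ⟨p, q, p1⟩ = true → val q * c0 = c0 * val q := fun p q hm => by
    obtain ⟨c, hc⟩ := k _ (isMin_of_minV hm)
    have a := hc 1
    have b := hc 2
    rw [f1] at a
    rw [f2] at b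
    simp only [val3_2, val3_1, val_p1, one_mul, mul_one] at a b
    rw [a, b]
  have a := k3 ⟨0, 0, 2, -2, -3, 1, -1, 1⟩ ⟨0, 0, 1, 0, 0, 0, 0, 0⟩ (by decide +kernel)
  have b := k3 ⟨-2, 1, 2, -1, -1, 1, -3, 1⟩ ⟨2, -1, -1, 1, 0, 0, 2, -2⟩ (by decide +kernel)
  have a1 := congrArg (fun x : ℍ[ℝ] => x.imJ) a
  have a2 := congrArg (fun x : ℍ[ℝ] => x.imK) a
  have b1 := congrArg (fun x : ℍ[ℝ] => x.imK) b
  simp at a1 a2 b1
  have i1 : c0.imI = 0 := by linarith
  have i2 : c0.imJ = 0 := by linarith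
  have i3 : c0.imK = 0 := by linarith
  rw [normSq_def', i1, i2, i3] at n2
  rcases sq_eq_one_iff.1 (show c0.re ^ 2 = 1 by linarith) with h1 | h1
  · left
    obtain rfl : c0 = 1 := by ext <;> simp [h1, i1, i2, i3]
    ext x : 3
    exact hv_ext ((f0 x).trans (mul_one _)) ((f1 x).trans (mul_one _)) ((f2 x).trans (mul_one _))
  · right
    obtain rfl : c0 = -1 := by ext <;> simp [h1, i1, i2, i3]
    ext x : 3
    rw [negJ_apply]
    exact hv_ext ((f0 x).trans (by simp)) ((f1 x).trans (by simp)) ((f2 x).trans (by simp))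

theorem card_center : Nat.card (Subgroup.center twoJ2) = 2 := by
  have : (Subgroup.center twoJ2 : Set twoJ2) = {1, negJ} := by
    ext z
    exact ⟨eq_of_mem_center, by rintro (rfl | rfl); exacts [one_mem _, negJ_mem]⟩
  rw [← SetLike.coe_sort_coe, this, Nat.card_coe_set_eq, Set.ncard_pair negJ_ne.symm]

/-- the permutation representation of `J₂` on the reflections -/
def fJ : J2 →* Equiv.Perm (Fin 315) := (exists_quot_center_hom TJ.hom ker_TJ).choose

theorem fJ_inj : Function.Injective fJ := (exists_quot_center_hom TJ.hom ker_TJ).choose_spec.1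

theorem fJ_mk (g : twoJ2) : fJ (QuotientGroup.mk g) = TJ.hom g :=
  (exists_quot_center_hom TJ.hom ker_TJ).choose_spec.2 g

instance instFiniteJ2 : Finite J2 := Finite.of_injective _ fJ_inj

/-- the images of the reflections -/
def sJ (i : ℕ) : J2 := QuotientGroup.mk ⟨S i, S_mem i⟩

theorem conj_sJ (g : J2) (i : Fin 315) : g * sJ i * g⁻¹ = sJ (fJ g i) := by
  obtain ⟨g, rfl⟩ := QuotientGroup.mk_surjective g
  rw [fJ_mk, sJ, sJ, ← QuotientGroup.mk_mul, ← QuotientGroup.mk_inv, ← QuotientGroup.mk_mul]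
  congr 1
  exact Subtype.ext (TJ.hom_spec g i).symm

theorem sJ_mul_self (i : ℕ) : sJ i * sJ i = 1 := by
  rw [sJ, ← QuotientGroup.mk_mul, ← QuotientGroup.mk_one]
  congr 1
  exact Subtype.ext (rp_mul_self _)

theorem eq_top_of_sJ {K : Subgroup J2} (h : ∀ i, i < 315 → sJ i ∈ K) : K = ⊤ := by
  rw [eq_top_iff]
  rintro g -
  obtain ⟨⟨g, hg⟩, rfl⟩ := QuotientGroup.mk_surjective g
  induction hg using Subgroup.closure_induction with
  | mem f hf =>
    obtain ⟨i, hi, rfl⟩ := isRefl_iff_S.1 hf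
    exact h i hi
  | one => exact K.one_mem
  | mul a b ha hb iha ihb => exact K.mul_mem iha ihb
  | inv a ha iha => exact K.inv_mem iha

theorem exists_sJ_prod : ∃ a b, a < 315 ∧ b < 315 ∧ sJ 127 * sJ a * sJ b = 1 := by
  obtain ⟨a, ha, e1⟩ := min_e1.exists_S
  obtain ⟨b, hb, e2⟩ := min_e2.exists_S
  refine ⟨a, b, ha, hb, ?_⟩
  rw [sJ, sJ, sJ, ← QuotientGroup.mk_mul, ← QuotientGroup.mk_mul, QuotientGroup.eq_one_iff]
  convert negJ_mem
  refine Subtype.ext ?_
  change S 127 * S a * S b = _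
  rw [← e1, ← e2, S, R_g0]
  rfl

theorem eq_of_sJ_eq {j : ℕ} (hj : j < 315) (h : sJ 127 = sJ j) : j = 127 := by
  rw [sJ, sJ, QuotientGroup.eq] at h
  rcases eq_of_mem_center h with h | h
  · exact (S_inj _ _ (by norm_num) hj (congrArg Subtype.val (inv_mul_eq_one.1 h))).symm
  · exfalso
    have e : S j = S 127 * negJ := congrArg Subtype.val (inv_mul_eq_iff_eq_mul.1 h)
    have k : ∀ x : icoLeech, qrefl (R j) x = ![x.1 0, -x.1 1, -x.1 2] := fun x => by
      rw [← rp_apply (R_min hj), ← S, e, Equiv.Perm.mul_apply, S, R_g0, rp_apply min_e0, negJ_apply,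
        qrefl_e0]
      exact hv_ext (neg_neg _) rfl rfl
    have a := congrFun (k ⟨_, min_e1.1⟩) 1
    have b := congrFun (k ⟨_, min_e1.1⟩) 2
    have c := congrFun (k ⟨_, min_e2.1⟩) 2
    simp only [qrefl] at a b c
    change 2 - _ = -2 at a c
    change 0 - _ = -0 at b
    rw [zero_sub, neg_inj, mul_eq_zero] at b
    have : (2 : ℍ[ℝ]) ≠ -2 := fun h => by
      rw [eq_neg_iff_add_eq_zero, ← two_mul] at h
      exact mul_ne_zero two_ne two_ne h
    rcases b with b | b
    · rw [b, zero_mul, sub_zero] at a; exact this a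
    · rw [b, mul_zero, sub_zero] at c; exact this c

theorem pcode_sJ {g π u : ℕ} (hg : g < 315) (h : genChk g π u = true)
    (hp : Nat.beq π (pack 9 315 (ap 9 511 π)) = true) : (Enc.fin 315).pcode 9 (fJ (sJ g)) = π := by
  rw [sJ, fJ_mk]
  refine TJ.pcode_hom ((beq_true_iff _ _).1 hp) fun i hi => ?_
  obtain ⟨h1, c, hc, h2, e⟩ := gen_spec hg h hi
  refine ⟨h1, (conj_rp (twoJ2_le (S_mem g)) (r := ⟨R i, (R_min hi).1⟩) (R_min hi)).trans ?_⟩
  rw [S, rp_apply (R_min hg), e]
  exact rp_unit (R_min h1) hc h2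

end

end Ico
end CfsgH5
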