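/-
Order, simplicity and involution centraliser of `J₂`.
-/
import Cfsg.Agent.H5.J2f

set_option autoImplicit false
set_option linter.constructorNameAsVariable false

namespace CfsgH5
namespace Ico

open Quaternion Cfsg.Spor MulAction

noncomputable section

instance instActJ : MulAction J2 (Fin 315) := MulAction.compHom _ fJ

theorem smul_def (g : J2) (i : Fin 315) : g • i = fJ g i := rfl

/-- the coding of `J₂` -/
def CJ : Codes (permOps 9 511 315) J2 (Fin 315) :=
  homCodes (Enc.fin 315) 9 511 (by norm_num) (by norm_num) fJ fJ_inj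

theorem CJ_code (g : J2) : CJ.code g = (Enc.fin 315).pcode 9 (fJ g) :=
  homCodes_code _ _ _ _ _ _ _ g

theorem CJ_enc (i : Fin 315) : CJ.enc i = i := rfl

theorem code_g0 : CJ.code (sJ 127) = gp0 :=
  (CJ_code _).trans (pcode_sJ (by norm_num) gp0_chk (by decide +kernel))
theorem code_g1 : CJ.code (sJ 130) = gp1 :=
  (CJ_code _).trans (pcode_sJ (by norm_num) gp1_chk (by decide +kernel))
theorem code_g2 : CJ.code (sJ 174) = gp2 :=
  (CJ_code _).trans (pcode_sJ (by norm_num) gp2_chk (by decide +kernel))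
theorem code_g3 : CJ.code (sJ 3) = gp3 :=
  (CJ_code _).trans (pcode_sJ (by norm_num) gp3_chk (by decide +kernel))

theorem gp_valid : ∀ s ∈ [gp0, gp1, gp2, gp3], CJ.In ⊤ s := by
  intro s hs
  simp only [List.mem_cons, List.not_mem_nil, or_false] at hs
  rcases hs with rfl | rfl | rfl | rfl
  exacts [⟨_, trivial, code_g0⟩, ⟨_, trivial, code_g1⟩, ⟨_, trivial, code_g2⟩, ⟨_, trivial, code_g3⟩]

theorem chJ_valid : ∀ s ∈ gens chJ, CJ.In ⊤ s := CJ.slp_valid gp_valid chJ_slp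

/-- the base point -/
def b0 : Fin 315 := ⟨127, by norm_num⟩

theorem exists_smul_mem (i : Fin 315) : ∃ g ∈ CJ.grp (gens chJ), g • b0 = i :=
  (CJ.orbit_iff chJ_valid chJ_chk (a := b0) rfl i).2 (by
    have : allLt 315 (tb (chJ.headD ⟨0, [], 0, id, id, id⟩).B) = true := by decide +kernel
    exact tb_eq _ _ ▸ (allLt_iff _ _).1 this i i.2)

theorem grp_chJ : CJ.grp (gens chJ) = ⊤ := by
  refine eq_top_of_sJ fun i hi => ?_
  obtain ⟨g, hg, e⟩ := exists_smul_mem ⟨i, hi⟩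
  have h0 : sJ 127 ∈ CJ.grp (gens chJ) := (CJ.mem_iff_memC chJ_valid chJ_chk _).2 (by
    rw [code_g0]; exact (allL_iff _ _).1 chJ_mem _ List.mem_cons_self)
  have := conj_sJ g b0
  rw [← smul_def, e] at this
  exact this ▸ mul_mem (mul_mem hg h0) (inv_mem hg)

theorem card_J2 : Nat.card J2 = 604800 := by
  rw [← Subgroup.card_top, ← grp_chJ, CJ.card_grp chJ_valid chJ_chk, chJ_ord]

theorem card_twoJ2 : Nat.card twoJ2 = 1209600 := by
  rw [Subgroup.card_eq_card_quotient_mul_card_subgroup (Subgroup.center twoJ2), card_center]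
  exact congrArg (· * 2) card_J2

theorem mem_orbit_b0 (i : Fin 315) : i ∈ orbit J2 b0 := by
  obtain ⟨g, -, e⟩ := exists_smul_mem i
  exact ⟨g, e⟩

theorem grp_tail : CJ.grp (gens (chJ.drop 1)) = stabilizer J2 b0 := by
  ext g
  refine (CJ.mem_tail_iff chJ_valid chJ_chk (a := b0) rfl g).trans ?_
  change g ∈ CJ.grp (gens chJ) ∧ _ ↔ _
  rw [grp_chJ]
  simp

theorem tail_valid : ∀ s ∈ gens (chJ.drop 1), CJ.In (stabilizer J2 b0) s := fun _ hs =>
  grp_tail ▸ CJ.in_grp (CJ.valid_drop chJ_valid 1) hs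

theorem card_stab : Nat.card (stabilizer J2 b0) = 1920 := by
  rw [← grp_tail, CJ.card_grp (CJ.valid_drop chJ_valid 1) chJ_chk0, chJ_ord1]

theorem exists_of_memC {p : ℕ} (h : band (isPerm 9 511 315 p) (memC (permOps 9 511 315) chJ p) = true) :
    ∃ g ∈ (⊤ : Subgroup J2), (Enc.fin 315).pcode 9 (fJ g) = p := by
  rw [band_eq, Bool.and_eq_true] at h
  exact homCodes_in_of_memC _ _ _ _ _ _ _ chJ_valid chJ_chk h.1 h.2

theorem exists_of_memC_tail {p : ℕ}
    (h : band (isPerm 9 511 315 p) (memC (permOps 9 511 315) (chJ.drop 1) p) = true) :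
    ∃ g ∈ stabilizer J2 b0, (Enc.fin 315).pcode 9 (fJ g) = p := by
  rw [band_eq, Bool.and_eq_true] at h
  exact homCodes_in_of_memC _ _ _ _ _ _ _ tail_valid chJ_chk0 h.1 h.2

theorem isCoatom_stab : IsCoatom (stabilizer J2 b0) :=
  CJ.isCoatom_stab mem_orbit_b0 tail_valid (m := 6) (c₀ := 0) (n := nthD [1, 10, 32, 32, 80, 160] 0)
    chJ_forest (by decide +kernel) (by decide +kernel) (by decide +kernel) (by decide +kernel)
    (by decide +kernel)

theorem isSimple_J2 : IsSimpleGroup J2 := by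
  have : Nontrivial J2 := Finite.one_lt_card_iff_nontrivial.1 (by rw [card_J2]; norm_num)
  refine isSimpleGroup_of_coatom mem_orbit_b0 (fun g h => fJ_inj ?_) isCoatom_stab fun N hN h => ?_
  · rw [map_one]; exact Equiv.ext h
  have k : ∀ i, i < 315 → (QuotientGroup.mk (sJ i) : J2 ⧸ N) = QuotientGroup.mk (sJ 127) := by
    intro i hi
    obtain ⟨n, hn, e⟩ := h ⟨i, hi⟩
    have := conj_sJ n b0
    rw [← smul_def, e] at this
    rw [← show n * sJ 127 * n⁻¹ = sJ i from this, QuotientGroup.mk_mul, QuotientGroup.mk_mul,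
      QuotientGroup.mk_inv, (QuotientGroup.eq_one_iff n).2 hn, one_mul, inv_one, mul_one]
  obtain ⟨a, b, ha, hb, e⟩ := exists_sJ_prod
  have e2 := congrArg (QuotientGroup.mk : J2 → J2 ⧸ N) e
  rw [QuotientGroup.mk_mul, QuotientGroup.mk_mul, k a ha, k b hb, ← QuotientGroup.mk_mul, sJ_mul_self,
    QuotientGroup.mk_one, one_mul] at e2
  exact eq_top_of_sJ fun i hi => (QuotientGroup.eq_one_iff _).1 ((k i hi).trans e2)

theorem centralizer_b0 : Subgroup.centralizer {sJ 127} = stabilizer J2 b0 := by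
  ext g
  rw [Subgroup.mem_centralizer_singleton_iff, mem_stabilizer_iff, ← mul_inv_eq_iff_eq_mul,
    show g * sJ 127 * g⁻¹ = sJ (fJ g b0) from conj_sJ g b0, smul_def]
  exact ⟨fun h => Fin.ext (eq_of_sJ_eq (fJ g b0).2 h.symm), fun h => by rw [h]; rfl⟩

theorem exists_conj_S {i j : ℕ} (hi : i < 315) (hj : j < 315) : ∃ g ∈ twoJ2, g * S i * g⁻¹ = S j := by
  obtain ⟨g, e⟩ := mem_orbit_b0 ⟨i, hi⟩
  obtain ⟨k, e'⟩ := mem_orbit_b0 ⟨j, hj⟩
  obtain ⟨u, hu⟩ := QuotientGroup.mk_surjective (k * g⁻¹)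
  have : (k * g⁻¹) • (⟨i, hi⟩ : Fin 315) = ⟨j, hj⟩ := by
    rw [← e, ← e', mul_smul, inv_smul_smul]
  rw [← hu, smul_def, fJ_mk, TJ.hom_eq_iff] at this
  exact ⟨u, u.2, this⟩

end

end Ico
end CfsgH5
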