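/-
The punctured code of length 23.
-/
import Cfsg.Agent.H5.Orb

set_option autoImplicit false
set_option linter.unusedSimpArgs false

namespace CfsgH5

open scoped Pointwise
open Cfsg MulAction

noncomputable section

/-- the word of length 23 obtained from a set of points by deleting the extra point -/
def pun (s : Finset GolayPt) : ZMod 23 → ZMod 2 := fun x => if some x ∈ s then 1 else 0

/-- the set of points of a word of length 23 -/
def unpun (u : ZMod 23 → ZMod 2) : Finset GolayPt := (support₂ u).map Function.Embedding.some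

theorem word_mk_apply (s : Finset GolayPt) (a : GolayPt) : word (mk s) a = if a ∈ s then 1 else 0 := by
  simp only [word, E24.testBit_mask_enc]

theorem mem_pun_iff (u : ZMod 23 → ZMod 2) :
    (∃ w ∈ golayCode, ∀ x : ZMod 23, u x = w (some x)) ↔ ∃ s ∈ Sup, pun s = u := by
  constructor
  · rintro ⟨w, hw, h⟩
    refine ⟨support₂ w, ⟨w, hw, rfl⟩, funext fun x => ?_⟩
    rw [h, pun, ← word_mk_apply, word_mk_support]
  · rintro ⟨s, hs, rfl⟩
    exact ⟨word (mk s), word_mem_of_isC ((mem_Sup s).1 hs), fun x => by rw [word_mk_apply, pun]⟩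

theorem dist_pun (u : ZMod 23 → ZMod 2) (c : Finset GolayPt) :
    hammingDist u (pun c) = ((symmDiff (unpun u) c).erase none).card := by
  rw [hammingDist, ← Finset.card_map Function.Embedding.some]
  congr 1
  ext a
  have h2 : ∀ y : ZMod 2, y ≠ 1 ↔ y = 0 := by decide
  cases a with
  | none => simp
  | some x =>
    rw [Finset.mem_map' Function.Embedding.some (a := x) |>.trans Finset.mem_filter |> fun h =>
      (show some x ∈ _ ↔ _ from h)]
    by_cases h : some x ∈ c <;> simp [unpun, pun, support₂, Finset.mem_symmDiff, h, h2]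

theorem norm_pun (c : Finset GolayPt) : hammingNorm (pun c) = (c.erase none).card := by
  rw [← hammingDist_zero_left, dist_pun]
  have : unpun 0 = ∅ := by simp [unpun, support₂]
  rw [this, ← Finset.bot_eq_empty, bot_symmDiff]

theorem unpun_pun (c : Finset GolayPt) : unpun (pun c) = c.erase none := by
  ext a
  cases a with
  | none => simp [unpun]
  | some x => simp [unpun, pun, support₂]

theorem card_le_erase (c : Finset GolayPt) : c.card ≤ (c.erase none).card + 1 := by
  have := Finset.pred_card_le_card_erase (s := c) (a := none); omega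

theorem eq_of_dist_pun {c c' : Finset GolayPt} (hc : c ∈ Sup) (hc' : c' ∈ Sup)
    (h : hammingDist (pun c) (pun c') ≤ 6) : c = c' := by
  rw [dist_pun, unpun_pun] at h
  have e : (symmDiff (c.erase none) c').erase none = (symmDiff c c').erase none := by
    ext a; simp only [Finset.mem_erase, Finset.mem_symmDiff]; tauto
  rw [e] at h
  have h1 := card_le_erase (symmDiff c c')
  rcases card_of_mem_Sup (symmDiff_mem_Sup hc hc') with h | h | h | h | h
  · rw [Finset.card_eq_zero] at h; exact symmDiff_eq_bot.1 h
  all_goals omega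

theorem card_erase_eq_pop (c : Finset GolayPt) :
    (c.erase none).card = pop24 (Nat.land 0x7fffff (mk c)) := by
  rw [← card_inter_ts (by norm_num)]
  congr 1
  ext a
  have : a ∈ ts 0x7fffff ↔ a ≠ none := by revert a; decide +kernel
  simp only [Finset.mem_erase, Finset.mem_inter, this]

theorem ncard_pun (P : (ZMod 23 → ZMod 2) → Prop) :
    {u | (∃ w ∈ golayCode, ∀ x : ZMod 23, u x = w (some x)) ∧ P u}.ncard =
      {s | s ∈ Sup ∧ P (pun s)}.ncard := by
  symm
  apply Set.ncard_congr (fun s _ => pun s)
  · intro s hs; exact ⟨(mem_pun_iff _).2 ⟨s, hs.1, rfl⟩, hs.2⟩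
  · intro a b ha hb h; exact eq_of_dist_pun ha.1 hb.1 (by rw [h]; simp)
  · rintro u ⟨hu, hP⟩
    obtain ⟨s, hs, rfl⟩ := (mem_pun_iff _).1 hu
    exact ⟨s, ⟨hs, hP⟩, rfl⟩

theorem ncard_pun_weight (j : ℕ) :
    {u : ZMod 23 → ZMod 2 | u ∈ {u : ZMod 23 → ZMod 2 | ∃ w ∈ golayCode, ∀ x : ZMod 23,
      u x = w (some x)} ∧ hammingNorm u = j}.ncard =
      countLt 4096 fun k => force (cw k) fun m => Nat.beq (pop24 (Nat.land 0x7fffff m)) j := by
  rw [← ncard_Sup' {s | s ∈ Sup ∧ hammingNorm (pun s) = j} _ fun s => by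
    rw [Set.mem_ofPred_eq, norm_pun, card_erase_eq_pop, beq_true_iff]]
  exact ncard_pun fun u => hammingNorm u = j

end

end CfsgH5
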