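/-
Counting in Steiner systems.
-/
import Cfsg.Prelude.Def_Sporadic_a

set_option autoImplicit false
set_option linter.unusedSectionVars false

namespace CfsgH5

open Cfsg Finset

noncomputable section

variable {α : Type*} [Fintype α] [DecidableEq α] {B : Set (Finset α)}

open Classical in
/-- the blocks as a finite set -/
def blocks (B : Set (Finset α)) : Finset (Finset α) := univ.filter (· ∈ B)

theorem mem_blocks {c : Finset α} : c ∈ blocks B ↔ c ∈ B := by simp [blocks]

/-- the number of blocks containing a set -/
def lam (B : Set (Finset α)) (s : Finset α) : ℕ := ((blocks B).filter (s ⊆ ·)).card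

/-- the number of blocks meeting `b` exactly in `s` -/
def nmeet (B : Set (Finset α)) (b s : Finset α) : ℕ := ((blocks B).filter (b ∩ · = s)).card

theorem ncard_eq_nmeet (b s : Finset α) : {c | c ∈ B ∧ b ∩ c = s}.ncard = nmeet B b s := by
  rw [nmeet, ← Set.ncard_coe_finset]
  congr 1
  ext c; simp [mem_blocks]

theorem lam_top {t k : ℕ} (hB : IsSteinerSystem t k B) {s : Finset α} (hs : s.card = t) :
    lam B s = 1 := by
  obtain ⟨b, hb, hu⟩ := hB.2 s hs
  rw [lam, card_eq_one]
  refine ⟨b, ?_⟩
  ext c
  simp only [mem_filter, mem_blocks, mem_singleton]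
  exact ⟨hu c, fun h => h ▸ hb⟩

theorem lam_step {k : ℕ} (hB : ∀ b ∈ B, b.card = k) (s : Finset α) {L : ℕ}
    (h : ∀ t : Finset α, t.card = s.card + 1 → lam B t = L) :
    lam B s * (k - s.card) = (Fintype.card α - s.card) * L := by
  rw [← card_compl, lam]
  apply card_mul_eq_card_mul (fun c x => x ∈ c)
  · intro c hc
    rw [mem_filter, mem_blocks] at hc
    rw [← hB c hc.1, ← card_sdiff_of_subset hc.2]
    congr 1
    ext x; simp [and_comm]
  · intro x hx
    rw [← h (insert x s) (card_insert_of_notMem (by simpa using hx)), lam]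
    congr 1
    ext c
    simp only [mem_bipartiteBelow, mem_filter, insert_subset_iff]
    tauto

theorem lam_eq_sum {b s : Finset α} (hs : s ⊆ b) :
    lam B s = ∑ u ∈ (b \ s).powerset, nmeet B b (s ∪ u) := by
  rw [lam, card_eq_sum_card_fiberwise (f := fun c => (b ∩ c) \ s) (t := (b \ s).powerset)
    (fun c _ => mem_coe.2 (mem_powerset.2 (sdiff_subset_sdiff inter_subset_left Subset.rfl)))]
  apply sum_congr rfl
  intro u hu
  rw [mem_powerset] at hu
  rw [nmeet, filter_filter]
  congr 1
  apply filter_congr
  intro c _
  constructor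
  · rintro ⟨h1, rfl⟩
    rw [union_sdiff_of_subset (subset_inter hs h1)]
  · intro h
    refine ⟨subset_union_left.trans (h ▸ inter_subset_right), ?_⟩
    rw [h, union_sdiff_left, sdiff_eq_self_of_disjoint (disjoint_of_subset_left hu sdiff_disjoint)]

/-- the intersection triangle -/
theorem nmeet_eq {b : Finset α} (Lam N : ℕ → ℕ) (hL : ∀ s ⊆ b, lam B s = Lam s.card)
    (hN : ∀ i ≤ b.card, Lam i = ∑ j ∈ range (b.card - i + 1), (b.card - i).choose j * N (i + j)) :
    ∀ s ⊆ b, nmeet B b s = N s.card := by
  intro s
  induction h : (b \ s).card using Nat.strong_induction_on generalizing s with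
  | _ n ih =>
    intro hs
    have h1 := lam_eq_sum (B := B) hs
    have h2 := sum_powerset_apply_card (fun j => N (s.card + j)) (x := b \ s)
    rw [card_sdiff_of_subset hs] at h2
    simp only [smul_eq_mul] at h2
    rw [hL s hs, hN _ (card_le_card hs), ← h2, ← add_sum_erase _ _ (empty_mem_powerset _),
      ← add_sum_erase _ _ (empty_mem_powerset _), union_empty, card_empty, add_zero] at h1
    have h3 : ∑ u ∈ (b \ s).powerset.erase ∅, nmeet B b (s ∪ u) =
        ∑ u ∈ (b \ s).powerset.erase ∅, N (s.card + u.card) := by
      apply sum_congr rfl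
      intro u hu
      rw [mem_erase, mem_powerset] at hu
      have hd : Disjoint s u := (disjoint_of_subset_left hu.2 sdiff_disjoint).symm
      have hsub : s ∪ u ⊆ b := union_subset hs (hu.2.trans sdiff_subset)
      rw [ih _ _ (s ∪ u) rfl hsub, card_union_of_disjoint hd]
      have := card_le_card hsub
      have := card_pos.2 (nonempty_iff_ne_empty.2 hu.1)
      rw [← h, card_sdiff_of_subset hs, card_sdiff_of_subset hsub]
      rw [card_union_of_disjoint hd] at *
      omega
    omega

end

end CfsgH5
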