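import Cfsg.Agent.H5.ThA

/-! Coded versions of the lemmas for the Thompson group. -/

set_option autoImplicit false

namespace CfsgH5.Th

open CfsgH5 CfsgH6 Subgroup Equiv

variable {Γ : Type*} [Group Γ] {O : GOps} {C : GC O Γ} {R : ℕ → ℕ}

/-- words with a value in `N` -/
def relN (O : GOps) (R : ℕ → ℕ) (M MN : ℕ) (L : List (ℕ × ℕ)) : Bool :=
  allL L fun p => band (subW M p.1) (band (subW MN p.2) (Nat.beq (evalW O R p.1) (evalW O R p.2)))

theorem relN_sound {N : Subgroup Γ} {M MN : ℕ} {L : List (ℕ × ℕ)} (hM : C.Mem R ⊤ M)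
    (hN : C.Mem R N MN) (h : relN O R M MN L = true) : ∀ p ∈ L, C.wd R p.1 ∈ N := by
  intro p hp
  have := (allL_iff _ _).1 h p hp
  simp only [band_eq, Bool.and_eq_true, beq_true_iff] at this
  obtain ⟨h1, h2, h3⟩ := this
  rw [hM.evalW h1, hN.evalW h2] at h3
  rw [C.inj h3]; exact hN.wd_mem h2

theorem wd_cons {i w : ℕ} (h0 : 0 < i) (h : i < 1024) :
    C.wd R (i + 1024 * w) = C.el (R i) * C.wd R w := by
  rw [GC.wd_pos (by omega), hd_eq, tl_eq]
  congr 3 <;> omega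

/-- a cube -/
def e3 (i : ℕ) : ℕ := i + 1024 * (i + 1024 * (i + 1024 * 0))
/-- the square of a product -/
def e4 (i j : ℕ) : ℕ := i + 1024 * (j + 1024 * (i + 1024 * (j + 1024 * 0)))

def carmChk (MN MK b n : ℕ) (Lt Q : List ℕ) : Bool :=
  band (subM MN MK) <| band (subM MK (Nat.lor MN (Nat.shiftLeft (Nat.sub (Nat.pow 2 n) 1) b))) <|
    band (Nat.blt 0 b) <| band (Nat.ble (Nat.add b n) 1024) <| allLt n fun j =>
      band (tb MK (Nat.add b j)) <| band (anyL Lt (Nat.beq (Nat.add b j))) <|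
        band (anyL Q (Nat.beq (e3 (Nat.add b j)))) <|
          allLt j fun i => anyL Q (Nat.beq (e4 (Nat.add b i) (Nat.add b j)))

theorem carm [Finite Γ] {MN MK b n : ℕ} {Lt : List ℕ} {L : List (ℕ × ℕ)} (hK : C.Mem R ⊤ MK)
    (h1 : ∀ t ∈ Lt, ∀ κ ∈ C.gen R MN, (C.el (R t))⁻¹ * κ * C.el (R t) ∈ C.gen R MN)
    (h2 : ∀ p ∈ L, C.wd R p.1 ∈ C.gen R MN) (h : carmChk MN MK b n Lt (L.map Prod.fst) = true) :
    ∃ _ : ((C.gen R MN).subgroupOf (C.gen R MK)).Normal,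
      2 * Nat.card (C.gen R MK) ≤ (n + 2).factorial * Nat.card (C.gen R MN) ∧
      (n = 7 → C.el (R b) ∉ C.gen R MN → Nonempty
        (C.gen R MK ⧸ (C.gen R MN).subgroupOf (C.gen R MK) ≃* alternatingGroup (Fin 9))) := by
  simp only [carmChk, band_eq, Bool.and_eq_true, blt_true_iff, ble_true_iff, allLt_iff, anyL_iff,
    beq_true_iff, Nat.add_eq] at h
  obtain ⟨c1, c2, c3, c4, c5⟩ := h
  have q : ∀ w, (∃ a ∈ L.map Prod.fst, w = a) → C.wd R w ∈ C.gen R MN := by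
    rintro w ⟨a, ha, rfl⟩
    obtain ⟨p, hp, rfl⟩ := List.mem_map.1 ha
    exact h2 p hp
  refine carm_rel (fun i => C.el (R (b + i))) n (GC.gen_mono c1)
    (fun i hi => (hK.gen.get (c5 i hi).1).el_mem) ((closure_le _).2 ?_) (fun i hi => ?_)
    (fun i hi => ?_) (fun i j hi hj => ?_)
  · rintro _ ⟨i, hi, rfl⟩
    have := subM_sound c2 hi
    rw [show ∀ a b, Nat.lor a b = a ||| b from fun _ _ => rfl, Nat.testBit_or, Bool.or_eq_true] at this
    rcases this with h | h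
    · exact mem_sup_left (subset_closure ⟨i, h, rfl⟩)
    · rw [show ∀ a b, Nat.shiftLeft a b = a <<< b from fun _ _ => rfl, Nat.testBit_shiftLeft,
        Nat.sub_eq, Nat.pow_eq, Nat.testBit_two_pow_sub_one] at h
      simp only [Bool.and_eq_true, decide_eq_true_eq] at h
      refine mem_sup_right (subset_closure ⟨i - b, h.2, ?_⟩)
      show C.el (R (b + (i - b))) = _
      rw [show b + (i - b) = i by omega]
  · obtain ⟨t, ht, e⟩ := (c5 i hi).2.1
    rw [e]; exact h1 t ht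
  · have := q _ (c5 i hi).2.2.1
    rw [e3, wd_cons (by omega) (by omega), wd_cons (by omega) (by omega),
      wd_cons (by omega) (by omega), GC.wd_zero, mul_one] at this
    simpa [pow_succ, mul_assoc] using this
  · have := q _ ((c5 j hj).2.2.2 i hi)
    rw [e4, wd_cons (by omega) (by omega), wd_cons (by omega) (by omega),
      wd_cons (by omega) (by omega), wd_cons (by omega) (by omega), GC.wd_zero, mul_one] at this
    simpa [pow_succ, mul_assoc] using this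

theorem carm_ub {k q n u f : ℕ} (h : 2 * k ≤ f * q) (hq : q = n)
    (e : Nat.ble (Nat.mul f n) (Nat.mul 2 u) = true) : k ≤ u := by
  rw [ble_true_iff, Nat.mul_eq, Nat.mul_eq] at e
  subst hq; omega

theorem sy_base [Finite Γ] {z M : ℕ} (hz : C.In ⊤ (R z))
    (h : band (Nat.beq (powC O (R z) 2) O.one) (bnot (Nat.beq (R z) O.one)) = true)
    (e : Nat.beq M (ins 0 z) = true) : Sy (C.el (R z)) (C.gen R M) ∧ Nat.card (C.gen R M) = 2 := by
  refine ⟨?_, card_gen1 hz Nat.prime_two h e⟩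
  rw [(beq_true_iff _ _).1 e, GC.gen_ins, GC.gen_zero]
  have := (hz.prime_dvd Nat.prime_two h).1
  exact Sy.base this.2 ((pow_two _).symm.trans this.1)

/-- relations of a dihedral pair -/
def syChk (O : GOps) (R : ℕ → ℕ) (z a b : ℕ) : Bool :=
  band (Nat.beq (O.mul (R a) (R a)) O.one) <| band (Nat.beq (O.mul (R b) (R b)) O.one)
    (Nat.beq (O.mul (R a) (R b)) (fH (O.mul (R b) (R a)) fun c => O.mul c (R z)))

theorem sy_step [Finite Γ] {z a b M M' n n' : ℕ}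
    (h : Sy (C.el (R z)) (C.gen R M) ∧ Nat.card (C.gen R M) = n) (hz : C.In ⊤ (R z))
    (va : C.In ⊤ (R a)) (vb : C.In ⊤ (R b))
    (ha : ∀ g ∈ C.gen R M, g * C.el (R a) = C.el (R a) * g)
    (hb : ∀ g ∈ C.gen R M, g * C.el (R b) = C.el (R b) * g) (hc : syChk O R z a b = true)
    (e : band (Nat.beq M' (ins (ins M a) b)) (Nat.beq n' (Nat.mul 4 n)) = true) :
    Sy (C.el (R z)) (C.gen R M') ∧ Nat.card (C.gen R M') = n' := by
  simp only [syChk, band_eq, Bool.and_eq_true, beq_true_iff, fH_eq, Nat.mul_eq] at hc e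
  obtain ⟨rfl, rfl⟩ := e
  obtain ⟨c1, c2, c3⟩ := hc
  rw [GC.gen_ins, GC.gen_ins, ← h.2]
  refine h.1.step ha hb (C.inj ?_) (C.inj ?_) (C.inj ?_)
  · rw [C.code_mul, va.code_el, c1, C.code_one]
  · rw [C.code_mul, vb.code_el, c2, C.code_one]
  · rw [C.code_mul, C.code_mul, C.code_mul, va.code_el, vb.code_el, hz.code_el, c3]

theorem gen_le_ker {O' : GOps} {Γ' : Type*} [Group Γ'] {C' : GC O' Γ'} {f : Γ →* Γ'} {pr : ℕ → ℕ}
    (hf : ∀ g, C'.code (f g) = pr (C.code g)) {M : ℕ} {L : List ℕ} (hM : C.Mem R ⊤ M)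
    (h : band (allL L fun e => Nat.beq (pr (force (hd e) R)) O'.one) (subM M (insL L 0)) = true) :
    C.gen R M ≤ f.ker := by
  simp only [band_eq, Bool.and_eq_true, allL_iff, beq_true_iff, force_eq] at h
  refine (closure_le _).2 ?_
  rintro _ ⟨i, hi, rfl⟩
  rcases (testBit_insL _ _ _).1 (subM_sound h.2 hi) with h' | ⟨e, he, rfl⟩
  · simp at h'
  · show f _ = 1
    apply C'.inj
    rw [hf, (hM _ hi).code_el, h.1 e he, C'.code_one]

theorem low_ker [Finite Γ] {Γ' : Type*} [Group Γ'] (f : Γ →* Γ') {H Z : Subgroup Γ} {H' : Subgroup Γ'}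
    (e : H' = H.map f) (hZ : Z ≤ H) (hf : Z ≤ f.ker) {a b n : ℕ} (h1 : a ≤ Nat.card Z)
    (h2 : b ≤ Nat.card H') (h : Nat.ble n (Nat.mul a b) = true) : n ≤ Nat.card H := by
  rw [ble_true_iff, Nat.mul_eq] at h
  subst e
  exact h.trans ((Nat.mul_le_mul h1 h2).trans (card_map_mul_le f hZ hf))

theorem low_map [Finite Γ] {Γ' : Type*} [Group Γ'] (f : Γ →* Γ') {H : Subgroup Γ} {H' : Subgroup Γ'}
    (e : H' = H.map f) {b : ℕ} (h2 : b ≤ Nat.card H') : b ≤ Nat.card H :=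
  h2.trans (e ▸ card_map_le f H)

theorem up_map [Finite Γ] {Γ' : Type*} [Group Γ'] (f : Γ →* Γ') {H : Subgroup Γ} {H' : Subgroup Γ'}
    (e : H' = H.map f) {b : ℕ} (h2 : Nat.card H ≤ b) : Nat.card H' ≤ b :=
  (e ▸ card_map_le f H).trans h2

theorem dcs_mem {G H : Subgroup Γ} {MI : ℕ} (hH : H ≤ G) (hI : C.Mem R G MI) {x : Γ}
    (hx : x ∈ DCs H (C.els R MI)) : x ∈ G := by
  rcases hx with h | ⟨_, ⟨i, hi, rfl⟩, a, ha, b, hb, rfl⟩
  · exact hH h
  · exact G.mul_mem (G.mul_mem (hH ha) (hI i hi).el_mem) (hH hb)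

/-- entries `(t, h₁, e)`: the register `t` lies in a double coset -/
def inDCL (O : GOps) (R : ℕ → ℕ) (MH MI : ℕ) (L : List (ℕ × ℕ × ℕ)) : Bool :=
  allL L fun p => inDC O R MH MI (force (hd p.1) R) p.2.1 p.2.2

theorem inDCL_sound {G H : Subgroup Γ} {MH MI M : ℕ} {L : List (ℕ × ℕ × ℕ)} (hHG : H ≤ G)
    (hH : C.Mem R H MH) (hI : C.Mem R G MI) (hM : C.Mem R ⊤ M)
    (h : band (inDCL O R MH MI L) (subM M (insL (L.map Prod.fst) 0)) = true) : C.Mem R G M := by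
  simp only [inDCL, band_eq, Bool.and_eq_true, allL_iff, force_eq] at h
  intro i hi
  rcases (testBit_insL _ _ _).1 (subM_sound h.2 hi) with h' | ⟨e, he, rfl⟩
  · simp at h'
  · obtain ⟨p, hp, rfl⟩ := List.mem_map.1 he
    exact (hM _ hi).of_mem (dcs_mem hHG hI (hH.inDC' hI.top (hM _ hi) (h.1 p hp)))

/-- the value of a word lies in a union of double cosets, no validity needed -/
theorem inDC_in {G H : Subgroup Γ} {MH MI x h₁ e : ℕ} (hHG : H ≤ G) (hH : C.Mem R H MH)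
    (hI : C.Mem R G MI) (h : inDC O R MH MI x h₁ e = true) : C.In G x := by
  simp only [inDC, band_eq, Bool.and_eq_true, bif'_eq, beq_true_iff, fH_eq, force_eq, tb_eq] at h
  obtain ⟨h1, h2⟩ := h
  split_ifs at h2 with h0
  · rw [beq_true_iff, hH.evalW h1] at h2
    exact ⟨_, hHG (hH.wd_mem h1), h2.symm⟩
  · simp only [Bool.and_eq_true, beq_true_iff] at h2
    obtain ⟨a1, a2, a3⟩ := h2
    obtain ⟨g, hg, eg⟩ := hI _ a1
    rw [← eg, hH.evalW2 h1, hH.mulW a2] at a3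
    exact ⟨_, G.mul_mem (G.mul_mem (hHG (hH.wd_mem h1)) hg) (hHG (hH.wd_mem a2)), a3.symm⟩

theorem inDCL_mem {G H : Subgroup Γ} {MH MI M : ℕ} {L : List (ℕ × ℕ × ℕ)} (hHG : H ≤ G)
    (hH : C.Mem R H MH) (hI : C.Mem R G MI)
    (h : band (inDCL O R MH MI L) (subM M (insL (L.map Prod.fst) 0)) = true) : C.Mem R G M := by
  simp only [inDCL, band_eq, Bool.and_eq_true, allL_iff, force_eq] at h
  intro i hi
  rcases (testBit_insL _ _ _).1 (subM_sound h.2 hi) with h' | ⟨e, he, rfl⟩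
  · simp at h'
  · obtain ⟨p, hp, rfl⟩ := List.mem_map.1 he
    exact inDC_in hHG hH hI (h.1 p hp)

/-- conjugates of `z` -/
def czChk (O : GOps) (R : ℕ → ℕ) (M z : ℕ) (L : List (ℕ × ℕ)) : Bool :=
  allL L fun p => band (subW M p.1) <| band (tb M p.2) <| band (bnot (Nat.beq (force p.2 R) (R z)))
    (Nat.beq (evalW2 O R p.1 (R z)) (mulW O R (force p.2 R) p.1))

theorem cz_sound {M z : ℕ} {L : List (ℕ × ℕ)} (hM : C.Mem R ⊤ M) (hz : C.In ⊤ (R z))
    (h : czChk O R M z L = true) : ∀ p ∈ L,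
      C.wd R p.1 * C.el (R z) * (C.wd R p.1)⁻¹ = C.el (R p.2) ∧ C.el (R p.2) ≠ C.el (R z) := by
  intro p hp
  have := (allL_iff _ _).1 h p hp
  simp only [band_eq, Bool.and_eq_true, beq_true_iff, force_eq, bnot_eq, Bool.not_eq_true',
    ← Bool.not_eq_true] at this
  obtain ⟨h1, h2, h3, h4⟩ := this
  have v := hM.get h2
  refine ⟨?_, fun e => h3 (by rw [← v.code_el, e, hz.code_el])⟩
  rw [← hz.code_el, ← v.code_el, hM.evalW2 h1, hM.mulW h1] at h4
  rw [C.inj h4]; simp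

/-- evaluates a function on a list -/
def mapK (f : ℕ → ℕ) (L : List ℕ) : (List ℕ → Bool) → Bool :=
  List.rec (motive := fun _ => (List ℕ → Bool) → Bool) (fun k => k [])
    (fun a _ ih k => fH (f a) fun b => ih fun l => k (b :: l)) L

theorem mapK_eq (f : ℕ → ℕ) (L : List ℕ) (k : List ℕ → Bool) : mapK f L k = k (L.map f) := by
  induction L generalizing k with
  | nil => rfl
  | cons a l ih =>
    show fH (f a) (fun b => mapK f l fun l => k (b :: l)) = _
    rw [fH_eq, ih]; rfl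

/-- `g e' ≠ e g`, tested on a point -/
def sep (app : ℕ → ℕ → ℕ) (key R : ℕ → ℕ) (M g v : ℕ) (L L' : List ℕ) : Bool :=
  band (allL L (tb M)) <| band (allL L' (tb M)) <| fH (app (R g) v) fun u =>
    mapK (fun e => key (app (force e R) u)) L fun l =>
      mapK (fun e => key (fH (app (force e R) v) (app (R g)))) L' fun l' =>
        allL l fun a => allL l' fun b => bnot (Nat.beq a b)

theorem sep_sound {α : Type*} [MulAction Γ α] {app : ℕ → ℕ → ℕ} {key : ℕ → ℕ}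
    {A : Act C α app key} {M g v : ℕ} {x : α} {L L' : List ℕ} (hM : C.Mem R ⊤ M)
    (hg : C.In ⊤ (R g)) (hv : A.Rep v x) (h : sep app key R M g v L L' = true) :
    ∀ e ∈ L, ∀ e' ∈ L', C.el (R g) * C.el (R e') ≠ C.el (R e) * C.el (R g) := by
  simp only [sep, band_eq, Bool.and_eq_true, allL_iff, fH_eq, mapK_eq, force_eq, bnot_eq,
    Bool.not_eq_true', ← Bool.not_eq_true, beq_true_iff, List.forall_mem_map] at h
  obtain ⟨h1, h2, h3⟩ := h
  intro e he e' he' q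
  refine h3 e he e' he' ((A.key_iff _ _ _ _ (Act.app_el (hM.get (h1 e he)) (Act.app_el hg hv))
    (Act.app_el hg (Act.app_el (hM.get (h2 e' he')) hv))).2 ?_)
  rw [← mul_smul, ← mul_smul, q]

theorem cent_le {G D P K : Subgroup Γ} {MI z : ℕ} {L : List (ℕ × ℕ)}
    (hG : ∀ x ∈ G, x ∈ DCs D (C.els R MI))
    (hD : Dec D (C.gen R 0) (C.wds R (0 :: L.map Prod.fst)) P) (hP : P ≤ K)
    (hz : ∀ p ∈ P, p * C.el (R z) = C.el (R z) * p)
    (h0 : ∀ p ∈ L, C.wd R p.1 * C.el (R z) * (C.wd R p.1)⁻¹ = C.el (R p.2) ∧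
      C.el (R p.2) ≠ C.el (R z))
    (h1 : ∀ g ∈ C.els R MI,
      (∀ e ∈ z :: L.map Prod.snd, ∀ e' ∈ z :: L.map Prod.snd, g * C.el (R e') ≠ C.el (R e) * g) ∨
      (g ∈ K ∧ (∀ e ∈ z :: L.map Prod.snd, ∀ e' ∈ L.map Prod.snd, g * C.el (R e') ≠ C.el (R e) * g) ∧
        ∀ e ∈ L.map Prod.snd, ∀ e' ∈ z :: L.map Prod.snd, g * C.el (R e') ≠ C.el (R e) * g)) :
    ∀ x ∈ G, x * C.el (R z) = C.el (R z) * x → x ∈ K := by
  have key : ∀ d ∈ D, (d ∈ P ∧ d * C.el (R z) * d⁻¹ = C.el (R z)) ∨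
      ∃ e ∈ L.map Prod.snd, d * C.el (R z) * d⁻¹ = C.el (R e) ∧ C.el (R e) ≠ C.el (R z) := by
    intro d hd
    obtain ⟨τ, hτ, ρ, ⟨w, hw, rfl⟩, κ, hκ, rfl⟩ := hD d hd
    rw [GC.gen_zero, mem_bot] at hτ
    subst hτ
    have e : 1 * C.wd R w * κ * C.el (R z) * (1 * C.wd R w * κ)⁻¹ =
        C.wd R w * C.el (R z) * (C.wd R w)⁻¹ := by
      rw [mul_assoc _ κ, hz κ hκ]; group
    rcases List.mem_cons.1 hw with rfl | hw
    · left; rw [e, GC.wd_zero]; simpa using hκ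
    · obtain ⟨p, hp, rfl⟩ := List.mem_map.1 hw
      exact Or.inr ⟨p.2, List.mem_map_of_mem hp, e.trans (h0 p hp).1, (h0 p hp).2⟩
  intro x hx hc
  rcases hG x hx with h | ⟨g, hg, a, ha, b, hb, rfl⟩
  · rcases key x h with h' | ⟨e, -, h1, h2⟩
    · exact hP h'.1
    · exact absurd (by rw [← h1, hc]; group) h2
  · have q : g * (b * C.el (R z) * b⁻¹) = a⁻¹ * C.el (R z) * a⁻¹⁻¹ * g := by
      calc g * (b * C.el (R z) * b⁻¹) = a⁻¹ * (a * g * b * C.el (R z)) * b⁻¹ := by group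
        _ = _ := by rw [hc]; group
    rcases key _ (D.inv_mem ha) with ⟨a1, a2⟩ | ⟨e, he, a2, -⟩ <;>
      rcases key _ hb with ⟨b1, b2⟩ | ⟨e', he', b2, -⟩ <;> rw [a2, b2] at q <;>
      rcases h1 g hg with h | ⟨h, h', h''⟩
    · exact absurd q (h _ List.mem_cons_self _ List.mem_cons_self)
    · exact K.mul_mem (K.mul_mem (hP (P.inv_mem_iff.1 a1)) h) (hP b1)
    · exact absurd q (h _ List.mem_cons_self _ (List.mem_cons_of_mem _ he'))
    · exact absurd q (h' _ List.mem_cons_self _ he')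
    · exact absurd q (h _ (List.mem_cons_of_mem _ he) _ List.mem_cons_self)
    · exact absurd q (h'' _ he _ List.mem_cons_self)
    · exact absurd q (h _ (List.mem_cons_of_mem _ he) _ (List.mem_cons_of_mem _ he'))
    · exact absurd q (h' _ (List.mem_cons_of_mem _ he) _ he')

theorem core35 {N A B : Subgroup Γ} (h1 : N ≤ A) (h2 : N ≤ B) (c1 : Nat.card A = 3)
    (c2 : Nat.card B = 5) : N ≤ C.gen R 0 := by
  have d1 := card_dvd_of_le h1
  have d2 := card_dvd_of_le h2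
  rw [c1] at d1; rw [c2] at d2
  have : Nat.card N = 1 := Nat.eq_one_of_dvd_coprimes (by norm_num) d1 d2
  rw [card_eq_one.1 this]; exact bot_le

theorem simple_map {Γ' : Type*} [Group Γ'] (f : Γ →* Γ') {H : Subgroup Γ} {H' : Subgroup Γ'}
    (e : H' = H.map f) (hH : IsSimpleGroup H) (hn : H' ≠ ⊥) :
    IsSimpleGroup H' ∧ Nat.card H' = Nat.card H := by
  subst e
  have i : Function.Injective (f.subgroupMap H) := by
    rw [← MonoidHom.ker_eq_bot_iff]
    refine ((f.subgroupMap H).normal_ker.eq_bot_or_eq_top).resolve_right fun h => hn ?_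
    rw [eq_bot_iff]
    rintro _ ⟨x, hx, rfl⟩
    have : (⟨x, hx⟩ : H) ∈ (f.subgroupMap H).ker := h ▸ mem_top _
    exact congrArg Subtype.val this
  let E := MulEquiv.ofBijective _ ⟨i, f.subgroupMap_surjective H⟩
  exact ⟨E.symm.isSimpleGroup, (Nat.card_congr E.toEquiv).symm⟩

theorem card_three {k l n m : ℕ} (h1 : k ∣ 3 * l) (h2 : l = n) (h3 : m ∣ k)
    (e : band (Nat.blt 0 n) (Nat.beq m (Nat.mul 3 n)) = true) : k = m := by
  simp only [band_eq, Bool.and_eq_true, blt_true_iff, beq_true_iff, Nat.mul_eq] at e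
  subst h2
  exact Nat.dvd_antisymm (e.2 ▸ h1) h3

theorem cent_final {Γ : Type} [Group Γ] [Finite Γ] {G K Q : Subgroup Γ} {z : Γ} (hK : K ≤ G)
    (hQ : Q ≤ K) (h1 : ∀ g ∈ K, g * z = z * g) (h2 : ∀ g ∈ G, g * z = z * g → g ∈ K)
    (hS : Sy z Q ∧ Nat.card Q = 512) (hn : (Q.subgroupOf K).Normal)
    (hA : Nonempty (K ⧸ Q.subgroupOf K ≃* alternatingGroup (Fin 9))) :
    ∃ z : G, orderOf z = 2 ∧ ∃ (Q : Subgroup (centralizer ({z} : Set G))) (_ : Q.Normal),
      Nat.card Q = 2 ^ 9 ∧ Cfsg.IsExtraspecial 2 Q ∧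
        Nonempty ((centralizer ({z} : Set G)) ⧸ Q ≃* alternatingGroup (Fin 9)) := by
  let w : G := ⟨z, hK (hQ hS.1.mem)⟩
  let Z := centralizer ({w} : Set G)
  let j : Z →* Γ := G.subtype.comp Z.subtype
  have hj : Function.Injective j := Subtype.val_injective.comp Subtype.val_injective
  have hr : j.range = K := by
    ext g
    constructor
    · rintro ⟨x, rfl⟩
      exact h2 _ x.1.2 (congrArg Subtype.val (mem_centralizer_singleton_iff.1 x.2))
    · intro hg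
      exact ⟨⟨⟨g, hK hg⟩, mem_centralizer_singleton_iff.2 (Subtype.ext (h1 g hg))⟩, rfl⟩
  let E : Z ≃* K := (MonoidHom.ofInjective hj).trans (MulEquiv.subgroupCongr hr)
  let Q' : Subgroup Z := (Q.subgroupOf K).comap E.toMonoidHom
  have hn' : Q'.Normal := hn.comap _
  have hr' : (j.comp Q'.subtype).range = Q := by
    ext g
    constructor
    · rintro ⟨x, rfl⟩; exact x.2
    · intro hg
      obtain ⟨x, rfl⟩ : g ∈ j.range := hr ▸ hQ hg
      exact ⟨⟨x, hg⟩, rfl⟩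
  have hj' : Function.Injective (j.comp Q'.subtype) := hj.comp Subtype.val_injective
  refine ⟨w, orderOf_eq_prime (Subtype.ext ((pow_two _).trans hS.1.sq))
    (fun e => hS.1.ne (congrArg Subtype.val e)), Q', hn', ?_,
    hS.1.extra _ hj' hr' (by rw [hS.2]; norm_num), ?_⟩
  · rw [Nat.card_congr (MonoidHom.ofInjective hj').toEquiv, hr', hS.2]; norm_num
  · obtain ⟨e⟩ := hA
    exact ⟨(QuotientGroup.congr Q' (Q.subgroupOf K) E
      (map_comap_eq_self_of_surjective E.surjective _)).trans e⟩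

theorem card_of_alt [Finite Γ] {K Q : Subgroup Γ} (hQ : Q ≤ K) (hc : Nat.card Q = 512)
    (hn : (Q.subgroupOf K).Normal) (hA : Nonempty (K ⧸ Q.subgroupOf K ≃* alternatingGroup (Fin 9))) :
    Nat.card K = 92897280 := by
  obtain ⟨e⟩ := hA
  have ca : 2 * Nat.card (alternatingGroup (Fin 9)) = (9 : ℕ).factorial := by
    rw [two_mul_nat_card_alternatingGroup, Nat.card_perm, Nat.card_fin]
  rw [card_eq_card_quotient_mul_card_subgroup (Q.subgroupOf K), Nat.card_congr e.toEquiv,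
    Nat.card_congr (subgroupOfEquivOfLe hQ).toEquiv, hc]
  rw [show (9 : ℕ).factorial = 2 * 181440 by decide +kernel] at ca
  rw [Nat.eq_of_mul_eq_mul_left two_pos ca]

theorem not_mem_three {Q : Subgroup Γ} [Finite Γ] (hc : Nat.card Q = 512) {x : Γ}
    (h : x ^ 3 = 1 ∧ x ≠ 1) : x ∉ Q := fun hx => by
  have := prime_dvd_card Nat.prime_three hx h.1 h.2
  rw [hc] at this
  norm_num at this

theorem band_intro {a b : Bool} (h : a = true) (h' : b = true) : band a b = true := by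
  rw [h, h']; rfl

theorem allL_app {α : Type} {L L' : List α} {f : α → Bool} (h : allL L f = true)
    (h' : allL L' f = true) : allL (L ++ L') f = true :=
  (allL_iff _ _).2 (forall_app ((allL_iff _ _).1 h) ((allL_iff _ _).1 h'))

theorem lb_of_ix {c c' s n m : ℕ} (h : c ≤ s * c') (h' : n ≤ c)
    (e : band (Nat.blt 0 s) (Nat.ble (Nat.mul s m) n) = true) : m ≤ c' := by
  simp only [band_eq, Bool.and_eq_true, blt_true_iff, ble_true_iff, Nat.mul_eq] at e
  exact Nat.le_of_mul_le_mul_left (e.2.trans (h'.trans h)) e.1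

theorem dc_map {O' : GOps} {Γ' : Type*} [Group Γ'] {C' : GC O' Γ'} {f : Γ →* Γ'} {pr : ℕ → ℕ}
    (hf : ∀ g, C'.code (f g) = pr (C.code g)) {G H : Subgroup Γ} {G' H' : Subgroup Γ'} {MI : ℕ}
    (eG : G' = G.map f) (eH : H' = H.map f) (hI : C.Mem R ⊤ MI)
    (h : ∀ x ∈ G, x ∈ DCs H (C.els R MI)) :
    ∀ x ∈ G', x ∈ DCs H' (C'.els (fun i => pr (R i)) MI) := by
  subst eG eH
  rintro _ ⟨x, hx, rfl⟩
  rcases h x hx with h | ⟨_, ⟨i, hi, rfl⟩, a, ha, b, hb, rfl⟩
  · exact Or.inl ⟨x, h, rfl⟩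
  · exact Or.inr ⟨_, ⟨i, hi, rfl⟩, f a, ⟨a, ha, rfl⟩, f b, ⟨b, hb, rfl⟩, by
      rw [map_mul, map_mul, (hI i hi).el_map hf]⟩

theorem simple_of_map [Finite Γ] {Γ' : Type*} [Group Γ'] (f : Γ →* Γ') {H : Subgroup Γ}
    {H' : Subgroup Γ'} (e : H' = H.map f) (hH : IsSimpleGroup H') {n : ℕ} (h1 : Nat.card H ≤ n)
    (h2 : n ≤ Nat.card H') : IsSimpleGroup H := by
  subst e
  exact (MulEquiv.ofBijective _
    ((f.subgroupMap_surjective H).bijective_of_nat_card_le (h1.trans h2))).isSimpleGroup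

theorem sub_final {Γ : Type} [Group Γ] [Finite Γ] {G K L : Subgroup Γ} (hK : K ≤ G) (hL : L ≤ K)
    (c1 : Nat.card G = 90745943887872000) (c2 : Nat.card K = 634023936)
    (c3 : IsSimpleGroup L ∧ Nat.card L = 211341312) :
    ∃ K : Subgroup G, K.index = 143127000 ∧ ∃ L : Subgroup G, L ≤ K ∧ IsSimpleGroup L ∧
      Nat.card L = 211341312 := by
  refine ⟨K.subgroupOf G, ?_, L.subgroupOf G, fun x hx => hL hx, ?_, ?_⟩
  · have := (K.subgroupOf G).card_mul_index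
    rw [Nat.card_congr (subgroupOfEquivOfLe hK).toEquiv, c1, c2] at this
    omega
  · have := c3.1
    exact (subgroupOfEquivOfLe (hL.trans hK)).isSimpleGroup
  · rw [Nat.card_congr (subgroupOfEquivOfLe (hL.trans hK)).toEquiv, c3.2]

end CfsgH5.Th
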