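/-
The Fischer group inside the Monster: checks, part 0.
-/
import Cfsg.Agent.H5.XD

set_option autoImplicit false
set_option Elab.async false
set_option maxRecDepth 100000

namespace CfsgH5.XM

open CfsgMO

theorem kT : okTv BB vT psT csT msT = true := by
  decide +kernel

theorem kz1 : chkC tab av zP g1 [0] = true := by
  decide +kernel

theorem kl1 : chkE tab (cP g1) [(false, s1)] vT = true := by
  decide +kernel

theorem kz2 : chkC tab av zP g2 [0] = true := by
  decide +kernel

theorem kl2 : chkE tab (cP g2) [(false, s2)] vT = true := by
  decide +kernel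

theorem kz3 : chkC tab av zP g3 [0] = true := by
  decide +kernel

theorem kl3 : chkE tab (cP g3) [(false, s3)] vT = true := by
  decide +kernel

theorem kz4 : chkC tab av zP g4 [0] = true := by
  decide +kernel

theorem kl4 : chkE tab (cP g4) [(false, s4)] vT = true := by
  decide +kernel

theorem kz5 : chkC tab av zP g5 [0] = true := by
  decide +kernel

theorem kl5 : chkE tab (cP g5) [(false, s5)] vT = true := by
  decide +kernel

theorem kz6 : chkC tab av zP g6 [0] = true := by
  decide +kernel

theorem kl6 : chkE tab (cP g6) [(false, s6)] vT = true := by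
  decide +kernel

theorem kz7 : chkC tab av zP g7 [0] = true := by
  decide +kernel

theorem kl7 : chkE tab (cP g7) [(false, s7)] vT = true := by
  decide +kernel

theorem kz8 : chkC tab av zP g8 [0] = true := by
  decide +kernel

theorem kl8 : chkE tab (cP g8) [(false, s8)] vT = true := by
  decide +kernel

theorem kz9 : chkC tab av zP g9 [0] = true := by
  decide +kernel

theorem kl9 : chkE tab (cP g9) [(false, s9)] vT = true := by
  decide +kernel

theorem kz10 : chkC tab av zP g10 [0] = true := by
  decide +kernel

theorem kl10 : chkE tab (cP g10) [(false, s10)] vT = true := by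
  decide +kernel

theorem kn1 : chkE tab [(false, s2 ++ s5 ++ s7 ++ s2 ++ s1 ++ s6 ++ s2 ++ s3)] [(false, n1)] vT = true := by
  decide +kernel

theorem kn2 : chkE tab [(false, s5 ++ s9 ++ s6 ++ s1 ++ s2 ++ s3)] [(false, n2)] vT = true := by
  decide +kernel


end CfsgH5.XM
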