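/-
The Fischer group inside the Monster: checks, part 1.
-/
import Cfsg.Agent.H5.XD

set_option autoImplicit false
set_option Elab.async false
set_option maxRecDepth 100000

namespace CfsgH5.XM

open CfsgMO

theorem kc0a : chkC tab av PW [] [1, 2, 3, 4, 5] = true := by
  decide +kernel

theorem kc0b : chkC tab av PW [] [6, 7, 8, 9, 10] = true := by
  decide +kernel

theorem kc1 : chkC tab av PW (GW 1) [3, 9, 10] = true := by
  decide +kernel

theorem kc2 : chkC tab av PW (GW 2) [9, 10] = true := by
  decide +kernel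

theorem kc3 : chkC tab av PW (GW 3) [10] = true := by
  decide +kernel

theorem kc4 : chkC tab av PW (GW 4) [1, 2, 5, 6, 7, 9, 10] = true := by
  decide +kernel

theorem kc5 : chkC tab av PW (GW 5) [1, 3, 9, 10] = true := by
  decide +kernel

theorem kc6 : chkC tab av PW (GW 6) [2, 3, 5, 7, 10] = true := by
  decide +kernel

theorem kc7 : chkC tab av PW (GW 7) [1, 2, 3, 9, 10] = true := by
  decide +kernel

theorem kc8 : chkC tab av PW (GW 8) [1, 2, 3, 5, 6, 7, 9] = true := by
  decide +kernel

theorem kc9 : chkC tab av PW (GW 9) [3, 10] = true := by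
  decide +kernel

theorem kb1_2 : chkB tab av (PW 1) (PW 2) (GW 1) (GW 2) = true := by
  decide +kernel

theorem kb1_6 : chkB tab av (PW 1) (PW 6) (GW 1) (GW 6) = true := by
  decide +kernel

theorem kb2_3 : chkB tab av (PW 2) (PW 3) (GW 2) (GW 3) = true := by
  decide +kernel

theorem kb2_5 : chkB tab av (PW 2) (PW 5) (GW 2) (GW 5) = true := by
  decide +kernel

theorem kb3_4 : chkB tab av (PW 3) (PW 4) (GW 3) (GW 4) = true := by
  decide +kernel

theorem kb4_8 : chkB tab av (PW 4) (PW 8) (GW 4) (GW 8) = true := by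
  decide +kernel

theorem kb5_7 : chkB tab av (PW 5) (PW 7) (GW 5) (GW 7) = true := by
  decide +kernel

theorem kb6_9 : chkB tab av (PW 6) (PW 9) (GW 6) (GW 9) = true := by
  decide +kernel

theorem kb8_10 : chkB tab av (PW 8) (PW 10) (GW 8) (GW 10) = true := by
  decide +kernel


end CfsgH5.XM
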