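/-
The Fischer group inside the Monster: checks, part 2.
-/
import Cfsg.Agent.H5.XK0
import Cfsg.Agent.H5.XV1

set_option autoImplicit false
set_option Elab.async false
set_option maxRecDepth 100000

namespace CfsgH5.XM

open CfsgMO

theorem ka0 : chkL tab (rep 3 R1) (av 12) (sx 3 v103) = true := by
  decide +kernel

theorem ka1 : chkL tab (rep 3 R1) (sx 3 v103) (sx 3 v106) = true := by
  decide +kernel

theorem ka2 : chkL tab (rep 2 R1) (sx 3 v106) (sx 3 v108) = true := by
  decide +kernel

theorem ka3 : chkL tab (rep 2 R1) (sx 3 v108) (av 12) = true := by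
  decide +kernel

theorem kb0 : chkL tab (rep 3 R2) (av 12) (sx 3 v203) = true := by
  decide +kernel

theorem kb1 : chkL tab (rep 3 R2) (sx 3 v203) (sx 3 v206) = true := by
  decide +kernel

theorem kb2 : chkL tab (rep 3 R2) (sx 3 v206) (av 12) = true := by
  decide +kernel


end CfsgH5.XM
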