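/-
The Fischer group inside the Monster: checks, part 3.
-/
import Cfsg.Agent.H5.XK1
import Cfsg.Agent.H5.XV2

set_option autoImplicit false
set_option Elab.async false
set_option maxRecDepth 100000

namespace CfsgH5.XM

open CfsgMO

theorem kv0 : chkL tab (rep 2 R1) vT (sx 3 v112) = true := by
  decide +kernel

theorem kv1 : chkL tab (rep 2 R1) (sx 3 v112) (sx 3 v114) = true := by
  decide +kernel

theorem kv2 : chkL tab (rep 2 R1) (sx 3 v114) (sx 3 v116) = true := by
  decide +kernel

theorem kv3 : chkL tab (rep 2 R1) (sx 3 v116) (sx 3 v118) = true := by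
  decide +kernel

theorem kv4 : chkL tab (rep 2 R1) (sx 3 v118) vT = true := by
  decide +kernel


end CfsgH5.XM
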