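/-
The Fischer group inside the Monster: checks, part 4.
-/
import Cfsg.Agent.H5.XK2
import Cfsg.Agent.H5.XV3

set_option autoImplicit false
set_option Elab.async false
set_option maxRecDepth 100000

namespace CfsgH5.XM

open CfsgMO

theorem kw0 : chkL tab (rep 2 R2) vT (sx 3 v212) = true := by
  decide +kernel

theorem kw1 : chkL tab (rep 2 R2) (sx 3 v212) (sx 3 v214) = true := by
  decide +kernel

theorem kw2 : chkL tab (rep 2 R2) (sx 3 v214) (sx 3 v216) = true := by
  decide +kernel

theorem kw3 : chkL tab (rep 2 R2) (sx 3 v216) (sx 3 v218) = true := by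
  decide +kernel

theorem kw4 : chkL tab (rep 1 R2) (sx 3 v218) vT = true := by
  decide +kernel


end CfsgH5.XM
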