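/-
The Fischer group inside the Monster: kernel functions and words.
-/
import Cfsg.Agent.MO.AxS

set_option autoImplicit false

namespace CfsgH5.XM

open CfsgMO

noncomputable section

/-- programs: words and inverses of words; the first one acts first -/
abbrev Pg := List (Bool × List ℕ)

variable (tab : ℕ → List Lay) (av : ℕ → List ℕ)

def runP (p : Pg) (u : List ℕ) (k : List ℕ → Bool) : Bool :=
  List.rec (motive := fun _ => List ℕ → Bool) k
    (fun a _ ih u => Bool.rec (runW tab a.2 u ih) (runI tab a.2 u ih) a.1) p u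

/-- repetition -/
def rep (n : ℕ) (p : Pg) : Pg := Nat.rec [] (fun _ ih => p ++ ih) n

/-- `p` and `q` agree on `u` -/
def chkE (p q : Pg) (u : List ℕ) : Bool :=
  runP tab p u fun a => runP tab q u fun b => eqP a b

/-- `p` maps `u` to `v` -/
def chkL (p : Pg) (u v : List ℕ) : Bool := runP tab p u fun a => eqP a v

/-- the programs `P x` fix the image of the standard axis under `g` -/
def chkC (P : ℕ → Pg) (g xs : List ℕ) : Bool :=
  runW tab g (av 0) fun a => allL (fun x => runP tab (P x) a fun b => eqP a b) xs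

/-- the braid relation -/
def chkB (p q : Pg) (g h : List ℕ) : Bool :=
  runW tab h (av 0) fun a => runP tab p a fun b => runW tab g (av 0) fun c => runP tab q c fun e =>
    eqP b e

/-- the mask of 24 positions -/
def msk (ps : List ℕ) (n : ℕ) : ℕ :=
  Nat.rec 0 (fun i ih => Nat.lor ih (Nat.shiftLeft 1 (kgd ps i))) n

/-- a test vector -/
def okTv (B : Lb) (u ps cs ms : List ℕ) : Bool :=
  an (okV B u) <| an (kall 24 fun i => tb B.X (kgd ps i)) <|
    an (Nat.beq (Nat.lor (msk ps 24) (Nat.land (orP u) B.X)) (msk ps 24)) <|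
    an (kall 24 fun i => eqZ (valN u (kgd ps i)) (Int.ofNat (Nat.mul 1024 (Nat.succ i)))) <|
    an (kall 24 fun i => Nat.beq (klab B.L (kgd ps i)) (kgd cs i)) <|
    an (kall 24 fun k => Nat.beq (kxs 24 0 cs (kgd ms k)) (Nat.shiftLeft 1 k))
      (eqZ (valN u 52736) 1024)

end

end CfsgH5.XM
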