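/-
The Fischer group inside the Monster: soundness of the checks.
-/
import Cfsg.Agent.H5.XM0
import Cfsg.Agent.MO.Ax3
import Cfsg.Agent.MO.Six

set_option autoImplicit false

namespace CfsgH5.XM

open CfsgMO CfsgMO.Dat Matrix

noncomputable section

variable {D : Dat} {B : Lb} {tab : ℕ → List Lay} {amat : ℕ → List ℕ} {gel : ℕ → D.Γ}
  {av : ℕ → List ℕ} {p0 : D.I}

/-- an element of `N` which fixes a rigid vector is trivial -/
theorem eq_one_of {v : D.V} {ι : Type} (p : ι → D.I) (hs : ∀ s, v.2.1 s ≠ 0 → ∃ i, s = p i)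
    (h0 : ∀ i, v.2.1 (p i) ≠ 0)
    (hd : ∀ i j ε, v.2.1 (p j) = sg ε * v.2.1 (p i) → j = i ∧ ε = 0)
    (hspan : ∀ W : AddSubgroup Cl, (∀ i, D.cls (p i) ∈ W) → ∀ c, c ∈ W) (hW : v.2.2 ≠ 0)
    {n : D.Γ} (hn : n ∈ D.N) (e : n.1 v = v) : n = 1 := by
  obtain ⟨U, σ, h1, h2⟩ := of_mem_N hn
  have key : ∀ i, n * D.xq (D.cls (p i)) = D.xq (D.cls (p i)) * n := fun i => by
    obtain ⟨s, ε, h3, -⟩ := h1.2.2 (p i)
    have h4 := actL_X h1 h3 v
    rw [← h2, e] at h4
    obtain ⟨j, rfl⟩ := hs s (by rw [h4]; exact mul_ne_zero (sg_ne_zero _) (h0 i))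
    obtain ⟨rfl, rfl⟩ := hd i j ε h4
    have := conj_xq h1 h2 h3
    rw [zp_zero, one_mul] at this
    exact mul_inv_eq_iff_eq_mul.1 this
  let W : AddSubgroup Cl :=
    { carrier := {c | n * D.xq c = D.xq c * n}
      zero_mem' := by change n * D.xq 0 = D.xq 0 * n; rw [xq_zero, mul_one, one_mul]
      add_mem' := fun {a b} ha hb => by
        change n * D.xq a = D.xq a * n at ha
        change n * D.xq b = D.xq b * n at hb
        change n * D.xq (a + b) = D.xq (a + b) * n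
        have h : n * (D.xq a * D.xq b) = D.xq a * D.xq b * n := by
          rw [← mul_assoc, ha, mul_assoc, hb, mul_assoc]
        rw [xq_mul, ← mul_assoc, D.zp_comm hn, mul_assoc, mul_assoc] at h
        exact mul_left_cancel h
      neg_mem' := fun {x} hx => by rwa [neg_eq_of_add_eq_zero_right (Cl_aa x)] }
  rcases cent_Q hn (hspan W key) with h | rfl
  · exact h
  · rw [z_apply] at e
    have : -v.2.2 = v.2.2 := congrArg (fun x : D.V => x.2.2) e
    refine absurd ?_ hW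
    ext i j
    have := congrFun (congrFun this i) j
    rw [Matrix.neg_apply] at this
    change v.2.2 i j = 0
    linarith

theorem msk_bit {ps : List ℕ} {n k : ℕ} (h : (msk ps n).testBit k = true) :
    ∃ i < n, k = kgd ps i := by
  induction n with
  | zero => exact absurd h (by simp [msk])
  | succ n ih =>
    change (Nat.lor (msk ps n) (Nat.shiftLeft 1 (kgd ps n))).testBit k = true at h
    rw [tb_lor, Bool.or_eq_true] at h
    rcases h with h | h
    · obtain ⟨i, hi, e⟩ := ih h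
      exact ⟨i, by omega, e⟩
    · rw [tb_shl, Nat.one_shiftLeft, Nat.testBit_two_pow] at h
      exact ⟨n, by omega, (of_decide_eq_true h).symm⟩

theorem cd_xor' (a b : ℕ) : cd (Nat.xor a b) = cd a + cd b := funext fun k => bt_xor a b k

theorem kxs_mem {W : AddSubgroup Cl} {cs : List ℕ} {n : ℕ} (h : ∀ i < n, cd (kgd cs i) ∈ W) (r : ℕ) :
    cd (kxs n 0 cs r) ∈ W := by
  induction n with
  | zero =>
    have : cd (kxs 0 0 cs r) = 0 := funext fun k => by simp [kxs, cd]
    rw [this]; exact zero_mem _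
  | succ n ih =>
    have h1 := ih fun i hi => h i (by omega)
    change cd (Bool.rec (kxs n 0 cs r) (Nat.xor (kxs n 0 cs r) (kgd cs (0 + n))) (tb r n)) ∈ W
    cases tb r n
    · exact h1
    · change cd (Nat.xor _ _) ∈ W
      rw [cd_xor', zero_add]
      exact add_mem h1 (h n (by omega))

/-- a vector with trivial stabiliser in `N` -/
def Rigid (D : Dat) (v : D.V) : Prop := ∀ n ∈ D.N, n.1 v = v → n = 1

theorem okTv_sound (hG : Good D B) {u ps cs ms : List ℕ} (h : okTv B u ps cs ms = true) :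
    ∃ v, Rigid D v ∧ Rp D B v u := by
  simp only [okTv, an_eq, Bool.and_eq_true, kall_iff, eqZ_iff, valN_eq, tb_eq, klab_eq] at h
  obtain ⟨h1, h2, h3, h4, h5, h6, h7⟩ := h
  have hv : Rp D B (vec D B (1 / 512) u) u := co_vec hG _ h1
  generalize vec D B (1 / 512) u = v at hv
  refine ⟨v, fun n hn e => ?_, hv⟩
  have hp : ∀ i : Fin 24, ∃ p, D.cls p = cd (lab B.L (kgd ps i)) := fun i =>
    (hG.hX _ (h2 i i.2)).2
  choose p hp using hp
  have hval : ∀ i : Fin 24, v.2.1 (p i) = 2 * ((i : ℕ) + 1 : ℚ) := fun i => by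
    rw [← co_X hG v (h2 i i.2) (hp i), hv, Pi.smul_apply, valQ, h4 i i.2]
    change (1 / 512 : ℚ) * (((1024 * (i + 1) : ℕ) : ℤ) : ℚ) = _
    push_cast
    ring
  refine eq_one_of p (fun s hs => ?_) (fun i => ?_) (fun i j ε h => ?_) (fun W hW c => ?_) ?_ hn e
  · obtain ⟨k, hk, e1⟩ := hG.surj s
    have h8 : (orP u).testBit k = true := by
      by_contra h8
      rw [← co_X hG v hk e1, hv, Pi.smul_apply, valQ, val_eq_zero (Bool.eq_false_iff.2 h8)] at hs
      exact hs (by simp)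
    have h9 := congrArg (·.testBit k) (Nat.eq_of_beq_eq_true h3)
    simp only [tb_lor, tb_land, h8, hk, Bool.and_true, Bool.or_true] at h9
    obtain ⟨i, hi, rfl⟩ := msk_bit h9.symm
    exact ⟨⟨i, hi⟩, D.cls_inj (e1.trans (hp ⟨i, hi⟩).symm)⟩
  · rw [hval]; positivity
  · rw [hval, hval] at h
    rcases F2_cases ε with rfl | rfl
    · rw [sg_zero] at h
      have : ((j : ℕ) : ℚ) = (i : ℕ) := by linarith
      exact ⟨Fin.ext (by exact_mod_cast this), rfl⟩
    · rw [sg_one] at h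
      have h1 : (0 : ℚ) ≤ (i : ℕ) := Nat.cast_nonneg _
      have h2 : (0 : ℚ) ≤ (j : ℕ) := Nat.cast_nonneg _
      linarith
  · have h8 : ∀ k : Fin 24, (Pi.single k 1 : Cl) ∈ W := fun k => by
      rw [← Dat.cd_pow, ← Nat.one_shiftLeft, ← Nat.shiftLeft_eq', ← Nat.eq_of_beq_eq_true (h6 k k.2)]
      refine kxs_mem (fun i hi => ?_) _
      rw [← Nat.eq_of_beq_eq_true (h5 i hi), ← hp ⟨i, hi⟩]
      exact hW _
    rw [← Finset.univ_sum_single c]
    refine sum_mem fun k _ => ?_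
    rcases F2_cases (c k) with e1 | e1 <;> rw [e1]
    · rw [Pi.single_zero]; exact zero_mem _
    · exact h8 k
  · intro h0
    have h8 := co_W hG v 0 (x := 0) (by norm_num)
    rw [hv, h0, Pi.smul_apply, valQ] at h8
    change (1 / 512 : ℚ) * (val u 52736 : ℚ) = 0 at h8
    rw [h7] at h8
    norm_num at h8

/-- the value of a program -/
def pv (gel : ℕ → D.Γ) (p : Pg) : D.Γ :=
  p.foldr (fun a g => g * Bool.rec (wd gel a.2) (wd gel a.2)⁻¹ a.1) 1

theorem pv_f (w : List ℕ) (p : Pg) : pv gel ((false, w) :: p) = pv gel p * wd gel w := rfl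
theorem pv_t (w : List ℕ) (p : Pg) : pv gel ((true, w) :: p) = pv gel p * (wd gel w)⁻¹ := rfl
theorem pv_nil : pv gel [] = 1 := rfl

theorem pv_append (p q : Pg) : pv gel (p ++ q) = pv gel q * pv gel p := by
  induction p with
  | nil => exact (mul_one _).symm
  | cons a p ih =>
    change pv gel (p ++ q) * _ = pv gel q * (pv gel p * _)
    rw [ih, mul_assoc]

theorem pv_rep (n : ℕ) (p : Pg) : pv gel (rep n p) = pv gel p ^ n := by
  induction n with
  | zero => exact (pow_zero _).symm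
  | succ n ih =>
    change pv gel (p ++ rep n p) = _
    rw [pv_append, ih, pow_succ]

theorem runP_sound (hA : Alph D B tab amat gel) {x : D.V} {p : Pg} {u : List ℕ} {k : List ℕ → Bool}
    (h : Rp D B x u) (e : runP tab p u k = true) :
    ∃ u', Rp D B ((pv gel p).1 x) u' ∧ k u' = true := by
  induction p generalizing x u with
  | nil => exact ⟨u, h, e⟩
  | cons a p ih =>
    obtain ⟨b, w⟩ := a
    cases b
    · obtain ⟨u1, h1, e1⟩ := hA.runW h (k := fun u => runP tab p u k) e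
      exact ih h1 e1
    · obtain ⟨u1, h1, e1⟩ := hA.runI h (k := fun u => runP tab p u k) e
      exact ih h1 e1

theorem chkE_sound (hA : Alph D B tab amat gel) {x : D.V} {p q : Pg} {u : List ℕ}
    (h : Rp D B x u) (e : chkE tab p q u = true) : (pv gel p).1 x = (pv gel q).1 x := by
  obtain ⟨a, h1, e⟩ := runP_sound hA h e
  obtain ⟨b, h2, e⟩ := runP_sound hA h e
  exact h1.eq hA.good h2 e

theorem chkL_sound (hA : Alph D B tab amat gel) {x : D.V} {p : Pg} {n : ℕ} {u v : List ℕ}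
    (h : Rp D B x u) (e : chkL tab (rep n p) u v = true) : Rp D B ((pv gel p ^ n).1 x) v := by
  obtain ⟨a, h1, e⟩ := runP_sound hA h e
  rwa [← eqP_sound e, ← pv_rep]

theorem allL_mem {f : ℕ → Bool} {w : List ℕ} (h : allL f w = true) {x : ℕ} (hx : x ∈ w) :
    f x = true := by
  induction w with
  | nil => exact absurd hx (by simp)
  | cons a w ih =>
    obtain ⟨h1, h2⟩ := allL_cons.1 h
    rcases List.mem_cons.1 hx with rfl | hx
    exacts [h1, ih h2 hx]

/-- the involution of the image of the standard axis -/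
def sI (gel : ℕ → D.Γ) (g : List ℕ) : D.Γ := wd gel g * wd gel dW * (wd gel g)⁻¹

theorem sI_append (g t : List ℕ) : sI gel (g ++ t) = wd gel t * sI gel g * (wd gel t)⁻¹ := by
  rw [sI, sI, wd_append]; group

variable (h : Ctx2 D B tab amat gel av p0)
include h

theorem rp0 : Rp D B (D.ax p0 0) (av 0) := h.e0 ▸ h.al.rp h.ok 0
theorem rp1 : Rp D B (D.ax p0 1) (av 12) := h.e1 ▸ h.al.rp h.ok 12

theorem chkC_sound {P : ℕ → Pg} {g xs : List ℕ} (e : chkC tab av P g xs = true) {x : ℕ}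
    (hx : x ∈ xs) : (pv gel (P x)).1 ((wd gel g).1 (D.ax p0 0)) = (wd gel g).1 (D.ax p0 0) := by
  obtain ⟨a, h1, e⟩ := h.al.runW (rp0 h) e
  obtain ⟨b, h2, e⟩ := runP_sound h.al h1 (allL_mem e hx)
  exact (h1.eq h.al.good h2 e).symm

theorem chkB_sound {p q : Pg} {g k : List ℕ} (e : chkB tab av p q g k = true) :
    (pv gel p).1 ((wd gel k).1 (D.ax p0 0)) = (pv gel q).1 ((wd gel g).1 (D.ax p0 0)) := by
  obtain ⟨a, h1, e⟩ := h.al.runW (rp0 h) e
  obtain ⟨b, h2, e⟩ := runP_sound h.al h1 e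
  obtain ⟨c, h3, e⟩ := h.al.runW (rp0 h) e
  obtain ⟨d, h4, e⟩ := runP_sound h.al h3 e
  exact h2.eq h.al.good h4 e

theorem sI_sq (g : List ℕ) : sI gel g * sI gel g = 1 := h.x_sq _

theorem sI_mem {g : List ℕ} (ho : okW g = true) : sI gel g ∈ D.GG (gel 54) :=
  mul_mem (mul_mem (h.al.wd_G ho) (h.al.wd_G (by decide))) (inv_mem (h.al.wd_G ho))

theorem GG_au {x : D.Γ} (hx : x ∈ D.GG (gel 54)) : x ∈ D.Au :=
  (sup_le D.N_le_Au (Subgroup.zpowers_le.2 h.au) : D.GG (gel 54) ≤ D.Au) hx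

theorem tt_sI {g : List ℕ} (ho : okW g = true) :
    D.tt ((wd gel g).1 (D.ax p0 0)) = (sI gel g).1 := tt_unit (h.wd_au ho) (h.tt_e false)

theorem conj_sI {g k : List ℕ} (hg : okW g = true) (hk : okW k = true) {x y : D.Γ} (hx : x ∈ D.Au)
    (hy : y ∈ D.Au) (e : x.1 ((wd gel g).1 (D.ax p0 0)) = y.1 ((wd gel k).1 (D.ax p0 0))) :
    x * sI gel g * x⁻¹ = y * sI gel k * y⁻¹ := by
  have h1 := tt_unit hx (tt_sI h hg)
  rw [e, tt_unit hy (tt_sI h hk)] at h1
  exact (Units.ext h1).symm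

theorem comm_sI {g k : List ℕ} (hg : okW g = true) (hk : okW k = true)
    (e : (sI gel g).1 ((wd gel k).1 (D.ax p0 0)) = (wd gel k).1 (D.ax p0 0)) :
    (sI gel g * sI gel k) ^ 2 = 1 := by
  have h1 := conj_sI h hk hk (GG_au h (sI_mem h hg)) (one_mem _) e
  rw [inv_eq_of_mul_eq_one_right (sI_sq h g), one_mul, inv_one, mul_one] at h1
  rw [pow_two, ← mul_assoc, h1, sI_sq h]

theorem braid_sI {g k : List ℕ} (hg : okW g = true) (hk : okW k = true)
    (e : (sI gel g).1 ((wd gel k).1 (D.ax p0 0)) = (sI gel k).1 ((wd gel g).1 (D.ax p0 0))) :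
    (sI gel g * sI gel k) ^ 3 = 1 := by
  have h1 := conj_sI h hk hg (GG_au h (sI_mem h hg)) (GG_au h (sI_mem h hk)) e
  rw [inv_eq_of_mul_eq_one_right (sI_sq h g), inv_eq_of_mul_eq_one_right (sI_sq h k)] at h1
  have a := sI_sq h g
  have b := sI_sq h k
  generalize sI gel g = x at *
  generalize sI gel k = y at *
  calc (x * y) ^ 3 = x * y * x * (y * x * y) := by simp only [pow_succ]; group
    _ = y * x * (y * y) * x * y := by rw [h1]; group
    _ = 1 := by rw [b, mul_one, mul_assoc y, a, mul_one, b]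

omit h in
theorem eqN {v : D.V} (hv : Rigid D v) {x y : D.Γ} (hx : x ∈ D.N) (hy : y ∈ D.N)
    (e : x.1 v = y.1 v) : x = y := by
  have := hv (y⁻¹ * x) (mul_mem (inv_mem hy) hx) (by rw [mul_ap, e, unit_inj])
  rwa [inv_mul_eq_one, eq_comm] at this

variable {a : Fin 12 → D.V} {w : Fin 12 → Fin 12 → ℕ} {s o : Fin 12 → ℕ} {par : Fin 12 → Fin 12}
  (hL : HypL D) (hT : HypT (gel 54)) (hA : HypA (gel 54) p0 a w s o par)
include hL hT hA

theorem link {v : D.V} {u g t : List ℕ} (hv : Rigid D v) (hu : Rp D B v u) (hg : okW g = true)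
    (ht : okN t = true) (e1 : chkC tab av (fun _ => [(false, [24])]) g [0] = true)
    (e2 : chkE tab [(true, g), (false, dW), (false, g)] [(false, t)] u = true) :
    sI gel g = wd gel t := by
  have h1 := chkC_sound h e1 (List.mem_singleton_self 0)
  have h2 : pv gel [(false, [24])] = D.z := by
    rw [pv_f, pv_nil, one_mul, wd_cons, h.z]; exact one_mul _
  rw [h2] at h1
  have h3 := conj_sI h hg hg (D.N_le_Au D.z_mem) (one_mem _) h1
  rw [one_mul, inv_one, mul_one, mul_inv_eq_iff_eq_mul] at h3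
  refine eqN hv (cent_GG hL hT hA (sI_mem h hg) h3.symm) (h.al.wd_N ht) ?_
  have h4 := chkE_sound h.al hu e2
  simpa only [pv_f, pv_t, pv_nil, one_mul, sI] using h4

theorem one_of {v : D.V} (hv : Rigid D v) {x : D.Γ} (hx : x ∈ SS (gel 54) p0)
    (e1 : x.1 (D.ax p0 1) = D.ax p0 1) (e2 : x.1 v = v) : x = 1 := by
  refine hv x (cent_GG hL hT hA hx.1 ?_) e2
  have h0 := tt_unit (GG_au h hx.1) (h.tt_e false)
  have h1 := tt_unit (GG_au h hx.1) (h.tt_e true)
  change D.tt (x.1 (D.ax p0 0)) = _ at h0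
  change D.tt (x.1 (D.ax p0 1)) = _ at h1
  rw [(mem_SS.1 hx).2, show D.tt (D.ax p0 0) = _ from h.tt_e false] at h0
  rw [e1, show D.tt (D.ax p0 1) = _ from h.tt_e true] at h1
  have h0 := Units.ext h0
  have h1 := Units.ext h1
  change wd gel dW = x * wd gel dW * x⁻¹ at h0
  change wd gel dW * gel 24 = x * (wd gel dW * gel 24) * x⁻¹ at h1
  rw [h.z] at h1
  have : x * D.z * x⁻¹ = D.z := by
    refine mul_left_cancel (a := wd gel dW) ?_
    conv_lhs => rw [h0]
    rw [h1, conj_mul, ← h1]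
  exact mul_inv_eq_iff_eq_mul.1 this

end

end CfsgH5.XM
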