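/-
The Fischer group inside the centraliser of an involution of the Monster.
-/
import Cfsg.Agent.H5.XM1
import Cfsg.Agent.H5.XK3
import Cfsg.Agent.H5.XK4
import Cfsg.Agent.H5.F23S
import Cfsg.Agent.MO.Fin2

set_option autoImplicit false
set_option maxRecDepth 100000

namespace CfsgH5.XM

open CfsgMO CfsgMO.Dat
open CfsgH5.KT (Cox wl wl_cons wl_nil grp)

noncomputable section

/-- the ten generators -/
def sG (x : ℕ) : DD.Γ := sI gel (GW x)

theorem GW_big {x : ℕ} (h : 10 < x) : GW x = [] := by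
  rw [GW, gdL_eq, List.getD_eq_default _ _ (by change 11 ≤ x; omega)]

theorem okGW (x : ℕ) : okW (GW x) = true := by
  by_cases h : x < 11
  · exact (by decide : ∀ x < 11, okW (GW x) = true) x h
  · rw [GW_big (by omega)]; rfl

theorem exV : ∃ v, Rigid DD v ∧ Rp DD BB v vT := okTv_sound good kT

/-- the test vector -/
def vV : DD.V := exV.choose

theorem lk {g t : List ℕ} (e1 : chkC tab av zP g [0] = true)
    (e2 : chkE tab (cP g) [(false, t)] vT = true) (hg : okW g = true := by decide)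
    (ht : okN t = true := by decide) : sI gel g = wd gel t :=
  link ctx2 hypL hypT hypA exV.choose_spec.1 exV.choose_spec.2 hg ht e1 e2

theorem e1 : sG 1 = wd gel s1 := lk kz1 kl1
theorem e2 : sG 2 = wd gel s2 := lk kz2 kl2
theorem e3 : sG 3 = wd gel s3 := lk kz3 kl3
theorem e5 : sG 5 = wd gel s5 := lk kz5 kl5
theorem e6 : sG 6 = wd gel s6 := lk kz6 kl6
theorem e7 : sG 7 = wd gel s7 := lk kz7 kl7
theorem e9 : sG 9 = wd gel s9 := lk kz9 kl9
theorem e10 : sG 10 = wd gel s10 := lk kz10 kl10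

theorem pv_one (w : List ℕ) : pv gel [(false, w)] = wd gel w := one_mul _

theorem pv_three (t s : List ℕ) : pv gel [(true, t), (false, s), (false, t)] =
    wd gel t * wd gel s * (wd gel t)⁻¹ := by
  rw [pv_t, pv_f, pv_f, pv_nil, one_mul]

theorem pv_PW {x : ℕ} (h0 : 0 < x) (h : x < 11) : pv gel (PW x) = sG x := by
  interval_cases x
  · exact (pv_one _).trans e1.symm
  · exact (pv_one _).trans e2.symm
  · exact (pv_one _).trans e3.symm
  · exact (pv_three _ _).trans (by rw [← lk kz4 kl4, ← sI_append]; rfl)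
  · exact (pv_one _).trans e5.symm
  · exact (pv_one _).trans e6.symm
  · exact (pv_one _).trans e7.symm
  · exact (pv_three _ _).trans (by rw [← lk kz8 kl8, ← sI_append]; rfl)
  · exact (pv_one _).trans e9.symm
  · exact (pv_one _).trans e10.symm

theorem sG_SS {x : ℕ} (h0 : 0 < x) (h : x < 11) : sG x ∈ SS (gel 54) pp0 := by
  refine ⟨sI_mem ctx2 (okGW x), ?_⟩
  rw [← pv_PW h0 h]
  by_cases h5 : x < 6
  · exact chkC_sound ctx2 kc0a (by interval_cases x <;> decide)
  · exact chkC_sound ctx2 kc0b (by interval_cases x <;> first | decide | omega)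

theorem cm {y : ℕ} {xs : List ℕ} (e : chkC tab av PW (GW y) xs = true)
    (h : ∀ x ∈ xs, 0 < x ∧ x < 11 := by decide) : ∀ x ∈ xs, (sG x * sG y) ^ 2 = 1 := fun x hx =>
  comm_sI ctx2 (okGW x) (okGW y) (by
    have := chkC_sound ctx2 e hx
    rwa [pv_PW (h x hx).1 (h x hx).2] at this)

theorem br {x y : ℕ} (e : chkB tab av (PW x) (PW y) (GW x) (GW y) = true)
    (h : 0 < x ∧ x < 11 ∧ 0 < y ∧ y < 11 := by decide) : (sG x * sG y) ^ 3 = 1 :=
  braid_sI ctx2 (okGW x) (okGW y) (by
    have := chkB_sound ctx2 e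
    rwa [pv_PW h.1 h.2.1, pv_PW h.2.2.1 h.2.2.2] at this)

def cl : ℕ → List ℕ := gdL [] [[], [3, 9, 10], [9, 10], [10], [1, 2, 5, 6, 7, 9, 10], [1, 3, 9, 10],
  [2, 3, 5, 7, 10], [1, 2, 3, 9, 10], [1, 2, 3, 5, 6, 7, 9], [3, 10]]

def bl : ℕ → List ℕ := gdL [] [[], [], [1], [2], [3], [2], [1], [5], [4], [6], [8]]

theorem cl_ok {y : ℕ} (h : y < 16) : ∀ x ∈ cl y, (sG x * sG y) ^ 2 = 1 := by
  interval_cases y
  exacts [fun _ h => absurd h List.not_mem_nil, cm kc1, cm kc2, cm kc3, cm kc4, cm kc5, cm kc6,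
    cm kc7, cm kc8, cm kc9, fun _ h => absurd h List.not_mem_nil,
    fun _ h => absurd h List.not_mem_nil, fun _ h => absurd h List.not_mem_nil,
    fun _ h => absurd h List.not_mem_nil, fun _ h => absurd h List.not_mem_nil,
    fun _ h => absurd h List.not_mem_nil]

theorem br' {x y : ℕ} (h : (sG x * sG y) ^ 3 = 1) : ∀ u ∈ [x], (sG u * sG y) ^ 3 = 1 :=
  fun _ hu => List.mem_singleton.1 hu ▸ h

theorem bl_ok {y : ℕ} (h : y < 16) : ∀ x ∈ bl y, (sG x * sG y) ^ 3 = 1 := by
  interval_cases y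
  exacts [fun _ h => absurd h List.not_mem_nil, fun _ h => absurd h List.not_mem_nil,
    br' (br kb1_2), br' (br kb2_3), br' (br kb3_4), br' (br kb2_5), br' (br kb1_6), br' (br kb5_7),
    br' (br kb4_8), br' (br kb6_9), br' (br kb8_10), fun _ h => absurd h List.not_mem_nil,
    fun _ h => absurd h List.not_mem_nil, fun _ h => absurd h List.not_mem_nil,
    fun _ h => absurd h List.not_mem_nil, fun _ h => absurd h List.not_mem_nil]

theorem pow_swap {G : Type*} [Group G] {a b : G} {n : ℕ} (h : (a * b) ^ n = 1) : (b * a) ^ n = 1 := by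
  rw [show b * a = b * (a * b) * b⁻¹ by group, conj_pow, h, mul_one, mul_inv_cancel]

theorem cox : Cox sG F23.E := by
  refine ⟨fun x => sI_sq ctx2 _, fun x c hx hc => ⟨fun h => ?_, fun h => ?_⟩⟩
  · rcases (by decide +kernel : ∀ x < 16, ∀ c < 16, ap 2 3 F23.E (c + 16 * x) = 1 →
      c ∈ cl x ∨ x ∈ cl c) x hx c hc h with k | k
    exacts [cl_ok hx c k, pow_swap (cl_ok hc x k)]
  · rcases (by decide +kernel : ∀ x < 16, ∀ c < 16, ap 2 3 F23.E (c + 16 * x) = 2 →
      c ∈ bl x ∨ x ∈ bl c) x hx c hc h with k | k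
    exacts [bl_ok hx c k, pow_swap (bl_ok hc x k)]

theorem en {w n : List ℕ} (e : chkE tab [(false, w)] [(false, n)] vT = true)
    (hw : okN w = true := by decide) (hn : okN n = true := by decide) : wd gel w = wd gel n := by
  have := chkE_sound alph exV.choose_spec.2 e
  rw [pv_one, pv_one] at this
  exact eqN exV.choose_spec.1 (alph.wd_N hw) (alph.wd_N hn) this

theorem en1 : wd gel n1 = sG 3 * sG 2 * sG 6 * sG 1 * sG 2 * sG 7 * sG 5 * sG 2 := by
  rw [← en kn1, e1, e2, e3, e5, e6, e7]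
  simp only [wd_append, mul_assoc]

theorem en2 : wd gel n2 = sG 3 * sG 2 * sG 1 * sG 6 * sG 9 * sG 5 := by
  rw [← en kn2, e1, e2, e3, e5, e6, e9]
  simp only [wd_append, mul_assoc]

theorem pR1 : pv gel R1 = sG 4 * wd gel n1 := by rw [R1, pv_f, pv_PW (by decide) (by decide)]
theorem pR2 : pv gel R2 = sG 4 * wd gel n2 := by rw [R2, pv_f, pv_PW (by decide) (by decide)]

theorem pw_ap (g : DD.Γ) (m n : ℕ) (x : DD.V) : (g ^ m).1 ((g ^ n).1 x) = (g ^ (m + n)).1 x := by
  rw [pow_add, mul_ap]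

theorem mS {x : ℕ} (h : 0 < x ∧ x < 11 := by decide) : sG x ∈ SS (gel 54) pp0 := sG_SS h.1 h.2

theorem rel1 : pv gel R1 ^ 10 = 1 := by
  refine one_of ctx2 hypL hypT hypA exV.choose_spec.1 (pow_mem ?_ _) ?_ ?_
  · rw [pR1, en1]
    exact mul_mem mS (mul_mem (mul_mem (mul_mem (mul_mem (mul_mem (mul_mem (mul_mem mS mS) mS) mS)
      mS) mS) mS) mS)
  · have := chkL_sound alph (chkL_sound alph (chkL_sound alph (chkL_sound alph (rp1 ctx2) ka0) ka1)
      ka2) ka3
    rw [pw_ap, pw_ap, pw_ap] at this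
    exact this.eq good (rp1 ctx2) (by decide +kernel)
  · have := chkL_sound alph (chkL_sound alph (chkL_sound alph (chkL_sound alph (chkL_sound alph
      exV.choose_spec.2 kv0) kv1) kv2) kv3) kv4
    rw [pw_ap, pw_ap, pw_ap, pw_ap] at this
    exact this.eq good exV.choose_spec.2 (by decide +kernel)

theorem rel2 : pv gel R2 ^ 9 = 1 := by
  refine one_of ctx2 hypL hypT hypA exV.choose_spec.1 (pow_mem ?_ _) ?_ ?_
  · rw [pR2, en2]
    exact mul_mem mS (mul_mem (mul_mem (mul_mem (mul_mem (mul_mem mS mS) mS) mS) mS) mS)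
  · have := chkL_sound alph (chkL_sound alph (chkL_sound alph (rp1 ctx2) kb0) kb1) kb2
    rw [pw_ap, pw_ap] at this
    exact this.eq good (rp1 ctx2) (by decide +kernel)
  · have := chkL_sound alph (chkL_sound alph (chkL_sound alph (chkL_sound alph (chkL_sound alph
      exV.choose_spec.2 kw0) kw1) kw2) kw3) kw4
    rw [pw_ap, pw_ap, pw_ap, pw_ap] at this
    exact this.eq good exV.choose_spec.2 (by decide +kernel)

theorem spider : wl sG F23.us ^ 10 = 1 := by
  have h := rel1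
  rw [pR1, en1] at h
  have e : wl sG F23.us = sG 7 * sG 5 * sG 2 * (sG 4 * (sG 3 * sG 2 * sG 6 * sG 1 * sG 2)) := by
    simp only [F23.us, wl_cons, wl_nil, one_mul, mul_assoc]
  rw [e]
  refine pow_swap ?_
  simpa only [mul_assoc] using h

theorem seven : wl sG F23.ue ^ 9 = 1 := by
  have h := rel2
  rw [pR2, en2] at h
  have e : wl sG F23.ue = sG 5 * (sG 4 * (sG 3 * sG 2 * sG 1 * sG 6 * sG 9)) := by
    simp only [F23.ue, wl_cons, wl_nil, one_mul, mul_assoc]
  rw [e]
  refine pow_swap ?_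
  simpa only [mul_assoc] using h

theorem sG_ne : sG 10 ≠ 1 := fun h => by
  have h1 : wd gel dW = 1 := conj_eq_one_iff.1 h
  rw [ctx2.wd_dW] at h1
  exact DD.cls_ne pp0 (zp_xq_inj (D := DD) (a := 0) (b := 0) (by rw [h1, xq_zero])).2

/-- the Fischer group inside the stabiliser of the standard axis -/
theorem exists_Fi23 : ∃ K : Subgroup DD.Γ, K ≤ SS (gel 54) pp0 ∧ IsSimpleGroup K ∧
    Nat.card K = 4089470473293004800 := by
  let f := F23.lift cox spider seven
  have hs := F23.simple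
  have hi : Function.Injective f := by
    rw [← MonoidHom.ker_eq_bot_iff]
    refine (hs.eq_bot_or_eq_top_of_normal _ inferInstance).resolve_right fun h => sG_ne ?_
    rw [← F23.lift_g cox spider seven (by decide) (by decide)]
    exact (h ▸ Subgroup.mem_top _ : F23.g 10 ∈ f.ker)
  refine ⟨f.range, ?_, (f.ofInjective hi).symm.isSimpleGroup, ?_⟩
  · rw [MonoidHom.range_eq_map, ← F23.grp_top, grp, MonoidHom.map_closure, Subgroup.closure_le]
    rintro _ ⟨_, ⟨x, hx, rfl⟩, rfl⟩
    rw [F23.lift_g cox spider seven hx.1 hx.2]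
    exact sG_SS hx.1 (by have := hx.2; omega)
  · rw [← Nat.card_congr (f.ofInjective hi).toEquiv, F23.card_eq]

end

end CfsgH5.XM
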