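/-
Simple subgroups of the Baby Monster: assembly.
-/
import Cfsg.Agent.H5.XM2

set_option autoImplicit false

namespace CfsgH5.XM

open CfsgMO CfsgMO.Dat

noncomputable section

theorem sub_of_cover {C K L : Type} [Group C] [Group K] [Group L] (hc : Cfsg.IsNonsplitDoubleCover C K)
    (f : L →* C) (hf : Function.Injective f) (hs : IsSimpleGroup L) (h2 : 2 < Nat.card L) :
    ∃ M : Subgroup K, IsSimpleGroup M ∧ Nat.card M = Nat.card L := by
  obtain ⟨h1, ⟨e⟩, -⟩ := hc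
  let g : L →* K := e.toMonoidHom.comp ((QuotientGroup.mk' _).comp f)
  have hi : Function.Injective g := by
    rw [← MonoidHom.ker_eq_bot_iff]
    refine (hs.eq_bot_or_eq_top_of_normal _ inferInstance).resolve_right fun h => ?_
    have h3 : ∀ x, f x ∈ Subgroup.center C := fun x => by
      have : g x = 1 := (h ▸ Subgroup.mem_top _ : x ∈ g.ker)
      exact (QuotientGroup.eq_one_iff _).1 (e.map_eq_one_iff.1 this)
    have : Finite (Subgroup.center C) := Nat.finite_of_card_ne_zero (by omega)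
    have := Nat.card_le_card_of_injective (fun x => (⟨f x, h3 x⟩ : Subgroup.center C))
      fun x y e => hf (congrArg Subtype.val e)
    omega
  exact ⟨g.range, (g.ofInjective hi).symm.isSimpleGroup,
    (Nat.card_congr (g.ofInjective hi).toEquiv).symm⟩

variable {D : Dat} {t : D.Γ} {p0 : D.I} {a : Fin 12 → D.V} {w : Fin 12 → Fin 12 → ℕ}
  {s o : Fin 12 → ℕ} {par : Fin 12 → Fin 12}

theorem cover_SS (hL : HypL D) (hT : HypT t) (hA : HypA t p0 a w s o par) (hS : HypS t p0 a)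
    (hC : HypC t p0) :
    ∃ (K : Type) (_ : Group K), Cfsg.IsB K ∧ Cfsg.IsNonsplitDoubleCover (SS t p0) K := by
  have := finite_GG hL hT hA
  have : Finite (SS t p0) :=
    Finite.of_injective _ (Subgroup.inclusion_injective (inf_le_left : SS t p0 ≤ D.GG t))
  have hdd : D.xq (D.cls p0) * D.xq (D.cls p0) = 1 := by
    rw [xq_mul, D.cls_sing, Cl_aa, xq_zero, zp_zero, mul_one]
  have hd1 : D.xq (D.cls p0) ≠ 1 := fun h => D.cls_ne p0 (zp_xq_inj (D := D) (a := 0) (b := 0)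
    (by rw [h, xq_zero])).2
  obtain ⟨e, he⟩ := hT.tz
  have hO := pol_Om hL hC
  obtain ⟨u, hu, k⟩ := perp_perp (D.cls_ne p0) hL.om.1 (hL.om.2.2 p0).symm
  have htS : t ∈ SS t p0 := ⟨t_mem_GG t, hS.tv⟩
  have hc := comm_zx (D := D) e k
  refine cover_of (SS t p0).subtype Subtype.val_injective (Subgroup.range_subtype _)
    (d := D.xq (D.cls p0)) (z := D.z) (u := t) (v := D.xq u * t)
    (xq_SS (pol_self _)) htS (mul_mem (xq_SS hu) htS) (xq_SS hu) (zx_SS e hO)
    (fun g hg => mul_inv_eq_iff_eq_mul.1 ((cent_d hL hT hA hS hg.1).2 hg)) hdd hd1 D.z_mul_z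
    D.z_ne_one hc ?_ (key_SS hL hT hA hS hC) (fun K hK hn hd l hl h => ?_) (fun g hg h => ?_)
    (card_SS hL hT hA)
  · rw [← he] at hc
    rw [← mul_inv_eq_iff_eq_mul, ← hc]
    conv_lhs => rw [hc]
    group
  · rcases z_mem_of hL hC (fun c hc => hn _ (xq_SS hc)) hl (cent_GG hL hT hA (hK hl).1 h) with
      h | ⟨e, h | h⟩
    · exact Or.inr (Or.inr h)
    · rcases F2_cases e with rfl | rfl
      exacts [Or.inl h, Or.inr (Or.inr (show D.zp 1 ∈ K from h ▸ hl))]
    · rcases F2_cases e with rfl | rfl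
      · exact Or.inr (Or.inl (by rwa [zp_zero, one_mul] at h))
      · exact Or.inr (Or.inr ((K.mul_mem_cancel_right hd).1 (show D.zp 1 * _ ∈ K from h ▸ hl)))
  · exact not_conj hL hT hA hg.1 1 (h.trans (D.z_comm (D.xq_mem _)))

/-- a subgroup which fixes an axis embeds in the stabiliser of the standard axis -/
theorem emb_SS (hL : HypL D) (hT : HypT t) (hA : HypA t p0 a w s o par) {A : D.V} (mA : A ∈ Dd a)
    {K : Subgroup D.Γ} (h1 : K ≤ D.GG t) (h2 : ∀ k ∈ K, k.1 A = A) :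
    ∃ f : K →* SS t p0, Function.Injective f := by
  rw [← orbit_GG hL hT hA] at mA
  obtain ⟨g, hg, e⟩ := mA
  change g.1 _ = _ at e
  refine ⟨((MulAut.conj g⁻¹).toMonoidHom.comp K.subtype).codRestrict _ fun k => ?_, ?_⟩
  · refine mem_SS.2 ⟨mul_mem (mul_mem (inv_mem hg) (h1 k.2)) (inv_mem (inv_mem hg)), ?_⟩
    change (g⁻¹ * k.1 * g⁻¹⁻¹).1 _ = _
    rw [inv_inv, mul_ap, mul_ap, e, h2 k.1 k.2, ← e, unit_inj]
  · intro x y h
    exact Subtype.ext ((MulAut.conj g⁻¹).injective (congrArg Subtype.val h))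

/-- a simple group of order `n` which fixes an axis -/
def Fix (n : ℕ) : Prop := ∃ A ∈ Dd (aa DD BB av), ∃ K : Subgroup DD.Γ, K ≤ DD.GG (gel 54) ∧
  (∀ k ∈ K, k.1 A = A) ∧ IsSimpleGroup K ∧ Nat.card K = n

theorem fix_Fi23 : Fix 4089470473293004800 := by
  obtain ⟨K, h1, h2, h3⟩ := exists_Fi23
  refine ⟨DD.ax pp0 0, ?_, K, fun k hk => (h1 hk).1, fun k hk => (h1 hk).2, h2, h3⟩
  rw [← orbit_GG hypL hypT hypA]
  exact ⟨1, one_mem _, rfl⟩

theorem s0474_of (h3 : Fix 90745943887872000) (h5 : Fix 273030912000000) :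
    ∃ (G : Type) (_ : Group G) (_ : Finite G), Cfsg.IsB G ∧ (∃ K : Subgroup G, Cfsg.IsTh K) ∧
      (∃ K : Subgroup G, Cfsg.IsHN K) ∧ (∃ K : Subgroup G, Cfsg.IsFi23 K) := by
  obtain ⟨G, _, hB, hc⟩ := cover_SS hypL hypT hypA hypS (hypC ctx.cls0)
  have key : ∀ n, 2 < n → Fix n → ∃ M : Subgroup G, IsSimpleGroup M ∧ Nat.card M = n := by
    rintro n hn ⟨A, mA, K, h1, h2, hs, rfl⟩
    obtain ⟨f, hf⟩ := emb_SS hypL hypT hypA mA h1 h2
    exact sub_of_cover hc f hf hs hn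
  exact ⟨G, inferInstance, Nat.finite_of_card_ne_zero (by rw [hB.2]; norm_num), hB,
    key _ (by norm_num) h3, key _ (by norm_num) h5, key _ (by norm_num) fix_Fi23⟩

end

end CfsgH5.XM
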